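import Cfsg.Agent.H11.CopFF

/-!
The plane fixed by a coprime operator group, and the quotient of the fixed points acting on it.
-/

set_option autoImplicit false
set_option linter.unusedSectionVars false

namespace Cfsg.Agent.H11

open Cfsg
open scoped commutatorElement

section Cop

variable {G : Type*} [Group G] [Finite G] {p q : ℕ} [hp : Fact p.Prime] [hqf : Fact q.Prime]
  {V H Q X : Subgroup G}

/-- the plane fixed by `X` -/
def W0 (V Q X A : Subgroup G) : Subgroup G := UU V Q X A ⊓ Subgroup.centralizer (X : Set G)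

theorem mem_centralizer_iff_conj {u : G} :
    u ∈ Subgroup.centralizer (X : Set G) ↔ ∀ x ∈ X, x * u * x⁻¹ = u := by
  rw [Subgroup.mem_centralizer_iff]
  constructor
  · intro h x hx
    rw [h x hx, mul_inv_cancel_right]
  · intro h x hx
    calc x * u = x * u * x⁻¹ * x := by group
      _ = u * x := by rw [h x hx]

theorem Cop.W0_fixed {A : Subgroup G} {u : G} (hu : u ∈ W0 V Q X A)
    (hc : u ∈ Subgroup.centralizer (EE Q A : Set G)) {x : G} (hx : x ∈ X) :
    u ∈ Subgroup.centralizer (((EE Q A).map (MulAut.conj x).toMonoidHom : Subgroup G) : Set G) := by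
  have h1 := mem_centralizer_iff_conj.1 (Subgroup.mem_inf.1 hu).2 x hx
  rw [Subgroup.mem_centralizer_iff] at hc ⊢
  rintro _ ⟨e, he, rfl⟩
  have h2 := hc e he
  change x * e * x⁻¹ * u = u * (x * e * x⁻¹)
  calc x * e * x⁻¹ * u = x * e * x⁻¹ * (x * u * x⁻¹) := by rw [h1]
    _ = x * (e * u) * x⁻¹ := by group
    _ = x * (u * e) * x⁻¹ := by rw [h2]
    _ = (x * u * x⁻¹) * (x * e * x⁻¹) := by group
    _ = u * (x * e * x⁻¹) := by rw [h1]

theorem Cop.W0_inf (S : Setup p V H Q) (C : Cop q V H Q X) {A : Subgroup G}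
    (hA : IsTv p V H A) :
    W0 V Q X A ⊓ (V ⊓ Subgroup.centralizer (EE Q A : Set G)) = ⊥ := by
  rw [eq_bot_iff]
  intro u hu
  rw [Subgroup.mem_inf, Subgroup.mem_inf] at hu
  rw [Subgroup.mem_bot]
  exact C.UU_inf S hA (Subgroup.mem_inf.1 hu.1).1 (fun x hx => Cop.W0_fixed hu.1 hu.2.2 hx)

theorem Cop.W0_sup (S : Setup p V H Q) (C : Cop q V H Q X) {A : Subgroup G}
    (hA : IsTv p V H A) :
    W0 V Q X A ⊔ (V ⊓ Subgroup.centralizer (EE Q A : Set G)) = V := by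
  have hUV := C.UU_le S hA
  apply le_antisymm (sup_le (inf_le_left.trans hUV) inf_le_left)
  have h1 : ⁅V, EE Q A⁆ ≤ W0 V Q X A ⊔ (V ⊓ Subgroup.centralizer (EE Q A : Set G)) := by
    intro w hw
    obtain ⟨u, hu, hfix, hc⟩ := C.vec S hA hw
    have h2 : w = (u * w⁻¹)⁻¹ * u := by group
    rw [h2]
    refine mul_mem (Subgroup.mem_sup_right ?_) (Subgroup.mem_sup_left ?_)
    · exact inv_mem (Subgroup.mem_inf.2 ⟨mul_mem (hUV hu) (inv_mem (hA.W_le S hw)), hc⟩)
    · exact Subgroup.mem_inf.2 ⟨hu, mem_centralizer_iff_conj.2 hfix⟩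
  conv_lhs => rw [← (hA.pairEE S).sup]
  exact sup_le h1 le_sup_right

theorem Cop.W0_le (S : Setup p V H Q) (C : Cop q V H Q X) {A : Subgroup G}
    (hA : IsTv p V H A) : W0 V Q X A ≤ V := inf_le_left.trans (C.UU_le S hA)

theorem Cop.card_W0 (S : Setup p V H Q) (C : Cop q V H Q X) {A : Subgroup G}
    (hA : IsTv p V H A) : Nat.card ↥(W0 V Q X A) = p ^ 2 := by
  have h1 := card_sup_of_disjoint (le_normalizer_of_comm S.hV.1 (C.W0_le S hA) inf_le_left)
    (C.W0_inf S hA)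
  have P := hA.pairEE S
  have h2 : ⁅V, EE Q A⁆ ⊓ (V ⊓ Subgroup.centralizer (EE Q A : Set G)) = ⊥ := by
    rw [eq_bot_iff, ← P.inf]
    exact inf_le_inf le_rfl inf_le_right
  have h3 := card_sup_of_disjoint (le_normalizer_of_comm S.hV.1 (hA.W_le S) inf_le_left) h2
  rw [C.W0_sup S hA] at h1
  rw [P.sup, P.card] at h3
  exact (Nat.eq_of_mul_eq_mul_right Nat.card_pos (h3.symm.trans h1)).symm

variable (hS3 : H = ⨆ A : {A : Subgroup G // A ≤ H ∧ IsBestOffenderOn p V A}, (A : Subgroup G))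

include hS3

theorem Cop.norm_W0 (S : Setup p V H Q) (C : Cop q V H Q X) {A : Subgroup G}
    (hA : IsTv p V H A) {h : G} (hh : h ∈ H) (hX : h ∈ Subgroup.centralizer (X : Set G)) :
    h ∈ Subgroup.normalizer (W0 V Q X A : Set G) := by
  have hXc := mem_centralizer_iff_conj.1 hX
  have hU : ∀ h ∈ H, ∀ u ∈ UU V Q X A, h * u * h⁻¹ ∈ UU V Q X A := by
    intro h hh u hu
    have h1 : (UU V Q X A).map (MulAut.conj h).toMonoidHom ≤ UU V Q X A := by
      unfold UU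
      rw [Subgroup.map_iSup]
      refine iSup_mono ?_
      rintro ⟨x, hx⟩
      have hAx := hA.conjX (C.hXV hx) (C.hXH hx)
      have h2 : h ∈ Subgroup.normalizer
          (((⁅V, EE Q A⁆).map (MulAut.conj x).toMonoidHom : Subgroup G) : Set G) := by
        rw [← W_conjX _ (C.hXV hx), ← EE_conjX A (C.hXQ hx)]
        exact le_normalizer_commutator S.hHV (hAx.norm S hS3) hh
      exact (map_conj_eq_self h2).le
    exact h1 ⟨u, hu, rfl⟩
  have hUH : H ≤ Subgroup.normalizer (UU V Q X A : Set G) := le_normalizer_of_conj hU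
  have hcc : h ∈ Subgroup.normalizer (Subgroup.centralizer (X : Set G) : Set G) :=
    Subgroup.le_normalizer hX
  rw [Subgroup.mem_normalizer_iff]
  intro u
  unfold W0
  rw [Subgroup.mem_inf, Subgroup.mem_inf, (Subgroup.mem_normalizer_iff.1 (hUH hh) u),
    (Subgroup.mem_normalizer_iff.1 hcc u)]

theorem Cop.cent_W0 (S : Setup p V H Q) (C : Cop q V H Q X) {A : Subgroup G}
    (hA : IsTv p V H A) {h : G} (hh : h ∈ H) (hX : h ∈ Subgroup.centralizer (X : Set G)) :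
    h ∈ Subgroup.centralizer (W0 V Q X A : Set G) ↔
      h ∈ Subgroup.centralizer ((⁅V, EE Q A⁆ : Subgroup G) : Set G) := by
  have hXc := mem_centralizer_iff_conj.1 hX
  have hUV := C.UU_le S hA
  constructor
  · intro hc
    rw [mem_centralizer_iff''] at hc ⊢
    intro w hw
    obtain ⟨u, hu, hfix, hcu⟩ := C.vec S hA hw
    have hu0 : u ∈ W0 V Q X A := Subgroup.mem_inf.2 ⟨hu, mem_centralizer_iff_conj.2 hfix⟩
    have h1 := hc u hu0
    set c := u * w⁻¹ with hcdef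
    have hcV : c ∈ V ⊓ Subgroup.centralizer (EE Q A : Set G) :=
      Subgroup.mem_inf.2 ⟨mul_mem (hUV hu) (inv_mem (hA.W_le S hw)), hcu⟩
    have hn : h ∈ Subgroup.normalizer
        ((V ⊓ Subgroup.centralizer (EE Q A : Set G) : Subgroup G) : Set G) :=
      le_normalizer_inf S.hHV (le_normalizer_centralizer (hA.norm S hS3)) hh
    have hnW : h ∈ Subgroup.normalizer ((⁅V, EE Q A⁆ : Subgroup G) : Set G) :=
      le_normalizer_commutator S.hHV (hA.norm S hS3) hh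
    have h2 : h * c⁻¹ * h⁻¹ * c ∈ V ⊓ Subgroup.centralizer (EE Q A : Set G) :=
      mul_mem ((Subgroup.mem_normalizer_iff.1 hn _).1 (inv_mem hcV)) hcV
    have h3 : h * w * h⁻¹ * w⁻¹ = h * c⁻¹ * h⁻¹ * c := by
      have e1 : w = c⁻¹ * u := by rw [hcdef]; group
      have e2 : h * u * h⁻¹ = u := by rw [h1, mul_inv_cancel_right]
      calc h * w * h⁻¹ * w⁻¹ = h * (c⁻¹ * u) * h⁻¹ * (c⁻¹ * u)⁻¹ := by rw [← e1]
        _ = h * c⁻¹ * h⁻¹ * (h * u * h⁻¹) * u⁻¹ * c := by group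
        _ = h * c⁻¹ * h⁻¹ * c := by rw [e2]; group
    have h4 : h * w * h⁻¹ * w⁻¹ ∈ ⁅V, EE Q A⁆ ⊓ Subgroup.centralizer (EE Q A : Set G) := by
      refine Subgroup.mem_inf.2 ⟨mul_mem ((Subgroup.mem_normalizer_iff.1 hnW _).1 hw)
        (inv_mem hw), ?_⟩
      rw [h3]
      exact (Subgroup.mem_inf.1 h2).2
    rw [(hA.pairEE S).inf, Subgroup.mem_bot, mul_inv_eq_one] at h4
    calc h * w = h * w * h⁻¹ * h := by group
      _ = w * h := by rw [h4]
  · intro hc
    have h1 : UU V Q X A ≤ Subgroup.centralizer ({h} : Set G) := by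
      refine iSup_le ?_
      rintro ⟨x, hx⟩ _ ⟨w, hw, rfl⟩
      rw [Subgroup.mem_centralizer_iff]
      intro z hz
      rw [Set.mem_singleton_iff.1 hz]
      have h2 := mem_centralizer_iff''.1 hc w hw
      have h3 := hXc x hx
      change h * (x * w * x⁻¹) = x * w * x⁻¹ * h
      calc h * (x * w * x⁻¹) = (x * h * x⁻¹) * (x * w * x⁻¹) := by rw [h3]
        _ = x * (h * w) * x⁻¹ := by group
        _ = x * (w * h) * x⁻¹ := by rw [h2]
        _ = x * w * x⁻¹ * (x * h * x⁻¹) := by group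
        _ = x * w * x⁻¹ * h := by rw [h3]
    rw [mem_centralizer_iff'']
    intro u hu
    exact Subgroup.mem_centralizer_iff.1 (h1 (Subgroup.mem_inf.1 hu).1) h rfl

theorem Cop.exists_hom (S : Setup p V H Q) (C : Cop q V H Q X) {A : Subgroup G}
    (hA : IsTv p V H A) :
    ∃ f : ↥(H ⊓ Subgroup.centralizer (X : Set G)) →*
        Matrix.SpecialLinearGroup (Fin 2) (ZMod p),
      Function.Surjective f ∧ ∀ h, f h = 1 ↔ (h : G) ∈ Subgroup.centralizer (W0 V Q X A : Set G) := by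
  set W := ⁅V, EE Q A⁆ with hW
  set F := H ⊓ Subgroup.centralizer (W : Set G) with hF
  have hWn : H ≤ Subgroup.normalizer (W : Set G) := le_normalizer_commutator S.hHV (hA.norm S hS3)
  have hFn' : H ≤ Subgroup.normalizer (F : Set G) :=
    le_normalizer_inf Subgroup.le_normalizer (le_normalizer_centralizer hWn)
  have hFn : (F.subgroupOf H).Normal := Subgroup.normal_subgroupOf_of_le_normalizer hFn'
  obtain ⟨hEF, hEFc⟩ := hA.complement S hS3
  rw [← hW, ← hF] at hEF hEFc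
  let ψ : ↥(EE Q A) →* ↥H ⧸ F.subgroupOf H :=
    (QuotientGroup.mk' (F.subgroupOf H)).comp (Subgroup.inclusion (hA.EE_le S))
  have hψ : Function.Bijective ψ := by
    constructor
    · rw [injective_iff_map_eq_one]
      intro e he
      have h1 : Subgroup.inclusion (hA.EE_le S) e ∈ F.subgroupOf H :=
        (QuotientGroup.eq_one_iff _).1 he
      have h2 : (e : G) ∈ F := Subgroup.mem_subgroupOf.1 h1
      have h3 : (e : G) ∈ EE Q A ⊓ Subgroup.centralizer (W : Set G) :=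
        Subgroup.mem_inf.2 ⟨e.2, (Subgroup.mem_inf.1 h2).2⟩
      rw [(hA.pairEE S).faithful, Subgroup.mem_bot] at h3
      exact Subtype.ext h3
    · intro y
      obtain ⟨⟨h, hh⟩, rfl⟩ := QuotientGroup.mk_surjective y
      have h1 : h ∈ EE Q A ⊔ F := by rw [hEF]; exact hh
      rw [mem_sup_of_le_normalizer ((hA.EE_le S).trans hFn')] at h1
      obtain ⟨e, he, f, hf, rfl⟩ := h1
      refine ⟨⟨e, he⟩, ?_⟩
      change QuotientGroup.mk' (F.subgroupOf H) _ = QuotientGroup.mk' (F.subgroupOf H) _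
      rw [QuotientGroup.mk'_eq_mk']
      refine ⟨⟨f, (Subgroup.mem_inf.1 hf).1⟩, Subgroup.mem_subgroupOf.2 hf, rfl⟩
  obtain ⟨y, hy, hyA⟩ := hA.exists_not_comm S
  obtain ⟨φ0, -⟩ := S.pair_sl2 hA (hA.conj S (S.hQH hy)) (S.ne_bot_of_conj hA.le hy hyA)
  let φ : ↥(EE Q A) ≃* Matrix.SpecialLinearGroup (Fin 2) (ZMod p) :=
    (MulEquiv.subgroupCongr (S.EE_eq hA hy hyA)).trans φ0
  let Ψ : ↥(EE Q A) ≃* (↥H ⧸ F.subgroupOf H) := MulEquiv.ofBijective ψ hψ
  let f : ↥(H ⊓ Subgroup.centralizer (X : Set G)) →*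
      Matrix.SpecialLinearGroup (Fin 2) (ZMod p) :=
    (Ψ.symm.trans φ).toMonoidHom.comp ((QuotientGroup.mk' (F.subgroupOf H)).comp
      (Subgroup.inclusion inf_le_left))
  refine ⟨f, ?_, ?_⟩
  · intro z
    obtain ⟨h, hh, hfix, hw⟩ := C.comp S hA (φ.symm z).2
    refine ⟨⟨h, Subgroup.mem_inf.2 ⟨hh, mem_centralizer_iff_conj.2 hfix⟩⟩, ?_⟩
    change φ (Ψ.symm (QuotientGroup.mk' (F.subgroupOf H) ⟨h, hh⟩)) = z
    rw [← MulEquiv.eq_symm_apply φ, MulEquiv.symm_apply_eq]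
    change QuotientGroup.mk' (F.subgroupOf H) ⟨h, hh⟩ = QuotientGroup.mk' (F.subgroupOf H)
      (Subgroup.inclusion (hA.EE_le S) (φ.symm z))
    symm
    rw [QuotientGroup.mk'_eq_mk']
    have heH : ((φ.symm z : ↥(EE Q A)) : G) ∈ H := hA.EE_le S (φ.symm z).2
    have hF1 : ((φ.symm z : ↥(EE Q A)) : G)⁻¹ * h ∈ F := by
      refine Subgroup.mem_inf.2 ⟨mul_mem (inv_mem heH) hh, ?_⟩
      rw [mem_centralizer_iff'']
      intro w hwW
      have := hw w hwW
      calc ((φ.symm z : ↥(EE Q A)) : G)⁻¹ * h * w =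
          ((φ.symm z : ↥(EE Q A)) : G)⁻¹ * (h * w * h⁻¹) * h := by group
        _ = w * (((φ.symm z : ↥(EE Q A)) : G)⁻¹ * h) := by rw [this]; group
    refine ⟨⟨_, (Subgroup.mem_inf.1 hF1).1⟩, Subgroup.mem_subgroupOf.2 hF1, ?_⟩
    apply Subtype.ext
    change ((φ.symm z : ↥(EE Q A)) : G) * (((φ.symm z : ↥(EE Q A)) : G)⁻¹ * h) = h
    group
  · rintro ⟨h, hh⟩
    rw [Subgroup.mem_inf] at hh
    rw [C.cent_W0 hS3 S hA hh.1 hh.2]
    have h1 : f ⟨h, Subgroup.mem_inf.2 hh⟩ = 1 ↔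
        QuotientGroup.mk' (F.subgroupOf H) ⟨h, hh.1⟩ = 1 := by
      change (Ψ.symm.trans φ) (QuotientGroup.mk' (F.subgroupOf H) ⟨h, hh.1⟩) = 1 ↔ _
      exact MulEquiv.map_eq_one_iff _
    rw [h1]
    change ((⟨h, hh.1⟩ : H) : ↥H ⧸ F.subgroupOf H) = 1 ↔ _
    rw [QuotientGroup.eq_one_iff, Subgroup.mem_subgroupOf]
    exact ⟨fun h2 => (Subgroup.mem_inf.1 h2).2, fun h2 => Subgroup.mem_inf.2 ⟨hh.1, h2⟩⟩

/-- `E` lies in every subgroup containing `A` and the `X`-fixed elements of `H` -/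
theorem Cop.EE_le_of (S : Setup p V H Q) (C : Cop q V H Q X) {A M : Subgroup G}
    (hA : IsTv p V H A) (hAM : A ≤ M)
    (hM : ∀ h ∈ H, h ∈ Subgroup.centralizer (X : Set G) → h ∈ M) : EE Q A ≤ M := by
  obtain ⟨x, hx, hxA⟩ := hA.exists_not_comm S
  obtain ⟨hEF, hEFc⟩ := hA.complement S hS3
  set W := ⁅V, EE Q A⁆ with hW
  set F := H ⊓ Subgroup.centralizer (W : Set G) with hF
  have hWn : H ≤ Subgroup.normalizer (W : Set G) := le_normalizer_commutator S.hHV (hA.norm S hS3)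
  have hFn' : H ≤ Subgroup.normalizer (F : Set G) :=
    le_normalizer_inf Subgroup.le_normalizer (le_normalizer_centralizer hWn)
  have hFc : ∀ f ∈ F, ∀ e ∈ EE Q A, f * e * f⁻¹ = e := by
    intro f hf e he
    rw [Subgroup.commutator_eq_bot_iff_le_centralizer] at hEFc
    have := Subgroup.mem_centralizer_iff.1 (hEFc he) f hf
    rw [this, mul_inv_cancel_right]
  rw [S.EE_eq hA hx hxA]
  refine sup_le hAM ?_
  rintro _ ⟨a, ha, rfl⟩
  have haE : a ∈ EE Q A := Subgroup.mem_sup_right ha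
  have h1 : x ∈ EE Q A ⊔ F := by rw [hEF]; exact S.hQH hx
  rw [mem_sup_of_le_normalizer ((hA.EE_le S).trans hFn')] at h1
  obtain ⟨e, he, f, hf, rfl⟩ := h1
  obtain ⟨h, hh, hfix, hw⟩ := C.comp S hA he
  have hF1 : e⁻¹ * h ∈ F := by
    refine Subgroup.mem_inf.2 ⟨mul_mem (inv_mem (hA.EE_le S he)) hh, ?_⟩
    rw [mem_centralizer_iff'']
    intro w hwW
    have := hw w hwW
    calc e⁻¹ * h * w = e⁻¹ * (h * w * h⁻¹) * h := by group
      _ = w * (e⁻¹ * h) := by rw [this]; group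
  have e1 : e * f * a * (e * f)⁻¹ = h * a * h⁻¹ := by
    have e2 := hFc f hf a haE
    have e3 := hFc _ hF1 a haE
    calc e * f * a * (e * f)⁻¹ = e * (f * a * f⁻¹) * e⁻¹ := by group
      _ = e * a * e⁻¹ := by rw [e2]
      _ = e * (e⁻¹ * h * a * (e⁻¹ * h)⁻¹) * e⁻¹ := by rw [e3]
      _ = h * a * h⁻¹ := by group
  change e * f * a * (e * f)⁻¹ ∈ M
  rw [e1]
  have hhM := hM h hh (mem_centralizer_iff_conj.2 hfix)
  exact mul_mem (mul_mem hhM (hAM ha)) (inv_mem hhM)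

end Cop

end Cfsg.Agent.H11
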