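import Cfsg.Agent.H11.CopFF2
import Cfsg.Agent.S0601
import Cfsg.Agent.S0602
import Cfsg.Agent.S0606
import Cfsg.Agent.S0608

/-!
A coprime operator group acting on a `p`-separable group without Thompson factorization.
-/

set_option autoImplicit false
set_option linter.unusedSectionVars false

namespace Cfsg.Agent.H11

open Cfsg
open scoped commutatorElement

section Hol

variable {K : Type*} [Group K] {X' : Type*} [Group X'] (c : X' →* MulAut K)
  (V : Subgroup K) [hVc : V.Characteristic]

theorem char_mem (α : MulAut K) {v : K} (hv : v ∈ V) : α v ∈ V := by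
  have h := hVc.fixed α
  rw [← h] at hv
  exact hv

/-- restriction of automorphisms to a characteristic subgroup -/
def rAut : MulAut K →* MulAut V where
  toFun α :=
    { toFun := fun v => ⟨α v, char_mem V α v.2⟩
      invFun := fun v => ⟨α.symm v, char_mem V α.symm v.2⟩
      left_inv := fun v => Subtype.ext (α.symm_apply_apply v)
      right_inv := fun v => Subtype.ext (α.apply_symm_apply v)
      map_mul' := fun v w => Subtype.ext (map_mul α (v : K) (w : K)) }
  map_one' := by ext v; rfl
  map_mul' := fun α β => by ext v; rfl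

/-- the operator group in the holomorph -/
def hX : X' →* HolL V := SemidirectProduct.inr.comp ((rAut V).comp c)

theorem hX_iota (x : X') (v : V) :
    hX c V x * hiota V v * (hX c V x)⁻¹ = hiota V (rAut V (c x) v) := by
  have h := SemidirectProduct.inl_aut (φ := MonoidHom.id (MulAut V)) (rAut V (c x)) v
  rw [map_inv] at h
  exact h.symm

theorem hX_rho (x : X') (k : K) :
    hX c V x * hrho V k * (hX c V x)⁻¹ = hrho V (c x k) := by
  unfold hX hrho
  rw [MonoidHom.comp_apply, MonoidHom.comp_apply, MonoidHom.comp_apply, ← map_inv, ← map_mul,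
    ← map_mul]
  refine congrArg _ (MulEquiv.ext fun v => Subtype.ext ?_)
  change c x (k * ((c x).symm (v : K)) * k⁻¹) = (c x k) * v * (c x k)⁻¹
  rw [map_mul, map_mul, map_inv, MulEquiv.apply_symm_apply]

variable {p q : ℕ} [hp : Fact p.Prime] [hqf : Fact q.Prime] [Finite K]

theorem le_norm_char {G : Type*} [Group G] (H : Subgroup G) (p : ℕ) {x : G}
    (hx : x ∈ Subgroup.normalizer (H : Set G)) :
    x ∈ Subgroup.normalizer (((pPrimeCore p ↥H).map H.subtype : Subgroup G) : Set G) := by
  have key : ∀ x ∈ Subgroup.normalizer (H : Set G), ∀ z ∈ (pPrimeCore p ↥H).map H.subtype,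
      x * z * x⁻¹ ∈ (pPrimeCore p ↥H).map H.subtype := by
    rintro x hx _ ⟨z, hz, rfl⟩
    refine ⟨H.normalizerMonoidHom ⟨x, hx⟩ z, ?_, rfl⟩
    exact char_mem (pPrimeCore p ↥H) _ hz
  have h1 : Subgroup.normalizer (H : Set G) ≤
      Subgroup.normalizer (((pPrimeCore p ↥H).map H.subtype : Subgroup G) : Set G) :=
    le_normalizer_of_conj key
  exact h1 hx

theorem hcop {J : Subgroup K} (hJ : J.Characteristic) (hX' : IsPGroup q X')
    (hq : ¬ q ∣ Nat.card K) :
    Cop q (hV' V) (J.map (hrho V))
      ((pPrimeCore p ↥(J.map (hrho V))).map (J.map (hrho V)).subtype) (hX c V).range where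
  hXV := hle_normalizer _
  hXH := by
    apply le_normalizer_of_conj
    rintro _ ⟨x, rfl⟩ _ ⟨j, hj, rfl⟩
    rw [hX_rho]
    exact ⟨c x j, char_mem J (c x) hj, rfl⟩
  hXQ := by
    intro x hx
    apply le_norm_char
    have h1 : (hX c V).range ≤ Subgroup.normalizer (J.map (hrho V) : Set (HolL V)) := by
      apply le_normalizer_of_conj
      rintro _ ⟨x, rfl⟩ _ ⟨j, hj, rfl⟩
      rw [hX_rho]
      exact ⟨c x j, char_mem J (c x) hj, rfl⟩
    exact h1 hx
  hX := by
    exact hX'.of_surjective (hX c V).rangeRestrict (hX c V).rangeRestrict_surjective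
  hqH := fun h => hq ((h.trans (Subgroup.card_map_dvd _ _)).trans (Subgroup.card_subgroup_dvd_card J))
  hqV := fun h => by
    rw [hcard_V'] at h
    exact hq (h.trans (Subgroup.card_subgroup_dvd_card V))

/-- `X`-fixed elements of the image lift to `X`-fixed elements -/
theorem hlift {J : Subgroup K} (hJ : J.Characteristic) (hX' : IsPGroup q X')
    (hq : ¬ q ∣ Nat.card K) {h : HolL V} (hh : h ∈ J.map (hrho V))
    (hhX : h ∈ Subgroup.centralizer ((hX c V).range : Set (HolL V))) :
    ∃ k ∈ J, hrho V k = h ∧ ∀ x, c x k = k := by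
  have hfin : Finite (HolL V) := finite_hol V
  obtain ⟨j, hj, rfl⟩ := hh
  have hfix : ∀ x, hrho V (c x j) = hrho V j := by
    intro x
    rw [← hX_rho]
    have := (mem_centralizer_iff_conj (X := (hX c V).range)).1 hhX (hX c V x) ⟨x, rfl⟩
    exact this
  let α := {k : K // k ∈ J ∧ hrho V k = hrho V j}
  have hmem : ∀ (x : X') (k : α), c x k.1 ∈ J ∧ hrho V (c x k.1) = hrho V j := by
    rintro x ⟨k, hk, hkj⟩
    refine ⟨char_mem J (c x) hk, ?_⟩
    change hrho V (c x k) = _
    rw [← hX_rho, hkj, hX_rho, hfix]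
  let act : MulAction X' α :=
    { smul := fun x k => ⟨c x k.1, hmem x k⟩
      one_smul := fun k => Subtype.ext (by
        change c 1 k.1 = k.1
        rw [map_one]; rfl)
      mul_smul := fun x y k => Subtype.ext (by
        change c (x * y) k.1 = c x (c y k.1)
        rw [map_mul]; rfl) }
  let N : Subgroup K := J ⊓ (hrho V).ker
  have hcard : Nat.card α = Nat.card N :=
    Nat.card_congr
      { toFun := fun k => ⟨j⁻¹ * k.1, Subgroup.mem_inf.2 ⟨mul_mem (inv_mem hj) k.2.1, by
          rw [MonoidHom.mem_ker, map_mul, map_inv, k.2.2, inv_mul_cancel]⟩⟩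
        invFun := fun n => ⟨j * n.1, mul_mem hj (Subgroup.mem_inf.1 n.2).1, by
          rw [map_mul, MonoidHom.mem_ker.1 (Subgroup.mem_inf.1 n.2).2, mul_one]⟩
        left_inv := fun k => Subtype.ext (mul_inv_cancel_left j k.1)
        right_inv := fun n => Subtype.ext (inv_mul_cancel_left j n.1) }
  obtain ⟨y, hy⟩ := hX'.nonempty_fixed_point_of_prime_not_dvd_card α (by
    rw [hcard]
    exact fun h => hq (h.trans (Subgroup.card_subgroup_dvd_card N)))
  exact ⟨y.1, y.2.1, y.2.2, fun x => congrArg Subtype.val (hy x)⟩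

end Hol

section Data

variable {K : Type*} [Group K] [Finite K] {p : ℕ} [hp : Fact p.Prime]

theorem V_char : (⨆ S : Sylow p K, omegaOne p
    ((S : Subgroup K) ⊓ Subgroup.centralizer ((S : Subgroup K) : Set K))).Characteristic := by
  rw [Subgroup.characteristic_iff_map_le]
  intro φ
  rw [Subgroup.map_iSup]
  apply iSup_le
  intro S
  rw [H36.Omega.omegaCenter_map _ _ (fun x _ hx => by simpa using hx)]
  have h1 : IsPGroup p ((S : Subgroup K).map φ.toMonoidHom) := S.2.map _
  obtain ⟨T, hT⟩ := h1.exists_le_sylow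
  have h2 : (S : Subgroup K).map φ.toMonoidHom = (T : Subgroup K) := by
    apply Subgroup.eq_of_le_of_card_ge hT
    rw [Subgroup.card_map_of_injective φ.injective, S.card_eq_multiplicity,
      T.card_eq_multiplicity]
  rw [h2]
  exact le_iSup (fun S : Sylow p K => omegaOne p
    ((S : Subgroup K) ⊓ Subgroup.centralizer ((S : Subgroup K) : Set K))) T

theorem ff_setup (hsep : IsPSolvable p K) (hO : pPrimeCore p K = ⊥)
    (hnf : ¬ IsThompsonFactorizable p K) (V : Subgroup K) [V.Normal]
    (hVdef : V = ⨆ S : Sylow p K, omegaOne p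
      ((S : Subgroup K) ⊓ Subgroup.centralizer ((S : Subgroup K) : Set K))) :
    IsElementaryAbelian p V ∧
    Setup p (hV' V) ((thompsonSubgroup p K).map (hrho V))
      ((pPrimeCore p ↥((thompsonSubgroup p K).map (hrho V))).map
        ((thompsonSubgroup p K).map (hrho V)).subtype) ∧
    (thompsonSubgroup p K).map (hrho V) = (⨆ A : {A : Subgroup (HolL V) //
      A ≤ (thompsonSubgroup p K).map (hrho V) ∧ IsBestOffenderOn p (hV' V) A},
        (A : Subgroup (HolL V))) ∧
    (thompsonSubgroup p K).map (hrho V) ≠ ⊥ := by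
  have hc := H76.centralizer_pCore_le hsep hO
  rw [S0608.result hO, ← hVdef] at hnf
  obtain ⟨hn, hV, hD⟩ := S0601.result hc
  rw [← hVdef] at hV hD
  have hfin : Finite (HolL V) := finite_hol V
  have hNo : ∀ D : Subgroup K, D.Normal →
      (∃ k : ℕ, (Subgroup.centralizer (V : Set K)).relIndex D = p ^ k) →
      D ≤ Subgroup.centralizer (V : Set K) := by
    intro D hDn hk
    have hCn : (Subgroup.centralizer (V : Set K)).Normal := inferInstance
    have h1 : (D ⊔ Subgroup.centralizer (V : Set K)).Normal := inferInstance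
    have h2 := hD _ h1 le_sup_right (by
      obtain ⟨k, hk⟩ := hk
      refine ⟨k, ?_⟩
      rw [sup_comm, Subgroup.relIndex_sup_left]
      exact hk)
    rw [← h2]
    exact le_sup_left
  set J := thompsonSubgroup p K with hJdef
  have hJc : J.Characteristic := (S0602.result (G := K) (p := p)).1
  have hJn : J.Normal := Subgroup.normal_of_characteristic J
  refine ⟨hV, hol_setup hsep hV hNo J hJn, ?_, ?_⟩
  · apply le_antisymm
    · rw [Subgroup.map_le_iff_le_comap, hJdef]
      refine sSup_le fun A hA => ?_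
      rw [← Subgroup.map_le_iff_le_comap]
      have hAJ : A ≤ J := le_sSup hA
      exact le_iSup (fun A : {A : Subgroup (HolL V) // A ≤ J.map (hrho V) ∧
        IsBestOffenderOn p (hV' V) A} => (A : Subgroup (HolL V)))
        ⟨A.map (hrho V), Subgroup.map_mono hAJ, hoffender (S0606.result V hV A hA)⟩
    · exact iSup_le fun A => A.2.1
  · intro h
    apply hnf
    rw [Subgroup.map_eq_bot_iff, hker] at h
    exact h

/-- a transvection group exists -/
theorem exists_isTv {G : Type*} [Group G] [Finite G] {V H Q : Subgroup G} (S : Setup p V H Q)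
    (hS3 : H = ⨆ A : {A : Subgroup G // A ≤ H ∧ IsBestOffenderOn p V A}, (A : Subgroup G))
    (hH1 : H ≠ ⊥) : ∃ B, IsTv p V H B := by
  by_contra hcon
  push Not at hcon
  apply hH1
  rw [S.gen hS3]
  rw [iSup_eq_bot]
  rintro ⟨B, hB⟩
  exact absurd hB (hcon B)

end Data

end Cfsg.Agent.H11
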