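import Cfsg.Prelude.Def_Local
import Cfsg.Agent.Solv.Core
import Cfsg.Agent.H76.PSolvable
import Cfsg.Agent.H67.SZ
import Cfsg.Agent.H11.Hol

/-!
# Alternating chains of `p`- and `p'`-layers (helper11)

`RR p b k E N w`: there is a chain `N = N₀ ≤ N₁ ≤ … ≤ N_k` of subgroups of `E` normalised by `E`, the
layers alternately `p`-groups and `p'`-groups (the first of type `b`; `true` is `p`), with `w ∈ N_k`.
-/

set_option autoImplicit false

namespace Cfsg.Agent.H11.PRad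

open Subgroup

universe u

/-- `n` is a power of `p` (`b = true`) or prime to `p` (`b = false`). -/
def Pn (p : ℕ) (b : Bool) (n : ℕ) : Prop := if b = true then ∃ m, n = p ^ m else n.Coprime p

theorem Pn_true {p n : ℕ} : Pn p true n ↔ ∃ m, n = p ^ m := by simp [Pn]

theorem Pn_false {p n : ℕ} : Pn p false n ↔ n.Coprime p := by simp [Pn]

theorem Pn_one {p : ℕ} (b : Bool) : Pn p b 1 := by
  cases b
  · rw [Pn_false]; exact Nat.coprime_one_left p
  · rw [Pn_true]; exact ⟨0, by simp⟩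

theorem Pn_mul {p m n : ℕ} {b : Bool} (h1 : Pn p b m) (h2 : Pn p b n) : Pn p b (m * n) := by
  cases b
  · rw [Pn_false] at *; exact Nat.Coprime.mul_left h1 h2
  · rw [Pn_true] at *
    obtain ⟨i, rfl⟩ := h1
    obtain ⟨j, rfl⟩ := h2
    exact ⟨i + j, by rw [pow_add]⟩

theorem Pn_dvd {p m n : ℕ} [Fact p.Prime] {b : Bool} (h1 : Pn p b n) (h2 : m ∣ n) : Pn p b m := by
  cases b
  · rw [Pn_false] at *; exact Nat.Coprime.coprime_dvd_left h2 h1
  · rw [Pn_true] at *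
    obtain ⟨i, rfl⟩ := h1
    obtain ⟨j, -, hj⟩ := (Nat.dvd_prime_pow Fact.out).mp h2
    exact ⟨j, hj⟩

theorem Pn_coprime {p m n : ℕ} {b : Bool} (h1 : Pn p b m) (h2 : Pn p (!b) n) : m.Coprime n := by
  cases b
  · simp only [Bool.not_false] at h2
    rw [Pn_false] at h1
    rw [Pn_true] at h2
    obtain ⟨j, rfl⟩ := h2
    exact Nat.Coprime.pow_right j h1
  · simp only [Bool.not_true] at h2
    rw [Pn_true] at h1
    rw [Pn_false] at h2
    obtain ⟨j, rfl⟩ := h1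
    exact (Nat.Coprime.pow_right j h2).symm

variable {G : Type u} [Group G]

/-- `N'/N` is a group of type `b`, elementwise. -/
def PQ (p : ℕ) (b : Bool) (N N' : Subgroup G) : Prop := ∀ x ∈ N', ∃ n, 0 < n ∧ Pn p b n ∧ x ^ n ∈ N

theorem PQ.refl {p : ℕ} {b : Bool} (N : Subgroup G) : PQ p b N N := fun x hx =>
  ⟨1, one_pos, Pn_one b, by simpa using hx⟩

theorem PQ.trans {p : ℕ} {b : Bool} {N M K : Subgroup G} (h1 : PQ p b N M) (h2 : PQ p b M K) :
    PQ p b N K := by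
  intro x hx
  obtain ⟨n, hn, hn', hxn⟩ := h2 x hx
  obtain ⟨m, hm, hm', hxm⟩ := h1 _ hxn
  exact ⟨n * m, Nat.mul_pos hn hm, Pn_mul hn' hm', by rw [pow_mul]; exact hxm⟩

theorem PQ.mono {p : ℕ} {b : Bool} {N N₁ M M₁ : Subgroup G} (h : PQ p b N M) (h1 : N ≤ N₁) (h2 : M₁ ≤ M) :
    PQ p b N₁ M₁ := by
  intro x hx
  obtain ⟨n, hn, hn', hxn⟩ := h x (h2 hx)
  exact ⟨n, hn, hn', h1 hxn⟩

theorem PQ.inf_right {p : ℕ} {b : Bool} {N M : Subgroup G} (h : PQ p b N M) (C : Subgroup G) :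
    PQ p b (N ⊓ C) (M ⊓ C) := by
  intro x hx
  obtain ⟨n, hn, hn', hxn⟩ := h x hx.1
  exact ⟨n, hn, hn', hxn, C.pow_mem hx.2 n⟩

theorem PQ.inf {p : ℕ} {b : Bool} {N M N₁ M₁ : Subgroup G} (h : PQ p b N M) (h1 : PQ p b N₁ M₁) :
    PQ p b (N ⊓ N₁) (M ⊓ M₁) := by
  intro x hx
  obtain ⟨n, hn, hn', hxn⟩ := h x hx.1
  obtain ⟨m, hm, hm', hxm⟩ := h1 x hx.2
  refine ⟨n * m, Nat.mul_pos hn hm, Pn_mul hn' hm', ?_, ?_⟩
  · rw [pow_mul]; exact N.pow_mem hxn m
  · rw [mul_comm, pow_mul]; exact N₁.pow_mem hxm n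

theorem PQ.sup_right {p : ℕ} {b : Bool} {N M : Subgroup G} (h : PQ p b N M) (C : Subgroup G) [hC : C.Normal] :
    PQ p b (N ⊔ C) (M ⊔ C) := by
  intro x hx
  obtain ⟨y, hy, c, hc, rfl⟩ := Subgroup.mem_sup_of_normal_right.mp hx
  obtain ⟨n, hn, hn', hyn⟩ := h y hy
  refine ⟨n, hn, hn', ?_⟩
  have h1 : (QuotientGroup.mk' C) ((y * c) ^ n) = (QuotientGroup.mk' C) (y ^ n) := by
    rw [map_pow, map_pow, map_mul]
    have : (QuotientGroup.mk' C) c = 1 := (QuotientGroup.eq_one_iff c).mpr hc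
    rw [this, mul_one]
  rw [QuotientGroup.mk'_apply, QuotientGroup.mk'_apply, eq_comm, QuotientGroup.eq] at h1
  have h2 : (y * c) ^ n = y ^ n * ((y ^ n)⁻¹ * (y * c) ^ n) := by group
  rw [h2]
  exact Subgroup.mul_mem_sup hyn h1

theorem PQ.map {p : ℕ} {b : Bool} {N M : Subgroup G} {H : Type*} [Group H] (f : G →* H) (h : PQ p b N M) :
    PQ p b (N.map f) (M.map f) := by
  rintro _ ⟨x, hx, rfl⟩
  obtain ⟨n, hn, hn', hxn⟩ := h x hx
  exact ⟨n, hn, hn', x ^ n, hxn, map_pow f x n⟩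

theorem PQ.comap {p : ℕ} {b : Bool} {H : Type*} [Group H] {N M : Subgroup H} (f : G →* H) (h : PQ p b N M) :
    PQ p b (N.comap f) (M.comap f) := by
  intro x hx
  obtain ⟨n, hn, hn', hxn⟩ := h (f x) hx
  exact ⟨n, hn, hn', by rw [Subgroup.mem_comap, map_pow]; exact hxn⟩

theorem PQ.card [Finite G] {p : ℕ} [hp : Fact p.Prime] {b : Bool} {N : Subgroup G} (h : PQ p b ⊥ N) :
    Pn p b (Nat.card N) := by
  cases b
  · rw [Pn_false]
    rw [Nat.coprime_comm, hp.out.coprime_iff_not_dvd]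
    intro hd
    obtain ⟨x, hx⟩ := exists_prime_orderOf_dvd_card' p hd
    obtain ⟨n, hn, hn', hxn⟩ := h x x.2
    rw [Subgroup.mem_bot] at hxn
    rw [Pn_false] at hn'
    have h1 : orderOf (x : G) ∣ n := orderOf_dvd_of_pow_eq_one hxn
    rw [Subgroup.orderOf_coe, hx] at h1
    have := Nat.Coprime.coprime_dvd_left h1 hn'
    rw [Nat.coprime_self] at this
    exact hp.out.one_lt.ne' this
  · rw [Pn_true]
    have : IsPGroup p N := by
      intro x
      obtain ⟨n, hn, hn', hxn⟩ := h x x.2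
      rw [Pn_true] at hn'
      obtain ⟨m, rfl⟩ := hn'
      refine ⟨m, ?_⟩
      apply Subtype.ext
      simpa using hxn
    exact IsPGroup.iff_card.mp this

theorem PQ.of_card [Finite G] {p : ℕ} {b : Bool} {N : Subgroup G} (h : Pn p b (Nat.card N)) :
    PQ p b ⊥ N := by
  intro x hx
  refine ⟨Nat.card N, Nat.card_pos, h, ?_⟩
  rw [Subgroup.mem_bot]
  have h1 := orderOf_dvd_natCard (⟨x, hx⟩ : N)
  rw [Subgroup.orderOf_mk] at h1
  exact orderOf_dvd_iff_pow_eq_one.mp h1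

/-- alternating chains -/
def RR (p : ℕ) : Bool → ℕ → Subgroup G → Subgroup G → G → Prop
  | _, 0, _, N, w => w ∈ N
  | b, k + 1, E, N, w => ∃ N' : Subgroup G, N ≤ N' ∧ N' ≤ E ∧ E ≤ normalizer (N' : Set G) ∧ PQ p b N N' ∧
      RR p (!b) k E N' w

theorem RR_zero {p : ℕ} {b : Bool} {E N : Subgroup G} {w : G} : RR p b 0 E N w ↔ w ∈ N := Iff.rfl

theorem RR_succ {p : ℕ} {b : Bool} {k : ℕ} {E N : Subgroup G} {w : G} : RR p b (k + 1) E N w ↔
    ∃ N' : Subgroup G, N ≤ N' ∧ N' ≤ E ∧ E ≤ normalizer (N' : Set G) ∧ PQ p b N N' ∧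
      RR p (!b) k E N' w := Iff.rfl

theorem RR.mem {p : ℕ} {k : ℕ} : ∀ {b : Bool} {E N : Subgroup G} {w : G}, N ≤ E → RR p b k E N w → w ∈ E := by
  induction k with
  | zero => intro b E N w hN h; exact hN h
  | succ k ih =>
    intro b E N w hN h
    obtain ⟨N', h1, h2, h3, h4, h5⟩ := h
    exact ih h2 h5

theorem RR.map {p : ℕ} {H : Type*} [Group H] (f : G →* H) {k : ℕ} : ∀ {b : Bool} {E N : Subgroup G} {w : G},
    RR p b k E N w → RR p b k (E.map f) (N.map f) (f w) := by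
  induction k with
  | zero => intro b E N w h; exact Subgroup.mem_map_of_mem f h
  | succ k ih =>
    intro b E N w h
    obtain ⟨N', h1, h2, h3, h4, h5⟩ := h
    exact ⟨N'.map f, Subgroup.map_mono h1, Subgroup.map_mono h2,
      (Subgroup.map_mono h3).trans (Subgroup.le_normalizer_map f), h4.map f, ih h5⟩

theorem RR.comap {p : ℕ} {H : Type*} [Group H] (f : G →* H) {k : ℕ} : ∀ {b : Bool} {E N : Subgroup H} {w : G},
    RR p b k E N (f w) → RR p b k (E.comap f) (N.comap f) w := by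
  induction k with
  | zero => intro b E N w h; exact h
  | succ k ih =>
    intro b E N w h
    obtain ⟨N', h1, h2, h3, h4, h5⟩ := h
    exact ⟨N'.comap f, Subgroup.comap_mono h1, Subgroup.comap_mono h2,
      (Subgroup.comap_mono h3).trans (Subgroup.le_normalizer_comap f), h4.comap f, ih h5⟩

theorem le_normalizer_inf {E A B : Subgroup G} (h1 : E ≤ normalizer (A : Set G)) (h2 : E ≤ normalizer (B : Set G)) :
    E ≤ normalizer ((A ⊓ B : Subgroup G) : Set G) := by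
  intro e he
  rw [Subgroup.mem_normalizer_iff]
  intro x
  rw [Subgroup.mem_inf, Subgroup.mem_inf, (Subgroup.mem_normalizer_iff.mp (h1 he)) x,
    (Subgroup.mem_normalizer_iff.mp (h2 he)) x]

theorem RR.restrict {p : ℕ} {E₁ C : Subgroup G} (hCE : C ≤ E₁) (hn : E₁ ≤ normalizer (C : Set G)) {k : ℕ} :
    ∀ {b : Bool} {E N : Subgroup G} {w : G}, E₁ ≤ E → w ∈ C →
    RR p b k E N w → RR p b k E₁ (N ⊓ C) w := by
  induction k with
  | zero => intro b E N w hE hw h; exact ⟨h, hw⟩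
  | succ k ih =>
    intro b E N w hE hw h
    obtain ⟨N', h1, h2, h3, h4, h5⟩ := h
    exact ⟨N' ⊓ C, inf_le_inf_right C h1, inf_le_right.trans hCE,
      le_normalizer_inf (hE.trans h3) hn, h4.inf_right C, ih hE hw h5⟩

theorem RR.sup {p : ℕ} {M : Subgroup G} [hM : M.Normal] {k : ℕ} :
    ∀ {b : Bool} {E N : Subgroup G} {w : G}, RR p b k E N w → RR p b k (E ⊔ M) (N ⊔ M) w := by
  induction k with
  | zero => intro b E N w h; exact (le_sup_left : N ≤ N ⊔ M) h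
  | succ k ih =>
    intro b E N w h
    obtain ⟨N', h1, h2, h3, h4, h5⟩ := h
    refine ⟨N' ⊔ M, sup_le_sup_right h1 M, sup_le_sup_right h2 M, ?_, h4.sup_right M, ih h5⟩
    refine sup_le ?_ (le_sup_right.trans Subgroup.le_normalizer)
    intro e he
    rw [Subgroup.mem_normalizer_iff]
    have key : ∀ e ∈ normalizer (N' : Set G), ∀ x ∈ N' ⊔ M, e * x * e⁻¹ ∈ N' ⊔ M := by
      intro e he x hx
      obtain ⟨y, hy, c, hc, rfl⟩ := Subgroup.mem_sup_of_normal_right.mp hx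
      have h6 : e * (y * c) * e⁻¹ = (e * y * e⁻¹) * (e * c * e⁻¹) := by group
      rw [h6]
      exact Subgroup.mul_mem_sup ((Subgroup.mem_normalizer_iff.mp he y).mp hy) (hM.conj_mem c hc e)
    intro x
    refine ⟨key e (h3 he) x, fun hx => ?_⟩
    have := key e⁻¹ (inv_mem (h3 he)) _ hx
    have h7 : e⁻¹ * (e * x * e⁻¹) * e⁻¹⁻¹ = x := by group
    rwa [h7] at this

theorem RR.inf {p : ℕ} {k : ℕ} :
    ∀ {b : Bool} {E N M : Subgroup G} {w : G}, RR p b k E N w → RR p b k E M w → RR p b k E (N ⊓ M) w := by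
  induction k with
  | zero => intro b E N M w h1 h2; exact ⟨h1, h2⟩
  | succ k ih =>
    intro b E N M w h g
    obtain ⟨N', h1, h2, h3, h4, h5⟩ := h
    obtain ⟨M', g1, g2, g3, g4, g5⟩ := g
    exact ⟨N' ⊓ M', inf_le_inf h1 g1, inf_le_left.trans h2, le_normalizer_inf h3 g3, h4.inf g4, ih h5 g5⟩

theorem RR.merge {p : ℕ} {k : ℕ} {b : Bool} {E N M : Subgroup G} {w : G} (hNM : N ≤ M)
    (hq : PQ p b N M) (h : RR p b (k + 1) E M w) : RR p b (k + 1) E N w := by
  obtain ⟨N', h1, h2, h3, h4, h5⟩ := h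
  exact ⟨N', hNM.trans h1, h2, h3, hq.trans h4, h5⟩

theorem normal_of_top {N : Subgroup G} (h : (⊤ : Subgroup G) ≤ normalizer (N : Set G)) : N.Normal :=
  Subgroup.normalizer_eq_top_iff.mp (eq_top_iff.mpr h)

theorem RR.mul {p : ℕ} {k : ℕ} :
    ∀ {b : Bool} {N M : Subgroup G} {w z : G}, N.Normal → M.Normal → RR p b k ⊤ N w → RR p b k ⊤ M z →
      RR p b k ⊤ (N ⊔ M) (w * z) := by
  induction k with
  | zero => intro b N M w z _ _ h1 h2; exact Subgroup.mul_mem_sup h1 h2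
  | succ k ih =>
    intro b N M w z hN hM h g
    obtain ⟨N', h1, h2, h3, h4, h5⟩ := h
    obtain ⟨M', g1, g2, g3, g4, g5⟩ := g
    have hN' := normal_of_top h3
    have hM' := normal_of_top g3
    refine ⟨N' ⊔ M', sup_le_sup h1 g1, le_top, ?_, ?_, ih hN' hM' h5 g5⟩
    · rw [Subgroup.normalizer_eq_top]
    · have e1 := h4.sup_right M'
      have e2 := g4.sup_right N
      rw [sup_comm M N, sup_comm M' N] at e2
      exact e2.trans e1

theorem RR.inv {p : ℕ} {k : ℕ} :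
    ∀ {b : Bool} {E N : Subgroup G} {w : G}, RR p b k E N w → RR p b k E N w⁻¹ := by
  induction k with
  | zero => intro b E N w h; exact N.inv_mem h
  | succ k ih =>
    intro b E N w h
    obtain ⟨N', h1, h2, h3, h4, h5⟩ := h
    exact ⟨N', h1, h2, h3, h4, ih h5⟩

theorem RR.of_mem {p : ℕ} {k : ℕ} :
    ∀ {b : Bool} {E N : Subgroup G} {w : G}, N ≤ E → E ≤ normalizer (N : Set G) → w ∈ N → RR p b k E N w := by
  induction k with
  | zero => intro b E N w _ _ h; exact h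
  | succ k ih =>
    intro b E N w h1 h2 h
    exact ⟨N, le_rfl, h1, h2, PQ.refl N, ih h1 h2 h⟩

theorem RR.succ {p : ℕ} {k : ℕ} :
    ∀ {b : Bool} {E N : Subgroup G} {w : G}, N ≤ E → E ≤ normalizer (N : Set G) → RR p b k E N w →
      RR p b (k + 1) E N w := by
  induction k with
  | zero => intro b E N w h1 h2 h; exact RR.of_mem h1 h2 h
  | succ k ih =>
    intro b E N w _ _ h
    obtain ⟨N', h1, h2, h3, h4, h5⟩ := h
    exact ⟨N', h1, h2, h3, h4, ih h2 h3 h5⟩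

theorem RR.mono {p : ℕ} {k l : ℕ} (hkl : k ≤ l) {b : Bool} {E N : Subgroup G} {w : G} (h1 : N ≤ E)
    (h2 : E ≤ normalizer (N : Set G)) (h : RR p b k E N w) : RR p b l E N w := by
  induction l, hkl using Nat.le_induction with
  | base => exact h
  | succ l _ ih => exact ih.succ h1 h2

/-- type of the last layer -/
def lt : ℕ → Bool → Bool
  | 0, b => b
  | k + 1, b => lt k (!b)

theorem RR.strip {p : ℕ} {k : ℕ} {w : G} {n : ℕ} (hw : w ^ n = 1) :
    ∀ {b : Bool} {E N : Subgroup G}, Pn p (!(lt k b)) n → RR p b (k + 1) E N w → RR p b k E N w := by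
  induction k with
  | zero =>
    intro b E N hn h
    obtain ⟨N', h1, h2, h3, h4, h5⟩ := h
    obtain ⟨m, hm, hm', hwm⟩ := h4 w h5
    have hc : m.Coprime n := Pn_coprime hm' hn
    have h6 : w ^ n ∈ N := by rw [hw]; exact N.one_mem
    have h7 : w ^ (Nat.gcd m n : ℤ) ∈ N := by
      rw [Nat.gcd_eq_gcd_ab, zpow_add, zpow_mul, zpow_mul, zpow_natCast, zpow_natCast]
      exact N.mul_mem (N.zpow_mem hwm _) (N.zpow_mem h6 _)
    rw [show Nat.gcd m n = 1 from hc] at h7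
    show w ∈ N
    simpa using h7
  | succ k ih =>
    intro b E N hn h
    obtain ⟨N', h1, h2, h3, h4, h5⟩ := h
    exact ⟨N', h1, h2, h3, h4, ih hn h5⟩

end Cfsg.Agent.H11.PRad
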