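import Cfsg.Agent.H11.PRad

/-!
# The local characterisation of the terms of the upper `p`-series (helper11)
-/

set_option autoImplicit false

namespace Cfsg.Agent.H11.PRad

open Subgroup Pointwise

universe u

variable {H : Type u} [Group H]

theorem inf_eq_bot_of_types [Finite H] {p : ℕ} [Fact p.Prime] {b : Bool} {K F : Subgroup H} (hK : PQ p (!b) ⊥ K)
    (hF : PQ p b ⊥ F) : K ⊓ F = ⊥ := by
  apply card_eq_one.mp
  exact Nat.eq_one_of_dvd_coprimes (Pn_coprime hF.card hK.card).symm (card_dvd_of_le inf_le_left)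
    (card_dvd_of_le inf_le_right)

/-- conjugacy of complements -/
theorem conj_compl [Finite H] {p : ℕ} [Fact p.Prime] {b : Bool} (K : Subgroup H) [K.Normal] (hK : PQ p (!b) ⊥ K)
    {F F' : Subgroup H} (hF : PQ p b ⊥ F) (hF' : PQ p b ⊥ F') (h : K ⊔ F = K ⊔ F') :
    ∃ g ∈ K, MulAut.conj g • F = F' := by
  have h1 : (Nat.card K).Coprime (Nat.card F) := (Pn_coprime hF.card hK.card).symm
  have h2 : (Nat.card K).Coprime (Nat.card F') := (Pn_coprime hF'.card hK.card).symm
  cases b
  · -- `K` is a `p`-group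
    have h3 := hK.card
    simp only [Bool.not_false] at h3
    rw [Pn_true] at h3
    have hp : IsPGroup p K := IsPGroup.iff_card.mpr h3
    have hs : Group.IsSolvable K := by
      have : Group.IsNilpotent K := hp.isNilpotent
      infer_instance
    exact H67.conj_of_sup_eq' K F F' h1 h2 hs h
  · have h3 := hF.card
    rw [Pn_true] at h3
    have hp : IsPGroup p F := IsPGroup.iff_card.mpr h3
    have hs : Group.IsSolvable F := by
      have : Group.IsNilpotent F := hp.isNilpotent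
      infer_instance
    exact H67.conj_of_sup_eq K F F' h1 h2 hs h

theorem mem_smul {g x : H} {F : Subgroup H} : x ∈ MulAut.conj g • F ↔ g⁻¹ * x * g ∈ F := by
  rw [Subgroup.mem_pointwise_smul_iff_inv_smul_mem]
  simp [MulAut.smul_def]

theorem PQ.smul {p : ℕ} {b : Bool} {F : Subgroup H} (h : PQ p b ⊥ F) (g : H) : PQ p b ⊥ (MulAut.conj g • F) := by
  have := h.map (MulAut.conj g).toMonoidHom
  rw [Subgroup.map_bot] at this
  exact this

theorem mem_normalizer_smul {g x : H} {F : Subgroup H} :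
    x ∈ normalizer ((MulAut.conj g • F : Subgroup H) : Set H) ↔ g⁻¹ * x * g ∈ normalizer (F : Set H) := by
  rw [Subgroup.mem_normalizer_iff, Subgroup.mem_normalizer_iff]
  constructor
  · intro h y
    have := h (g * y * g⁻¹)
    rw [mem_smul, mem_smul] at this
    have e1 : g⁻¹ * (g * y * g⁻¹) * g = y := by group
    have e2 : g⁻¹ * (x * (g * y * g⁻¹) * x⁻¹) * g = g⁻¹ * x * g * y * (g⁻¹ * x * g)⁻¹ := by group
    rw [e1, e2] at this
    exact this
  · intro h y
    rw [mem_smul, mem_smul]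
    have := h (g⁻¹ * y * g)
    have e2 : g⁻¹ * (x * y * x⁻¹) * g = g⁻¹ * x * g * (g⁻¹ * y * g) * (g⁻¹ * x * g)⁻¹ := by group
    rw [e2]
    exact this

/-- If for every `v ∈ K` some conjugate `F^s` (`s ∈ K`) is normalised by `w` and by `m v`, then `w`
normalises all the conjugates `F^s`. -/
theorem all_conj [Finite H] (K F : Subgroup H) [hK : K.Normal] (w m : H)
    (h : ∀ v ∈ K, ∃ s ∈ K, w ∈ normalizer ((MulAut.conj s • F : Subgroup H) : Set H) ∧
      m * v ∈ normalizer ((MulAut.conj s • F : Subgroup H) : Set H)) :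
    ∀ s ∈ K, w ∈ normalizer ((MulAut.conj s • F : Subgroup H) : Set H) := by
  classical
  let C : Subgroup H := K ⊓ normalizer (F : Set H)
  let X : Type u := {s : K // w ∈ normalizer ((MulAut.conj (s : H) • F : Subgroup H) : Set H)}
  choose! s hsK hsw hsm using h
  -- a base point for every `t`
  have hbase : ∀ t : K, ∃ v : H, v ∈ K ∧ ((∃ v' ∈ K, m * v' ∈ normalizer ((MulAut.conj (t : H) • F : Subgroup H) : Set H)) →
      m * v ∈ normalizer ((MulAut.conj (t : H) • F : Subgroup H) : Set H)) := by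
    intro t
    by_cases hex : ∃ v' ∈ K, m * v' ∈ normalizer ((MulAut.conj (t : H) • F : Subgroup H) : Set H)
    · obtain ⟨v, hv, hv'⟩ := hex
      exact ⟨v, hv, fun _ => hv'⟩
    · exact ⟨1, K.one_mem, fun h => absurd h hex⟩
  choose β hβK hβ using hbase
  -- conjugating by `c ∈ C` does not change `F`
  have hCF : ∀ t c : H, c ∈ C → (MulAut.conj (t * c) • F : Subgroup H) = MulAut.conj t • F := by
    intro t c hc
    ext x
    rw [mem_smul, mem_smul]
    have h1 := (Subgroup.mem_normalizer_iff.mp (inv_mem hc.2)) (t⁻¹ * x * t)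
    have e : (t * c)⁻¹ * x * (t * c) = c⁻¹ * (t⁻¹ * x * t) * c⁻¹⁻¹ := by group
    rw [e]
    exact h1.symm
  have hXcard : Nat.card K ≤ Nat.card X := by
    let φ : K × C → X × C := fun a =>
      let t : K := ⟨s (a.1 : H) * a.2, K.mul_mem (hsK _ a.1.2) a.2.2.1⟩
      ⟨⟨t, by rw [show ((t : K) : H) = s (a.1 : H) * a.2 from rfl, hCF _ _ a.2.2]; exact hsw _ a.1.2⟩,
       ⟨(t : H)⁻¹ * ((β t)⁻¹ * (a.1 : H)) * (t : H), by
          refine ⟨?_, ?_⟩
          · have := hK.conj_mem _ (K.mul_mem (K.inv_mem (hβK t)) a.1.2) ((t : H)⁻¹)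
            simpa using this
          · have h1 : m * (a.1 : H) ∈ normalizer ((MulAut.conj (t : H) • F : Subgroup H) : Set H) := by
              rw [show ((t : K) : H) = s (a.1 : H) * a.2 from rfl, hCF _ _ a.2.2]
              exact hsm _ a.1.2
            have h2 := hβ t ⟨_, a.1.2, h1⟩
            have h3 := mul_mem (inv_mem h2) h1
            rw [mem_normalizer_smul] at h3
            have e : (t : H)⁻¹ * ((m * β t)⁻¹ * (m * (a.1 : H))) * t = (t : H)⁻¹ * ((β t)⁻¹ * (a.1 : H)) * (t : H) := by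
              group
            rw [e] at h3
            exact h3⟩⟩
    have hinj : Function.Injective φ := by
      rintro ⟨v, c⟩ ⟨v', c'⟩ hvc
      have h1 := congrArg (fun z => ((z.1 : X).1 : H)) hvc
      have h2 := congrArg (fun z => ((z.2 : C) : H)) hvc
      simp only [φ] at h1 h2
      have ht : (⟨s (v : H) * c, K.mul_mem (hsK _ v.2) c.2.1⟩ : K) = ⟨s (v' : H) * c', K.mul_mem (hsK _ v'.2) c'.2.1⟩ :=
        Subtype.ext h1
      rw [ht] at h2
      rw [h1] at h2
      have h3 : (v : H) = v' := by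
        have h4 := mul_right_cancel h2
        have h5 := mul_left_cancel h4
        exact mul_left_cancel h5
      have hv : v = v' := Subtype.ext h3
      subst hv
      have h6 : (c : H) = c' := mul_left_cancel h1
      rw [Subtype.ext h6]
    have h1 := Nat.card_le_card_of_injective φ hinj
    rw [Nat.card_prod, Nat.card_prod] at h1
    exact Nat.le_of_mul_le_mul_right h1 Nat.card_pos
  have hsurj : Function.Surjective (fun x : X => x.1) := by
    have hinj : Function.Injective (fun x : X => x.1) := Subtype.val_injective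
    exact (Function.Injective.bijective_of_nat_card_le hinj hXcard).2
  intro t ht
  obtain ⟨x, hx⟩ := hsurj ⟨t, ht⟩
  have h1 := x.2
  have hx' : (x.1 : K) = ⟨t, ht⟩ := hx
  rw [hx'] at h1
  exact h1

theorem sup_smul_eq {K F : Subgroup H} [hK : K.Normal] {Y : Subgroup H} (hY : K ⊔ F = Y) {s : H}
    (hs : s ∈ normalizer (Y : Set H)) : K ⊔ MulAut.conj s • F = Y := by
  have h1 : MulAut.conj s • K = K := by
    ext x
    rw [mem_smul]
    constructor
    · intro h
      have := hK.conj_mem _ h s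
      have e : s * (s⁻¹ * x * s) * s⁻¹ = x := by group
      rwa [e] at this
    · intro h
      have := hK.conj_mem _ h s⁻¹
      rwa [inv_inv] at this
  have h2 : MulAut.conj s • Y = Y := by
    ext x
    rw [mem_smul]
    have := (Subgroup.mem_normalizer_iff.mp (inv_mem hs)) x
    rw [inv_inv] at this
    exact this.symm
  calc K ⊔ MulAut.conj s • F = MulAut.conj s • K ⊔ MulAut.conj s • F := by rw [h1]
    _ = MulAut.conj s • (K ⊔ F) := by rw [Subgroup.smul_sup]
    _ = Y := by rw [hY, h2]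

/-- **Key step.** -/
theorem key_step [Finite H] {p : ℕ} [Fact p.Prime] {b : Bool} {k : ℕ} (K : Subgroup H) [hKn : K.Normal]
    (hK : PQ p (!b) ⊥ K) (hC : centralizer (K : Set H) ≤ K) (w m : H)
    (hyp : ∀ v ∈ K, RR p b (k + 1) (closure {w, m * v}) ⊥ w) :
    RR p (!b) k (closure {w, m} ⊔ K) K w := by
  classical
  set D : Subgroup H := closure {w, m} ⊔ K with hD
  have hKD : K ≤ D := le_sup_right
  have hwD : w ∈ D := (le_sup_left : closure {w, m} ≤ D) (subset_closure (by simp))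
  have hmD : m ∈ D := (le_sup_left : closure {w, m} ≤ D) (subset_closure (by simp))
  have hE : ∀ v ∈ K, closure {w, m * v} ⊔ K = D := by
    intro v hv
    apply le_antisymm
    · refine sup_le ?_ hKD
      rw [closure_le]
      rintro x (rfl | rfl)
      · exact hwD
      · exact D.mul_mem hmD (hKD hv)
    · refine sup_le ?_ le_sup_right
      rw [closure_le]
      rintro x (rfl | rfl)
      · exact (le_sup_left : closure {x, m * v} ≤ _) (subset_closure (by simp))
      · have h1 : x * v ∈ closure {w, x * v} ⊔ K :=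
          (le_sup_left : closure {w, x * v} ≤ _) (subset_closure (by simp))
        have h2 : v ∈ closure {w, x * v} ⊔ K := (le_sup_right : K ≤ _) hv
        have h3 := mul_mem h1 (inv_mem h2)
        rwa [mul_inv_cancel_right] at h3
  let S : Set (Subgroup H) := {N | K ≤ N ∧ N ≤ D ∧ D ≤ normalizer (N : Set H) ∧ PQ p b K N ∧ RR p (!b) k D N w}
  have hinf : ∀ N ∈ S, ∀ M ∈ S, N ⊓ M ∈ S := by
    rintro N ⟨h1, h2, h3, h4, h5⟩ M ⟨g1, g2, g3, g4, g5⟩
    refine ⟨le_inf h1 g1, inf_le_left.trans h2, le_normalizer_inf h3 g3, ?_, h5.inf g5⟩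
    exact h4.mono le_rfl inf_le_left
  have hF : ∀ v ∈ K, ∃ F : Subgroup H, F ≤ closure {w, m * v} ∧
      closure {w, m * v} ≤ normalizer (F : Set H) ∧ PQ p b ⊥ F ∧ F ⊔ K ∈ S := by
    intro v hv
    obtain ⟨F, h1, h2, h3, h4, h5⟩ := hyp v hv
    refine ⟨F, h2, h3, h4, le_sup_right, ?_, ?_, ?_, ?_⟩
    · rw [← hE v hv]; exact sup_le_sup_right h2 K
    · have h6 : RR p b 1 (closure {w, m * v}) ⊥ 1 := ⟨F, h1, h2, h3, h4, F.one_mem⟩
      obtain ⟨N', -, -, h7, -, -⟩ : RR p b 1 (closure {w, m * v} ⊔ K) (⊥ ⊔ K) 1 := h6.sup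
      -- use directly
      rw [← hE v hv]
      refine sup_le ?_ (le_sup_right.trans Subgroup.le_normalizer)
      have key : ∀ e ∈ normalizer (F : Set H), ∀ x ∈ F ⊔ K, e * x * e⁻¹ ∈ F ⊔ K := by
        intro e he x hx
        obtain ⟨y, hy, c, hc, rfl⟩ := Subgroup.mem_sup_of_normal_right.mp hx
        have h6 : e * (y * c) * e⁻¹ = (e * y * e⁻¹) * (e * c * e⁻¹) := by group
        rw [h6]
        exact Subgroup.mul_mem_sup ((Subgroup.mem_normalizer_iff.mp he y).mp hy) (hKn.conj_mem c hc e)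
      intro e he
      rw [Subgroup.mem_normalizer_iff]
      intro x
      refine ⟨key e (h3 he) x, fun hx => ?_⟩
      have := key e⁻¹ (inv_mem (h3 he)) _ hx
      have h8 : e⁻¹ * (e * x * e⁻¹) * e⁻¹⁻¹ = x := by group
      rwa [h8] at this
    · have := h4.sup_right K
      rwa [bot_sup_eq] at this
    · have := h5.sup (M := K)
      rwa [hE v hv] at this
  obtain ⟨F₁, hF1a, hF1b, hF1c, hF1d⟩ := hF 1 K.one_mem
  -- least element of `S`
  obtain ⟨Y, hYS, hYmin⟩ : ∃ Y ∈ S, ∀ N ∈ S, Y ≤ N := by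
    obtain ⟨Y, hY, hmin⟩ := Set.Finite.exists_minimal (s := S) (Set.toFinite _) ⟨_, hF1d⟩
    refine ⟨Y, hY, fun N hN => ?_⟩
    have h1 := hinf Y hY N hN
    have h2 := hmin h1 inf_le_left
    exact h2.trans inf_le_right
  obtain ⟨hKY, hYD, hYn, hYq, hYR⟩ := hYS
  -- the complements
  have hcomp : ∀ F : Subgroup H, F ⊔ K ∈ S → K ⊔ (F ⊓ Y) = Y := by
    intro F hFS
    have h1 := hYmin _ hFS
    apply le_antisymm (sup_le hKY inf_le_right)
    intro y hy
    obtain ⟨f, hf, c, hc, rfl⟩ := Subgroup.mem_sup_of_normal_right.mp (h1 hy)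
    have h2 : f ∈ Y := by
      have := Y.mul_mem hy (Y.inv_mem (hKY hc))
      rwa [mul_inv_cancel_right] at this
    rw [sup_comm]
    exact Subgroup.mul_mem_sup ⟨hf, h2⟩ hc
  set F₀ : Subgroup H := F₁ ⊓ Y with hF0
  have hF0q : PQ p b ⊥ F₀ := hF1c.mono le_rfl inf_le_left
  have hF0Y : K ⊔ F₀ = Y := hcomp F₁ hF1d
  have hKn' : ∀ s ∈ K, s ∈ normalizer (Y : Set H) := fun s hs => (hKD.trans hYn) hs
  have hall : ∀ s ∈ K, w ∈ normalizer ((MulAut.conj s • F₀ : Subgroup H) : Set H) := by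
    apply all_conj K F₀ w m
    intro v hv
    obtain ⟨F, h1, h2, h3, h4⟩ := hF v hv
    have h5 := hcomp F h4
    obtain ⟨s, hs, hs'⟩ := conj_compl K hK hF0q (h3.mono le_rfl (inf_le_left : F ⊓ Y ≤ F)) (by rw [hF0Y, h5])
    refine ⟨s, hs, ?_, ?_⟩
    · rw [hs']
      exact le_normalizer_inf h2 ((le_sup_left : closure {w, m * v} ≤ closure {w, m * v} ⊔ K).trans
        (by rw [hE v hv]; exact hYn)) (subset_closure (by simp))
    · rw [hs']
      exact le_normalizer_inf h2 ((le_sup_left : closure {w, m * v} ≤ closure {w, m * v} ⊔ K).trans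
        (by rw [hE v hv]; exact hYn)) (subset_closure (by simp))
  -- the kernel of the action on the complements
  let Nn : Subgroup H := D ⊓ ⨅ s : K, normalizer ((MulAut.conj (s : H) • F₀ : Subgroup H) : Set H)
  have hNmem : ∀ x : H, x ∈ Nn ↔ x ∈ D ∧ ∀ s ∈ K, x ∈ normalizer ((MulAut.conj s • F₀ : Subgroup H) : Set H) := by
    intro x
    rw [Subgroup.mem_inf, Subgroup.mem_iInf]
    exact ⟨fun h => ⟨h.1, fun s hs => h.2 ⟨s, hs⟩⟩, fun h => ⟨h.1, fun s => h.2 s s.2⟩⟩
  have hwN : w ∈ Nn := (hNmem w).mpr ⟨hwD, hall⟩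
  have hDN : D ≤ normalizer (Nn : Set H) := by
    have key : ∀ d ∈ D, ∀ x ∈ Nn, d * x * d⁻¹ ∈ Nn := by
      intro d hd x hx
      rw [hNmem] at hx ⊢
      refine ⟨D.mul_mem (D.mul_mem hd hx.1) (D.inv_mem hd), fun s hs => ?_⟩
      -- `(d⁻¹ s)`-conjugate of `F₀` is a `K`-conjugate
      have h1 : K ⊔ MulAut.conj (d⁻¹ * s) • F₀ = Y :=
        sup_smul_eq hF0Y (mul_mem (inv_mem (hYn hd)) (hKn' s hs))
      obtain ⟨t, ht, ht'⟩ := conj_compl K hK hF0q (hF0q.smul (d⁻¹ * s)) (by rw [hF0Y, h1])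
      have h2 := hx.2 t ht
      rw [ht', mem_normalizer_smul] at h2
      rw [mem_normalizer_smul]
      have e : (d⁻¹ * s)⁻¹ * x * (d⁻¹ * s) = s⁻¹ * (d * x * d⁻¹) * s := by group
      rw [e] at h2
      exact h2
    intro d hd
    rw [Subgroup.mem_normalizer_iff]
    intro x
    refine ⟨key d hd x, fun hx => ?_⟩
    have := key d⁻¹ (D.inv_mem hd) _ hx
    have h8 : d⁻¹ * (d * x * d⁻¹) * d⁻¹⁻¹ = x := by group
    rwa [h8] at this
  -- `Nn ⊓ Y ≤ K`
  have hNY : ∀ n ∈ Nn, n ∈ Y → n ∈ K := by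
    intro n hn hnY
    obtain ⟨hnD, hnn⟩ := (hNmem n).mp hn
    have hcop : (Nat.card F₀).Coprime (Nat.card K) := Pn_coprime hF0q.card hK.card
    obtain ⟨e, he1, he2⟩ := Nat.chineseRemainder hcop 1 0
    have hpart : ∀ s ∈ K, n ^ e ∈ MulAut.conj s • F₀ ∧ n * (n ^ e)⁻¹ ∈ K := by
      intro s hs
      have h1 : K ⊔ MulAut.conj s • F₀ = Y := sup_smul_eq hF0Y (hKn' s hs)
      rw [← h1, sup_comm] at hnY
      obtain ⟨f, hf, c, hc, rfl⟩ := Subgroup.mem_sup_of_normal_right.mp hnY
      have h2 : c ∈ normalizer ((MulAut.conj s • F₀ : Subgroup H) : Set H) := by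
        have h3 := hnn s hs
        have h4 : f ∈ normalizer ((MulAut.conj s • F₀ : Subgroup H) : Set H) := Subgroup.le_normalizer hf
        have := mul_mem (inv_mem h4) h3
        rwa [inv_mul_cancel_left] at this
      have hdisj : K ⊓ (MulAut.conj s • F₀) = ⊥ := inf_eq_bot_of_types hK (hF0q.smul s)
      have hcomm : f * c = c * f := by
        have h5 : c * f * c⁻¹ * f⁻¹ ∈ K ⊓ (MulAut.conj s • F₀) := by
          constructor
          · have h6 : c * f * c⁻¹ * f⁻¹ = c * (f * c⁻¹ * f⁻¹) := by group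
            rw [h6]
            exact K.mul_mem hc (hKn.conj_mem _ (K.inv_mem hc) f)
          · exact Subgroup.mul_mem _ ((Subgroup.mem_normalizer_iff.mp h2 f).mp hf) (Subgroup.inv_mem _ hf)
        rw [hdisj, Subgroup.mem_bot] at h5
        have h6 : c * f = f * c := by
          have := mul_eq_one_iff_eq_inv.mp h5
          rw [inv_inv] at this
          rw [mul_inv_eq_iff_eq_mul] at this
          exact this
        exact h6.symm
      have hf1 : f ^ e = f := by
        have h7 : orderOf f ∣ Nat.card (MulAut.conj s • F₀ : Subgroup H) := by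
          have := orderOf_dvd_natCard (⟨f, hf⟩ : (MulAut.conj s • F₀ : Subgroup H))
          rwa [Subgroup.orderOf_mk] at this
        have h8 : Nat.card (MulAut.conj s • F₀ : Subgroup H) = Nat.card F₀ :=
          (Nat.card_congr (Subgroup.equivSMul (MulAut.conj s) F₀).toEquiv).symm
        rw [h8] at h7
        have h9 : e ≡ 1 [MOD orderOf f] := Nat.ModEq.of_dvd h7 he1
        have := (pow_eq_pow_iff_modEq (x := f)).mpr h9
        rwa [pow_one] at this
      have hc1 : c ^ e = 1 := by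
        have h7 : orderOf c ∣ Nat.card K := by
          have := orderOf_dvd_natCard (⟨c, hc⟩ : K)
          rwa [Subgroup.orderOf_mk] at this
        have h9 : e ≡ 0 [MOD orderOf c] := Nat.ModEq.of_dvd h7 he2
        have := (pow_eq_pow_iff_modEq (x := c)).mpr h9
        rwa [pow_zero] at this
      have hpow : (f * c) ^ e = f := by
        rw [(show Commute f c from hcomm).mul_pow, hf1, hc1, mul_one]
      rw [hpow]
      refine ⟨hf, ?_⟩
      exact hKn.conj_mem c hc f
    obtain ⟨h1, h2⟩ := hpart 1 K.one_mem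
    rw [map_one, one_smul] at h1
    have h3 : n ^ e ∈ centralizer (K : Set H) := by
      rw [Subgroup.mem_centralizer_iff]
      intro c hc
      have h4 := (hpart c hc).1
      rw [mem_smul] at h4
      have h5 : (n ^ e)⁻¹ * (c⁻¹ * n ^ e * c) ∈ K ⊓ F₀ := by
        constructor
        · have h6 : (n ^ e)⁻¹ * (c⁻¹ * n ^ e * c) = ((n ^ e)⁻¹ * c⁻¹ * (n ^ e)⁻¹⁻¹) * c := by group
          rw [h6]
          exact K.mul_mem (hKn.conj_mem _ (K.inv_mem hc) _) hc
        · exact F₀.mul_mem (F₀.inv_mem h1) h4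
      rw [inf_eq_bot_of_types hK hF0q, Subgroup.mem_bot, inv_mul_eq_one] at h5
      have h6 : c * (c⁻¹ * n ^ e * c) = n ^ e * c := by group
      rw [← h5] at h6
      exact h6
    have h4 : n ^ e ∈ K ⊓ F₀ := ⟨hC h3, h1⟩
    rw [inf_eq_bot_of_types hK hF0q, Subgroup.mem_bot] at h4
    rw [h4, inv_one, mul_one] at h2
    exact h2
  -- conclusion
  have hfin := RR.restrict (p := p) (E₁ := D) (C := Nn ⊔ K) (k := k) (b := !b) (E := D) (N := Y) (w := w)
    (sup_le inf_le_left hKD) ?_ le_rfl ((le_sup_left : Nn ≤ Nn ⊔ K) hwN) hYR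
  · have hYC : Y ⊓ (Nn ⊔ K) = K := by
      apply le_antisymm
      · rintro x ⟨hx1, hx2⟩
        obtain ⟨n, hn, c, hc, rfl⟩ := Subgroup.mem_sup_of_normal_right.mp hx2
        refine K.mul_mem (hNY n hn ?_) hc
        have := Y.mul_mem hx1 (Y.inv_mem (hKY hc))
        rwa [mul_inv_cancel_right] at this
      · exact le_inf hKY le_sup_right
    rw [hYC] at hfin
    exact hfin
  · intro d hd
    have hDk : D ≤ normalizer (K : Set H) := by rw [Subgroup.normalizer_eq_top]; exact le_top
    have key : ∀ d ∈ D, ∀ x ∈ Nn ⊔ K, d * x * d⁻¹ ∈ Nn ⊔ K := by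
      intro d hd x hx
      obtain ⟨n, hn, c, hc, rfl⟩ := Subgroup.mem_sup_of_normal_right.mp hx
      have h6 : d * (n * c) * d⁻¹ = (d * n * d⁻¹) * (d * c * d⁻¹) := by group
      rw [h6]
      exact Subgroup.mul_mem_sup ((Subgroup.mem_normalizer_iff.mp (hDN hd) n).mp hn) (hKn.conj_mem c hc d)
    rw [Subgroup.mem_normalizer_iff]
    intro x
    refine ⟨key d hd x, fun hx => ?_⟩
    have := key d⁻¹ (D.inv_mem hd) _ hx
    have h8 : d⁻¹ * (d * x * d⁻¹) * d⁻¹⁻¹ = x := by group
    rwa [h8] at this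

end Cfsg.Agent.H11.PRad
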