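import Cfsg.Agent.H11.PRad2

/-!
# The local characterisation theorem (helper11)
-/

set_option autoImplicit false

namespace Cfsg.Agent.H11.PRad

open Subgroup Pointwise

universe u

section OO

variable (p : ℕ) (b : Bool) (H : Type u) [Group H]

/-- `O_p` or `O_{p'}` -/
noncomputable def OO : Subgroup H := if b = true then pCore p H else pPrimeCore p H

theorem OO_true : OO p true H = pCore p H := by simp [OO]

theorem OO_false : OO p false H = pPrimeCore p H := by simp [OO]

instance OO_normal : (OO p b H).Normal := by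
  cases b
  · rw [OO_false]; infer_instance
  · rw [OO_true]; infer_instance

theorem OO_PQ [Finite H] [Fact p.Prime] : PQ p b ⊥ (OO p b H) := by
  apply PQ.of_card
  cases b
  · rw [OO_false, Pn_false]; exact Solv.pPrimeCore_card_coprime p
  · rw [OO_true, Pn_true]
    exact IsPGroup.iff_card.mp (Solv.pCore_isPGroup p)

theorem OO_quot' [Finite H] [Fact p.Prime] (N : Subgroup H) [N.Normal] (hN : N = OO p b H) : OO p b (H ⧸ N) = ⊥ := by
  cases b
  · rw [OO_false] at hN ⊢
    subst hN
    exact Solv.pPrimeCore_quotient_pPrimeCore p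
  · rw [OO_true] at hN ⊢
    subst hN
    exact Solv.pCore_quotient_pCore p

theorem OO_quot [Finite H] [Fact p.Prime] : OO p b (H ⧸ OO p b H) = ⊥ := OO_quot' p b H _ rfl

theorem OO_centralizer [Finite H] [Fact p.Prime] (h : IsPSolvable p H) (h0 : OO p b H = ⊥) :
    centralizer ((OO p (!b) H : Subgroup H) : Set H) ≤ OO p (!b) H := by
  cases b
  · rw [OO_false] at h0
    simp only [Bool.not_false]
    rw [OO_true]
    exact H76.centralizer_pCore_le h h0
  · rw [OO_true] at h0
    simp only [Bool.not_true]
    rw [OO_false]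
    exact centralizer_pPrimeCore_le h h0

end OO

theorem map_closure_pair {G : Type*} {G' : Type*} [Group G] [Group G'] (f : G →* G') (x y : G) :
    (closure {x, y}).map f = closure {f x, f y} := by
  rw [MonoidHom.map_closure, Set.image_pair]

/-- **The local characterisation theorem.** -/
theorem LC {p : ℕ} [Fact p.Prime] (k : ℕ) : ∀ (b : Bool) {H : Type u} [Group H] [Finite H], IsPSolvable p H →
    ∀ w : H, (∀ h, RR p b k (closure {w, h}) ⊥ w) → RR p b k ⊤ ⊥ w := by
  induction k with
  | zero => intro b H _ _ _ w hw; exact hw 1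
  | succ k ih =>
    intro b
    -- the reduced case
    have core : ∀ {H : Type u} [Group H] [Finite H], IsPSolvable p H → OO p b H = ⊥ →
        ∀ w : H, (∀ h, RR p b (k + 1) (closure {w, h}) ⊥ w) → RR p b (k + 1) ⊤ ⊥ w := by
      intro H _ _ hs h0 w hw
      have hC := OO_centralizer p b H hs h0
      have hK := OO_PQ p (!b) H
      set K := OO p (!b) H with hKdef
      have hKn : K.Normal := OO_normal p (!b) H
      have htop : (⊤ : Subgroup H) ≤ normalizer ((⊥ : Subgroup H) : Set H) := by
        rw [Subgroup.normalizer_eq_top]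
      cases k with
      | zero =>
        have h1 : w ∈ K := by
          apply hC
          rw [Subgroup.mem_centralizer_iff]
          intro v hv
          obtain ⟨F, -, -, h3, h4, h5⟩ := hw v
          have h5' : w ∈ F := h5
          have h6 : v * w * v⁻¹ * w⁻¹ ∈ K ⊓ F := by
            constructor
            · have e : v * w * v⁻¹ * w⁻¹ = v * (w * v⁻¹ * w⁻¹) := by group
              rw [e]
              exact K.mul_mem hv (hKn.conj_mem _ (K.inv_mem hv) w)
            · have hvn : v ∈ normalizer (F : Set H) := h3 (subset_closure (by simp))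
              exact F.mul_mem ((Subgroup.mem_normalizer_iff.mp hvn w).mp h5') (F.inv_mem h5')
          rw [inf_eq_bot_of_types hK h4, Subgroup.mem_bot] at h6
          have := mul_eq_one_iff_eq_inv.mp h6
          rw [inv_inv] at this
          rw [mul_inv_eq_iff_eq_mul] at this
          exact this
        obtain ⟨F, -, -, h3, h4, h5⟩ := hw 1
        have h6 : w ∈ K ⊓ F := ⟨h1, h5⟩
        rw [inf_eq_bot_of_types hK h4] at h6
        exact RR.of_mem bot_le htop h6
      | succ j =>
        have h1 : ∀ m : H, RR p (!b) (j + 1) (closure {w, m} ⊔ K) K w := fun m =>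
          key_step K hK hC w m (fun v _ => hw (m * v))
        have h2 : ∀ m' : H ⧸ K, RR p (!b) (j + 1) (closure {(QuotientGroup.mk' K) w, m'}) ⊥ ((QuotientGroup.mk' K) w) := by
          intro m'
          obtain ⟨m, rfl⟩ := QuotientGroup.mk'_surjective K m'
          have := (h1 m).map (QuotientGroup.mk' K)
          have e : K.map (QuotientGroup.mk' K) = ⊥ := by
            rw [Subgroup.map_eq_bot_iff, QuotientGroup.ker_mk']
          rw [Subgroup.map_sup, e, sup_bot_eq, map_closure_pair] at this
          exact this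
        have h3 := ih (!b) (H76.isPSolvable_quotient K hs) ((QuotientGroup.mk' K) w) h2
        have h4 := h3.comap (QuotientGroup.mk' K)
        rw [Subgroup.comap_top, MonoidHom.comap_bot, QuotientGroup.ker_mk'] at h4
        have h5 := RR.merge (bot_le : ⊥ ≤ K) hK h4
        exact ⟨⊥, le_rfl, bot_le, htop, PQ.refl ⊥, h5⟩
    intro H _ _ hs w hw
    set Q := OO p b H with hQ
    have h2 : ∀ m' : H ⧸ Q, RR p b (k + 1) (closure {(QuotientGroup.mk' Q) w, m'}) ⊥ ((QuotientGroup.mk' Q) w) := by
      intro m'
      obtain ⟨m, rfl⟩ := QuotientGroup.mk'_surjective Q m'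
      have := (hw m).map (QuotientGroup.mk' Q)
      rw [map_closure_pair, Subgroup.map_bot] at this
      exact this
    have h3 := core (H76.isPSolvable_quotient Q hs) (OO_quot p b H) ((QuotientGroup.mk' Q) w) h2
    have h4 := h3.comap (QuotientGroup.mk' Q)
    rw [Subgroup.comap_top, MonoidHom.comap_bot, QuotientGroup.ker_mk'] at h4
    exact RR.merge (bot_le : ⊥ ≤ Q) (OO_PQ p b H) h4

theorem PQ_of_relIndex {G : Type u} [Group G] [Finite G] {p : ℕ} {b : Bool} {N M : Subgroup G} [N.Normal]
    (h : Pn p b (N.relIndex M)) : PQ p b N M := by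
  intro x hx
  have h0 : N.relIndex M ≠ 0 := by
    rw [Subgroup.relIndex]
    exact Subgroup.index_ne_zero_of_finite
  refine ⟨N.relIndex M, Nat.pos_of_ne_zero h0, h, ?_⟩
  have : (⟨x, hx⟩ : M) ^ (N.subgroupOf M).index ∈ N.subgroupOf M := Subgroup.pow_index_mem _ _
  rw [Subgroup.mem_subgroupOf] at this
  exact this

theorem exists_RR {H : Type u} [Group H] [Finite H] {p : ℕ} [Fact p.Prime] (h : IsPSolvable p H) :
    ∃ k, ∀ (b : Bool) (w : H), RR p b k ⊤ ⊥ w := by
  obtain ⟨n, A, h0, hlast, hmono, hnorm, hfac⟩ := h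
  have key : ∀ i : Fin (n + 1), ∃ k, ∀ (b : Bool) (w : H), RR p b k ⊤ (A i) w := by
    intro i
    induction i using Fin.reverseInduction with
    | last => exact ⟨0, fun b w => by rw [hlast]; exact Subgroup.mem_top w⟩
    | cast i ih =>
      obtain ⟨k, hk⟩ := ih
      have hn1 := hnorm i.castSucc
      have hn2 := hnorm i.succ
      have hle : A i.castSucc ≤ A i.succ := hmono (Fin.castSucc_lt_succ).le
      obtain ⟨c, hc⟩ : ∃ c, PQ p c (A i.castSucc) (A i.succ) := by
        rcases hfac i with h | h
        · exact ⟨true, PQ_of_relIndex (Pn_true.mpr h)⟩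
        · exact ⟨false, PQ_of_relIndex (Pn_false.mpr h)⟩
      have t1 : (⊤ : Subgroup H) ≤ normalizer ((A i.castSucc : Subgroup H) : Set H) := by
        rw [Subgroup.normalizer_eq_top]
      have t2 : (⊤ : Subgroup H) ≤ normalizer ((A i.succ : Subgroup H) : Set H) := by
        rw [Subgroup.normalizer_eq_top]
      refine ⟨k + 2, fun b w => ?_⟩
      by_cases hcb : c = b
      · subst hcb
        exact ⟨A i.succ, hle, le_top, t2, hc, (hk _ w).succ le_top t2⟩
      · have hcb' : c = !b := by cases c <;> cases b <;> simp_all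
        subst hcb'
        exact ⟨A i.castSucc, le_rfl, le_top, t1, PQ.refl _, A i.succ, hle, le_top, t2, hc, hk _ w⟩
  obtain ⟨k, hk⟩ := key 0
  rw [h0] at hk
  exact ⟨k, hk⟩

end Cfsg.Agent.H11.PRad
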