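import Cfsg.Agent.H11.PRad3

/-!
# Three-generation (helper11)
-/

set_option autoImplicit false

namespace Cfsg.Agent.H11.PRad

open Subgroup Pointwise

universe u

variable {G : Type u} [Group G] [Finite G]

/-- Passing from a subgroup `E` to the corresponding group. -/
theorem RR_coe {p : ℕ} [Fact p.Prime] {k : ℕ} {b : Bool} {H : Subgroup G} {w : H} (h : RR p b k ⊤ ⊥ w) :
    RR p b k H ⊥ (w : G) := by
  have := h.map H.subtype
  rw [Subgroup.map_bot, ← MonoidHom.range_eq_map, Subgroup.range_subtype] at this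
  exact this

theorem closure_comap {H : Subgroup G} (w h : H) : (closure {(w : G), (h : G)}).comap H.subtype = closure {w, h} := by
  have : (closure {(w : G), (h : G)}) = (closure {w, h}).map H.subtype := by
    rw [map_closure_pair]; rfl
  rw [this, Subgroup.comap_map_eq_self_of_injective H.subtype_injective]

theorem LC_sub {p : ℕ} [Fact p.Prime] {k : ℕ} {b : Bool} {H : Subgroup G} (hs : IsPSolvable p H) {w : G} (hwH : w ∈ H)
    (hw : ∀ x, RR p b k (closure {w, x}) ⊥ w) : RR p b k (⊤ : Subgroup H) ⊥ ⟨w, hwH⟩ := by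
  apply LC k b hs
  intro h
  have h1 := (hw (h : G))
  have h2 : RR p b k (closure {((⟨w, hwH⟩ : H) : G), (h : G)}) ⊥ (H.subtype ⟨w, hwH⟩) := h1
  have h3 := h2.comap H.subtype
  rw [closure_comap, MonoidHom.comap_bot, Subgroup.ker_subtype] at h3
  exact h3

theorem T_mul {p : ℕ} [Fact p.Prime] {k : ℕ} {b : Bool} {w z x : G}
    (hs : IsPSolvable p (closure {w, z, x} : Subgroup G))
    (hw : ∀ x, RR p b k (closure {w, x}) ⊥ w) (hz : ∀ x, RR p b k (closure {z, x}) ⊥ z) :
    RR p b k (closure {w * z, x}) ⊥ (w * z) := by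
  set H : Subgroup G := closure {w, z, x} with hH
  have hwH : w ∈ H := subset_closure (by simp)
  have hzH : z ∈ H := subset_closure (by simp)
  have hxH : x ∈ H := subset_closure (by simp)
  have h1 := LC_sub hs hwH hw
  have h2 := LC_sub hs hzH hz
  have h3 := RR.mul inferInstance inferInstance h1 h2
  rw [sup_idem] at h3
  have h4 : RR p b k H ⊥ (w * z) := RR_coe h3
  have hle : closure {w * z, x} ≤ H := by
    rw [closure_le]
    rintro y (rfl | rfl)
    · exact H.mul_mem hwH hzH
    · exact hxH
  have h5 := RR.restrict (p := p) (E₁ := closure {w * z, x}) (C := closure {w * z, x}) le_rfl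
    Subgroup.le_normalizer hle (subset_closure (by simp)) h4
  rw [bot_inf_eq] at h5
  exact h5

theorem closure_inv_pair {w x : G} : closure {w⁻¹, x} = closure {w, x} := by
  apply le_antisymm
  · rw [closure_le]
    rintro y (rfl | rfl)
    · exact inv_mem (subset_closure (by simp))
    · exact subset_closure (by simp)
  · rw [closure_le]
    rintro y (rfl | rfl)
    · have : y⁻¹ ∈ closure {y⁻¹, x} := subset_closure (by simp)
      have := inv_mem this
      rwa [inv_inv] at this
    · exact subset_closure (by simp)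

/-- the set of `w` -/
def T (p : ℕ) [Fact p.Prime] (k : ℕ) (b : Bool) (hs : ∀ x y z : G, IsPSolvable p (closure {x, y, z} : Subgroup G)) :
    Subgroup G where
  carrier := {w | ∀ x, RR p b k (closure {w, x}) ⊥ w}
  one_mem' := fun x => RR.of_mem bot_le (by rw [Subgroup.normalizer_eq_top]; exact le_top) (Subgroup.one_mem _)
  mul_mem' := fun {w z} hw hz x => T_mul (hs w z x) hw hz
  inv_mem' := fun {w} hw x => by
    have := (hw x).inv
    rw [← closure_inv_pair] at this
    exact this

theorem mem_T {p : ℕ} [Fact p.Prime] {k : ℕ} {b : Bool} {hs : ∀ x y z : G, IsPSolvable p (closure {x, y, z} : Subgroup G)}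
    {w : G} : w ∈ T p k b hs ↔ ∀ x, RR p b k (closure {w, x}) ⊥ w := Iff.rfl

instance T_normal {p : ℕ} [Fact p.Prime] {k : ℕ} {b : Bool} {hs : ∀ x y z : G, IsPSolvable p (closure {x, y, z} : Subgroup G)} :
    (T p k b hs).Normal := by
  refine ⟨fun w hw g => ?_⟩
  rw [mem_T] at hw ⊢
  intro x
  have h1 := (hw (g⁻¹ * x * g)).map (MulAut.conj g).toMonoidHom
  rw [map_closure_pair, Subgroup.map_bot] at h1
  have e1 : (MulAut.conj g).toMonoidHom w = g * w * g⁻¹ := rfl
  have e2 : (MulAut.conj g).toMonoidHom (g⁻¹ * x * g) = x := by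
    show g * (g⁻¹ * x * g) * g⁻¹ = x
    group
  rw [e1, e2] at h1
  exact h1

theorem exists_T_top {p : ℕ} [Fact p.Prime] {b : Bool} (hs : ∀ x y z : G, IsPSolvable p (closure {x, y, z} : Subgroup G)) :
    ∃ k, T p k b hs = ⊤ := by
  classical
  have h1 : ∀ a : G × G, ∃ k, RR p b k (closure {a.1, a.2}) ⊥ a.1 := by
    intro a
    have h2 := hs a.1 a.1 a.2
    rw [Set.insert_eq_of_mem (by simp)] at h2
    obtain ⟨k, hk⟩ := exists_RR h2
    exact ⟨k, RR_coe (hk b ⟨a.1, subset_closure (by simp)⟩)⟩
  choose f hf using h1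
  have := Fintype.ofFinite G
  refine ⟨Finset.univ.sup f, ?_⟩
  rw [eq_top_iff]
  intro w _
  rw [mem_T]
  intro x
  exact (hf (w, x)).mono (Finset.le_sup (Finset.mem_univ _)) bot_le (by rw [Subgroup.normalizer_eq_top]; exact le_top)

theorem T_zero {p : ℕ} [Fact p.Prime] {b : Bool} (hs : ∀ x y z : G, IsPSolvable p (closure {x, y, z} : Subgroup G)) :
    T p 0 b hs = ⊥ := by
  rw [eq_bot_iff]
  intro w hw
  exact (mem_T.mp hw) 1

theorem main [IsSimpleGroup G] (hna : ¬ IsMulCommutative G) {p : ℕ} [hp : Fact p.Prime] (hdvd : p ∣ Nat.card G)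
    (hprop : ∀ H : Subgroup G, H ≠ ⊤ → Cfsg.IsPSolvable p ↥H) : ∃ x y z : G, Subgroup.closure ({x, y, z} : Set G) = ⊤ := by
  classical
  by_contra hcon
  push Not at hcon
  have hs : ∀ x y z : G, IsPSolvable p (closure {x, y, z} : Subgroup G) := fun x y z => hprop _ (hcon x y z)
  have hex := exists_T_top (b := false) hs
  -- elements of both types
  have hel : ∀ c : Bool, ∃ (w : G) (n : ℕ), w ≠ 1 ∧ w ^ n = 1 ∧ Pn p c n := by
    intro c
    cases c
    · by_cases hq : ∃ q : ℕ, q.Prime ∧ q ∣ Nat.card G ∧ q ≠ p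
      · obtain ⟨q, hq1, hq2, hq3⟩ := hq
        haveI : Fact q.Prime := ⟨hq1⟩
        obtain ⟨w, hw⟩ := exists_prime_orderOf_dvd_card' q hq2
        refine ⟨w, q, ?_, ?_, ?_⟩
        · intro h
          rw [h, orderOf_one] at hw
          exact hq1.one_lt.ne hw
        · rw [← hw, pow_orderOf_eq_one]
        · rw [Pn_false]
          exact (Nat.coprime_primes hq1 hp.out).mpr hq3
      · exfalso
        push Not at hq
        have h1 := Nat.eq_prime_pow_of_unique_prime_dvd (n := Nat.card G) Nat.card_pos.ne'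
          (fun {q} hq1 hq2 => hq q hq1 hq2)
        have h2 : IsPGroup p G := IsPGroup.of_card h1
        have h3 := h2.center_nontrivial
        have h4 : center G = ⊤ := by
          rcases (inferInstance : (center G).Normal).eq_bot_or_eq_top with h | h
          · rw [Subgroup.nontrivial_iff_ne_bot] at h3
            exact absurd h h3
          · exact h
        apply hna
        refine ⟨⟨fun a c => ?_⟩⟩
        have : a ∈ center G := h4 ▸ Subgroup.mem_top a
        exact (Subgroup.mem_center_iff.mp this c).symm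
    · obtain ⟨w, hw⟩ := exists_prime_orderOf_dvd_card' p hdvd
      refine ⟨w, p, ?_, ?_, ?_⟩
      · intro h
        rw [h, orderOf_one] at hw
        exact hp.out.one_lt.ne hw
      · rw [← hw, pow_orderOf_eq_one]
      · rw [Pn_true]
        exact ⟨1, by simp⟩
  set k := Nat.find hex with hk
  have hkT : T p k false hs = ⊤ := Nat.find_spec hex
  have hkm : ∀ j < k, T p j false hs ≠ ⊤ := fun j hj => Nat.find_min hex hj
  have hk0 : k ≠ 0 := by
    intro h
    rw [h, T_zero] at hkT
    exact bot_ne_top hkT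
  obtain ⟨j, hj⟩ := Nat.exists_eq_succ_of_ne_zero hk0
  have hjT : T p j false hs = ⊥ := by
    rcases (T_normal : (T p j false hs).Normal).eq_bot_or_eq_top with h | h
    · exact h
    · exact absurd h (hkm j (by omega))
  obtain ⟨w, n, hw1, hwn, hn⟩ := hel (!(lt j false))
  have h1 : w ∈ T p j false hs := by
    rw [mem_T]
    intro x
    have h2 : w ∈ T p k false hs := by rw [hkT]; exact Subgroup.mem_top w
    rw [hj] at h2
    exact RR.strip hwn hn ((mem_T.mp h2) x)
  rw [hjT] at h1
  exact hw1 h1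

end Cfsg.Agent.H11.PRad
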