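import Cfsg.Agent.H2.KInfDeg
import Cfsg.Agent.H2.KInfFun
import Cfsg.Agent.S0626
import Cfsg.Agent.Solv.MinNormal

set_option autoImplicit false
set_option linter.all false
open scoped commutatorElement

/-! `K`-infinity subgroups of `p`-subgroups containing `O_p(G)`; primitive pairs (helper11).
The first theorem is helper2's `exists_critConcl`, with the Sylow subgroup replaced by any `p`-subgroup above `O_p(G)`. -/

namespace Cfsg.Agent.H11.PrimPair

open Subgroup Cfsg Cfsg.Agent.H33 Cfsg.Agent.H2 Cfsg.Agent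

universe u

variable {G : Type u} [Group G] [Finite G] {p : ℕ} [hp : Fact p.Prime]

theorem exists_critConcl' (S' : Subgroup G) (hSp : IsPGroup p S') (hTS : Cfsg.pCore p G ≤ S') {A : Subgroup G} [hAn : A.Normal] (hAT : A ≤ Cfsg.pCore p G)
    (hA2 : ⁅A, A⁆ ≤ centralizer (A : Set G))
    (hTA : ⁅Cfsg.pCore p G, A⁆ ≤ A ⊓ centralizer (A : Set G))
    (hcrit : ∀ x : G, (orderOf x).Coprime p → x ∈ centralizer (A : Set G) →
      x ∈ centralizer ((Cfsg.pCore p G : Subgroup G) : Set G))
    (hK : ¬ (Cfsg.inducedFunctor Cfsg.kInfLower S').Normal ∨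
      ¬ (Cfsg.inducedFunctor Cfsg.kInfUpper S').Normal) :
    ∃ g : G, g ∈ S' ∧ CritConcl p A g := by
  set T := Cfsg.pCore p G with hT
  set f := S'.subtype with hf
  have hfi : Function.Injective f := S'.subtype_injective
  set Z := A ⊓ centralizer (A : Set G) with hZ
  haveI hZn : Z.Normal := inferInstance
  have hAT' : ⁅A, T⁆ ≤ Z := by rw [commutator_comm]; exact hTA
  have hTf : (T.subgroupOf S').map f = T := by
    rw [hf, subgroupOf_map_subtype, inf_eq_left.2 hTS]
  have hle : ∀ X : Subgroup S', X ≤ T.subgroupOf S' ↔ X.map f ≤ T := by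
    intro X
    rw [← map_le_map_iff_of_injective hfi, hTf]
  have hAcl : A ∈ classTwoSubgroups G := hA2
  -- some term of the K-sequence is not inside `T`
  have hex : ∃ n, ¬ (kSeqEven S' n ≤ T.subgroupOf S' ∧ kSeqOdd S' (n + 1) ≤ T.subgroupOf S') := by
    by_contra hcon
    push Not at hcon
    obtain ⟨h1, h2⟩ := kInf_sub (T.subgroupOf S') hcon
    have hnorm : ∀ (W : ∀ (Q : Type u) [Group Q], Subgroup Q)
        (hW : ∀ (Q R : Type u) [Group Q] [Group R] (e : Q ≃* R), (W Q).map (e : Q →* R) = W R),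
        (W ↥(T.subgroupOf S')).map (T.subgroupOf S').subtype = W S' →
        (Cfsg.inducedFunctor W S').Normal := by
      intro W hW h
      unfold Cfsg.inducedFunctor
      rw [← h, ← hW _ _ (Subgroup.subgroupOfEquivOfLe hTS).symm, Subgroup.map_map, Subgroup.map_map]
      have h3 : ((S'.subtype.comp (T.subgroupOf S').subtype).comp
          ((Subgroup.subgroupOfEquivOfLe hTS).symm : T →* (T.subgroupOf S'))) = T.subtype := by
        ext x
        rfl
      rw [h3]
      haveI : (W T).Characteristic := Subgroup.characteristic_iff_map_eq.2 fun φ => hW T T φ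
      infer_instance
    rcases hK with h | h
    · exact h (hnorm _ (fun Q R _ _ e => kInfLower_equiv e) h1)
    · exact h (hnorm _ (fun Q R _ _ e => kInfUpper_equiv e) h2)
  classical
  set n := Nat.find hex with hn
  have hspec := Nat.find_spec hex
  rw [← hn] at hspec
  have hmin : ∀ m, m < n → kSeqEven S' m ≤ T.subgroupOf S' ∧ kSeqOdd S' (m + 1) ≤ T.subgroupOf S' := by
    intro m hm
    have := Nat.find_min hex hm
    push Not at this
    exact this
  have hAf : (A.subgroupOf S').map f = A := by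
    rw [hf, subgroupOf_map_subtype, inf_eq_left.2 (hAT.trans hTS)]
  have hAodd : A ≤ (kSeqOdd S' n).map f := by
    rcases hn0 : n with _ | k
    · change A ≤ (⊤ : Subgroup S').map f
      rw [← MonoidHom.range_eq_map, hf, Subgroup.range_subtype]
      exact hAT.trans hTS
    · have h1 : A.subgroupOf S' ∈ kUpperStarFamily (kSeqEven S' k) := by
        rw [mem_upper_map f hfi, hAf]
        refine ⟨hAcl, ?_⟩
        exact (commutator_mono le_rfl ((hle _).1 (hmin k (by omega)).1)).trans hAT'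
      rw [← hAf]
      exact map_mono (le_sSup h1)
  by_cases hE : kSeqEven S' n ≤ T.subgroupOf S'
  swap
  · -- even case
    obtain ⟨B₀, hB₀, hB₀T⟩ : ∃ B₀ ∈ kLowerStarFamily (kSeqOdd S' n), ¬ B₀ ≤ T.subgroupOf S' := by
      by_contra hcon
      push Not at hcon
      exact hE (sSup_le hcon)
    rw [mem_lower_map f hfi] at hB₀
    rw [hle] at hB₀T
    have hB := lower_antitone hAodd hB₀
    set B := B₀.map f with hBdef
    have hBS : B ≤ S' := by
      rw [hBdef]; rintro _ ⟨x, _, rfl⟩; exact x.2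
    have hBp : IsPGroup p B := hSp.to_le hBS
    obtain ⟨hB2, hAB, hstar⟩ := hB
    have hB2' : ⁅B, B⁆ ≤ centralizer (B : Set G) := hB2
    have hZZ : ⁅Z, Z⁆ = ⊥ := by
      rw [commutator_eq_bot_iff_le_centralizer]
      exact fun z hz => centralizer_le (inf_le_left : Z ≤ A) hz.2
    have htop : ∀ (N : Subgroup G) [N.Normal] (X : Subgroup G), X ≤ normalizer (N : Set G) := by
      intro N hN X
      rw [normalizer_eq_top_iff.2 hN]; exact le_top
    have hBZ : ⁅B, Z⁆ ≤ B ⊓ centralizer (B : Set G) := by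
      refine hstar Z ?_ inf_le_left (htop Z B) ?_ ?_
      · change ⁅Z, Z⁆ ≤ _
        rw [hZZ]; exact bot_le
      · rw [hZZ, commutator_bot_right]
      · rw [← le_bot_iff, ← hZZ]
        exact commutator_mono (commutator_le_right _ _) le_rfl
    have hZBB : ⁅⁅Z, B⁆, B⁆ = ⊥ := by
      rw [commutator_eq_bot_iff_le_centralizer, commutator_comm]
      exact hBZ.trans inf_le_right
    have hBAB : ⁅A, B⁆ ≤ B := le_normalizer_iff_commutator_le_right.1 hAB
    have hABBB : ⁅⁅⁅A, B⁆, B⁆, B⁆ = ⊥ := by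
      rw [commutator_eq_bot_iff_le_centralizer]
      exact (commutator_mono hBAB le_rfl).trans hB2'
    have hgen : ∀ g ∈ B, Cfsg.iterCommutator A (Subgroup.zpowers g) 3 ≤ Z ∧
        ⁅⁅Z, (Subgroup.zpowers g)⁆, (Subgroup.zpowers g)⁆ = ⊥ := by
      intro g hg
      have hz : zpowers g ≤ B := zpowers_le.2 hg
      constructor
      · refine le_trans ?_ (bot_le : ⊥ ≤ Z)
        rw [← hABBB]
        exact commutator_mono (commutator_mono (commutator_mono le_rfl hz) hz) hz
      · rw [← le_bot_iff, ← hZBB]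
        exact commutator_mono (commutator_mono le_rfl hz) hz
    by_cases hC : centralizer ((T : Subgroup G) : Set G) ≤ T
    · obtain ⟨g, hgB, hgT, hU⟩ := cubic_case hAT hA2 hTA hcrit hC hBp hB₀T ⟨hB2, hAB, hstar⟩
      exact ⟨g, hBS hgB, hgT, (hgen g hgB).1, (hgen g hgB).2, fun _ => hU⟩
    · obtain ⟨g, hgB, hgT⟩ := SetLike.not_le_iff_exists.1 hB₀T
      exact ⟨g, hBS hgB, hgT, (hgen g hgB).1, (hgen g hgB).2, fun h => absurd h hC⟩
  · -- odd case
    have hO : ¬ kSeqOdd S' (n + 1) ≤ T.subgroupOf S' := fun h => hspec ⟨hE, h⟩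
    by_cases hAE : A ≤ (kSeqEven S' n).map f
    · obtain ⟨B₀, hB₀, hB₀T⟩ : ∃ B₀ ∈ kUpperStarFamily (kSeqEven S' n), ¬ B₀ ≤ T.subgroupOf S' := by
        by_contra hcon
        push Not at hcon
        exact hO (sSup_le hcon)
      rw [mem_upper_map f hfi] at hB₀
      rw [hle] at hB₀T
      obtain ⟨hB2, hB3⟩ := hB₀
      set B := B₀.map f with hBdef
      have hBS : B ≤ S' := by
        rw [hBdef]; rintro _ ⟨x, _, rfl⟩; exact x.2
      obtain ⟨g, hgB, hgT⟩ := SetLike.not_le_iff_exists.1 hB₀T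
      have hBA : ⁅B, A⁆ ≤ B ⊓ centralizer (B : Set G) := (commutator_mono le_rfl hAE).trans hB3
      have hABB : ⁅⁅A, B⁆, B⁆ = ⊥ := by
        rw [commutator_eq_bot_iff_le_centralizer, commutator_comm]
        exact hBA.trans inf_le_right
      have hz : zpowers g ≤ B := zpowers_le.2 hgB
      have h1 : ⁅⁅A, zpowers g⁆, zpowers g⁆ = ⊥ := by
        rw [← le_bot_iff, ← hABB]
        exact commutator_mono (commutator_mono le_rfl hz) hz
      refine ⟨g, hBS hgB, critConcl_of_quad hAT hcrit hgT (by rw [h1]; exact bot_le) ?_⟩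
      rw [← le_bot_iff, ← h1]
      exact commutator_mono (commutator_mono inf_le_left le_rfl) le_rfl
    · -- A is not in the lower family
      have hnot : ¬ A ∈ kLowerStarFamily ((kSeqOdd S' n).map f) := by
        intro h
        apply hAE
        have h1 : A.subgroupOf S' ∈ kLowerStarFamily (kSeqOdd S' n) := by
          rw [mem_lower_map f hfi, hAf]; exact h
        rw [← hAf]
        exact map_mono (le_sSup h1)
      obtain ⟨B, hB2, hBO, hAB, hc1, hc2, hc3⟩ : ∃ B ∈ classTwoSubgroups G, B ≤ (kSeqOdd S' n).map f ∧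
          A ≤ normalizer (B : Set G) ∧ ⁅A, ⁅B, B⁆⁆ = ⊥ ∧ ⁅⁅A ⊓ centralizer (A : Set G), B⁆, B⁆ = ⊥ ∧
          ¬ ⁅A, B⁆ ≤ A ⊓ centralizer (A : Set G) := by
        by_contra hcon
        push Not at hcon
        apply hnot
        refine ⟨hAcl, by rw [normalizer_eq_top_iff.2 hAn]; exact le_top, ?_⟩
        intro B h1 h2 h3 h4 h5
        exact hcon B h1 h2 h3 h4 h5
      have hBT : ¬ B ≤ T := fun h => hc3 ((commutator_mono le_rfl h).trans hAT')
      have hBS : B ≤ S' := by
        intro x hx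
        obtain ⟨y, _, rfl⟩ := hBO hx
        exact y.2
      obtain ⟨g, hgB, hgT⟩ := SetLike.not_le_iff_exists.1 hBT
      have hz : zpowers g ≤ B := zpowers_le.2 hgB
      refine ⟨g, hBS hgB, critConcl_of_quad hAT hcrit hgT ?_ ?_⟩
      · refine le_inf ?_ ?_
        · exact (commutator_mono (commutator_le_left A _) le_rfl).trans (commutator_le_left A _)
        · have h1 : ⁅A, B⁆ ≤ B := le_normalizer_iff_commutator_le_right.1 hAB
          refine (commutator_mono (commutator_mono le_rfl hz) hz).trans ?_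
          refine (commutator_mono h1 le_rfl).trans ?_
          rw [commutator_eq_bot_iff_le_centralizer] at hc1
          exact le_centralizer_iff.1 hc1
      · rw [← le_bot_iff, ← hc2]
        exact commutator_mono (commutator_mono le_rfl hz) hz


theorem false_of_chief {U V : Subgroup G} [hV : V.Normal] (hUV : Cfsg.IsChiefFactor U V) (hUp : IsPGroup p U) {g : G}
    (hq : ⁅⁅U, zpowers g⁆, zpowers g⁆ ≤ V) (hn : ¬ ⁅U, zpowers g⁆ ≤ V) :
    (∀ (P : Subgroup (G ⧸ V)) [P.Normal], Cfsg.IsElementaryAbelian p P → Cfsg.IsPStableOn p P) → False := by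
  intro hst
  haveI := hUV.2.1
  set f := QuotientGroup.mk' V with hf
  have hfs : Function.Surjective f := QuotientGroup.mk'_surjective V
  set P := U.map f with hP
  haveI hPn : P.Normal := (inferInstance : U.Normal).map f hfs
  have hPp : IsPGroup p P := hUp.map f
  have hPb : P ≠ ⊥ := fun h => hUV.1.not_ge (le_iff_map_mk_eq_bot.2 h)
  have hmin : ∀ K : Subgroup (G ⧸ V), K.Normal → K ≤ P → K = ⊥ ∨ K = P := by
    intro K hK hKP
    have h1 : V ≤ K.comap f := by
      intro x hx
      rw [mem_comap]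
      have : f x = 1 := (QuotientGroup.eq_one_iff x).2 hx
      rw [this]; exact one_mem _
    have h2 : K.comap f ≤ U := by
      intro x hx
      obtain ⟨u, hu, hux⟩ := hKP (mem_comap.1 hx)
      have h3 : u⁻¹ * x ∈ V := by
        rw [← QuotientGroup.eq_one_iff]
        change f (u⁻¹ * x) = 1
        rw [map_mul, map_inv, hux, inv_mul_cancel]
      have := mul_mem hu (hUV.1.le h3)
      simpa using this
    rcases hUV.2.2.2 (K.comap f) (hK.comap f) h1 h2 with h | h
    · left
      rw [← map_comap_eq_self_of_surjective hfs K, h]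
      exact le_iff_map_mk_eq_bot.1 le_rfl
    · right
      rw [← map_comap_eq_self_of_surjective hfs K, h]
  have hzg : (zpowers g).map f = zpowers (f g) := MonoidHom.map_zpowers f g
  have h1 : ⁅⁅P, zpowers (f g)⁆, zpowers (f g)⁆ = ⊥ := by
    rw [← hzg, ← map_commutator, ← map_commutator]
    exact le_iff_map_mk_eq_bot.1 hq
  haveI hPnil : Group.IsNilpotent P := hPp.isNilpotent
  have hPsol : Group.IsSolvable P := inferInstance
  obtain ⟨hc, r, hr, hrx⟩ := Cfsg.Agent.Solv.minimal_normal_of_solvable P hPsol hPb hmin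
  have hPe : Cfsg.IsElementaryAbelian p P := by
    refine ⟨hc, fun x hx => ?_⟩
    by_cases hx1 : x = 1
    · rw [hx1, one_pow]
    · have h3 : orderOf x = r := by
        haveI : Fact r.Prime := ⟨hr⟩
        exact orderOf_eq_prime (hrx x hx) hx1
      obtain ⟨k, hk⟩ := IsPGroup.iff_orderOf.1 hPp ⟨x, hx⟩
      rw [Subgroup.orderOf_mk, h3] at hk
      have h4 : r ∣ p ^ k := by rw [← hk]
      have h5 := (Nat.prime_dvd_prime_iff_eq hr hp.out).1 (hr.dvd_of_dvd_pow h4)
      rw [← h5]
      exact hrx x hx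
  have h2 := hst P hPe (f g) h1
  set C := centralizer (P : Set (G ⧸ V)) with hC
  set K := (Cfsg.pCore p ((G ⧸ V) ⧸ C)).comap (QuotientGroup.mk' C) with hK
  have hgK : f g ∈ K := h2
  have hKn : K.Normal := by rw [hK]; infer_instance
  have hKp : ∀ a ∈ K, ∃ k : ℕ, a ^ p ^ k ∈ C := by
    intro a ha
    obtain ⟨k, hk⟩ := Solv.pCore_isPGroup (G := (G ⧸ V) ⧸ C) p ⟨QuotientGroup.mk' C a, ha⟩
    refine ⟨k, ?_⟩
    have hk' : (QuotientGroup.mk' C a) ^ p ^ k = 1 := congrArg Subtype.val hk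
    rw [← map_pow] at hk'
    exact (QuotientGroup.eq_one_iff _).1 hk'
  obtain ⟨v, hvP, hv1, -, hvK, -⟩ := exists_central_fixed hPp hKp hPb
  rcases hmin (P ⊓ centralizer (K : Set (G ⧸ V))) inferInstance inf_le_left with h | h
  · have : v ∈ P ⊓ centralizer (K : Set (G ⧸ V)) := ⟨hvP, hvK⟩
    rw [h, mem_bot] at this
    exact hv1 this
  · apply hn
    rw [le_iff_map_mk_eq_bot, map_commutator, hzg, commutator_eq_bot_iff_le_centralizer]
    have h3 : P ≤ centralizer (K : Set (G ⧸ V)) := by rw [← h]; exact inf_le_right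
    exact h3.trans (centralizer_le (zpowers_le.2 hgK))


theorem sylow_comm_quotient (hab : ∀ T : Sylow 2 G, IsMulCommutative T) (N : Subgroup G) [N.Normal]
    (T : Sylow 2 (G ⧸ N)) : IsMulCommutative T := by
  haveI : Fact (Nat.Prime 2) := ⟨Nat.prime_two⟩
  obtain ⟨S, hS⟩ := Sylow.mapSurjective_surjective (QuotientGroup.mk'_surjective N) 2 T
  have h1 : (T : Subgroup (G ⧸ N)) = (S : Subgroup G).map (QuotientGroup.mk' N) := by
    rw [← hS]; rfl
  have h2 := hab S
  refine ⟨⟨?_⟩⟩
  rintro ⟨a, ha⟩ ⟨b, hb⟩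
  apply Subtype.ext
  have ha' : a ∈ (S : Subgroup G).map (QuotientGroup.mk' N) := by rw [← h1]; exact ha
  have hb' : b ∈ (S : Subgroup G).map (QuotientGroup.mk' N) := by rw [← h1]; exact hb
  obtain ⟨x, hx, rfl⟩ := ha'
  obtain ⟨y, hy, rfl⟩ := hb'
  have h3 : x * y = y * x := congrArg Subtype.val (h2.is_comm.comm (⟨x, hx⟩ : (S : Subgroup G)) ⟨y, hy⟩)
  show QuotientGroup.mk' N x * QuotientGroup.mk' N y = QuotientGroup.mk' N y * QuotientGroup.mk' N x
  rw [← map_mul, ← map_mul, h3]

theorem kInf_normal (hp2 : p ≠ 2) (hab : ∀ T : Sylow 2 G, IsMulCommutative T)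
    (hc : Subgroup.centralizer (Cfsg.pCore p G : Set G) ≤ Cfsg.pCore p G)
    (S : Subgroup G) (hSp : IsPGroup p S) (hTS : Cfsg.pCore p G ≤ S) :
    (Cfsg.inducedFunctor Cfsg.kInfLower S).Normal := by
  by_contra hcon
  set T := Cfsg.pCore p G with hT
  have hTp : IsPGroup p T := Solv.pCore_isPGroup (G := G) p
  obtain ⟨A, hAn, hAT, hA2, hTA, hA4, hcrit⟩ := exists_critical_ambient T hTp
  haveI := hAn
  obtain ⟨g, hgS, hgT, h3, h2, hU⟩ := exists_critConcl' S hSp hTS hAT hA2 hTA hcrit (Or.inl hcon)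
  obtain ⟨U, V, hUV, hUA, hq, hn⟩ := hU hc
  haveI := hUV.2.2.1
  exact false_of_chief hUV (hTp.to_le (hUA.trans hAT)) hq hn
    (Cfsg.Agent.S0626.result hp2 (sylow_comm_quotient hab V)).1

/-- the induced functor inside a subgroup -/
theorem map_inducedFunctor {S M : Subgroup G} (hSM : S ≤ M) :
    (Cfsg.inducedFunctor Cfsg.kInfLower (S.subgroupOf M)).map M.subtype = Cfsg.inducedFunctor Cfsg.kInfLower S := by
  unfold Cfsg.inducedFunctor
  rw [← kInfLower_equiv (Subgroup.subgroupOfEquivOfLe hSM), Subgroup.map_map, Subgroup.map_map]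
  rfl

theorem le_normalizer_kInf (hp2 : p ≠ 2) {S M : Subgroup G} (hSM : S ≤ M) (hSp : IsPGroup p S)
    (hab : ∀ T : Sylow 2 M, IsMulCommutative T)
    (hc : Subgroup.centralizer (Cfsg.pCore p M : Set M) ≤ Cfsg.pCore p M)
    (hTS : (Cfsg.pCore p M).map M.subtype ≤ S) :
    M ≤ Subgroup.normalizer ((Cfsg.inducedFunctor Cfsg.kInfLower S : Subgroup G) : Set G) := by
  have h1 : IsPGroup p (S.subgroupOf M) := hSp.comap_of_injective _ M.subtype_injective
  have h2 : Cfsg.pCore p M ≤ S.subgroupOf M := by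
    intro x hx
    exact hTS ⟨x, hx, rfl⟩
  have h3 := kInf_normal hp2 hab hc (S.subgroupOf M) h1 h2
  rw [← map_inducedFunctor hSM]
  intro m hm
  rw [Subgroup.mem_normalizer_iff]
  have key : ∀ m ∈ M, ∀ h ∈ (Cfsg.inducedFunctor Cfsg.kInfLower (S.subgroupOf M)).map M.subtype,
      m * h * m⁻¹ ∈ (Cfsg.inducedFunctor Cfsg.kInfLower (S.subgroupOf M)).map M.subtype := by
    rintro m hm _ ⟨y, hy, rfl⟩
    exact ⟨_, h3.conj_mem y hy ⟨m, hm⟩, rfl⟩
  intro h
  refine ⟨fun hh => key m hm h hh, fun hh => ?_⟩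
  have := key m⁻¹ (inv_mem hm) _ hh
  convert this using 1
  group

end Cfsg.Agent.H11.PrimPair
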