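import Cfsg.Agent.H11.QpFin2

set_option autoImplicit false
set_option linter.style.haveILetI false
set_option linter.unnecessarySeqFocus false

/-! finite `R = k[λ]`, `λ` a unit: if all `x(s)` in `⟨x(k), y(kλ)⟩`, `s ≠ 0`, have `s` a unit, `R` is a field. -/

namespace Cfsg.Agent.H11.QP

open Matrix

theorem isNilpotent_mat2 {R : Type*} [CommRing R] (X : Matrix (Fin 2) (Fin 2) R)
    (h : ∀ i j, IsNilpotent (X i j)) : IsNilpotent X := by
  have hsm : ∀ (r : R) (Y : Matrix (Fin 2) (Fin 2) R), IsNilpotent r → IsNilpotent (r • Y) := by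
    rintro r Y ⟨n, hn⟩
    exact ⟨n, by rw [smul_pow, hn, zero_smul]⟩
  have ht : IsNilpotent (X 0 0 + X 1 1) := Commute.isNilpotent_add (Commute.all _ _) (h 0 0) (h 1 1)
  have hd : IsNilpotent (X 0 0 * X 1 1 - X 0 1 * X 1 0) :=
    Commute.isNilpotent_sub (Commute.all _ _) (Commute.isNilpotent_mul_left (Commute.all _ _) (h 1 1))
      (Commute.isNilpotent_mul_left (Commute.all _ _) (h 1 0))
  have e : X ^ 2 = (X 0 0 + X 1 1) • X - (X 0 0 * X 1 1 - X 0 1 * X 1 0) • (1 : Matrix (Fin 2) (Fin 2) R) := by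
    rw [pow_two]
    ext i j
    fin_cases i <;> fin_cases j <;> simp [Matrix.mul_apply, Fin.sum_univ_two] <;> ring
  have h2 : IsNilpotent (X ^ 2) := by
    rw [e]
    apply Commute.isNilpotent_sub _ (hsm _ _ ht) (hsm _ _ hd)
    exact ((Commute.one_right X).smul_left _).smul_right _
  obtain ⟨n, hn⟩ := h2
  exact ⟨2 * n, by rw [pow_mul, hn]⟩

theorem adjoin_map {k R K : Type*} [Field k] [CommRing R] [CommRing K] [Algebra k R] [Algebra k K] (π : R →ₐ[k] K)
    (hπ : Function.Surjective π) {lam : R} (hgen : Algebra.adjoin k {lam} = ⊤) :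
    Algebra.adjoin k {π lam} = ⊤ := by
  have h1 : (Algebra.adjoin k {lam}).map π = Algebra.adjoin k (π '' {lam}) := AlgHom.map_adjoin π _
  rw [Set.image_singleton, hgen, Algebra.map_top] at h1
  rw [← h1, AlgHom.range_eq_top]
  exact hπ

section claim2
variable {k : Type*} [Field k] [Finite k] {R : Type*} [CommRing R] [Finite R] [Algebra k R]

theorem comm_of_ker (h2 : (2 : k) ≠ 0) (hk : 3 < Nat.card k) {lam : R} (hlam : IsUnit lam)
    (hgen : Algebra.adjoin k {lam} = ⊤) (p : ℕ) [Fact p.Prime] (hp2 : p ≠ 2) [CharP k p] [CharP R p]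
    (N : Subgroup (HS k lam)) (hN : N.Normal) (hcard : ¬ p ∣ Nat.card N) (n : HS k lam) (hn : n ∈ N)
    (h : HS k lam) : n * h = h * n := by
  classical
  set c := n * h * n⁻¹ * h⁻¹ with hc
  have hcN : c ∈ N := by
    have e : c = n * (h * n⁻¹ * h⁻¹) := by rw [hc]; group
    rw [e]; exact mul_mem hn (hN.conj_mem _ (inv_mem hn) h)
  have hker : ∀ J : Ideal R, J.IsPrime → ∀ i j, (c.1.1 i j - (1 : Matrix (Fin 2) (Fin 2) R) i j) ∈ J := by
    intro J hJ i j
    haveI hJm : J.IsMaximal := IsArtinianRing.isMaximal_of_isPrime J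
    letI : Field (R ⧸ J) := Ideal.Quotient.field J
    let π : R →ₐ[k] (R ⧸ J) := Ideal.Quotient.mkₐ k J
    have hπs : Function.Surjective π := Ideal.Quotient.mkₐ_surjective k J
    haveI : Finite (R ⧸ J) := Finite.of_surjective _ hπs
    have hπl : π lam ≠ 0 := (hlam.map π).ne_zero
    have htop := HS_map_top h2 hk π hπl (adjoin_map π hπs hgen)
    haveI : CharP (R ⧸ J) p := (RingHom.charP_iff (algebraMap k (R ⧸ J)) (algebraMap k (R ⧸ J)).injective p).mp inferInstance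
    let f : HS k lam →* SpecialLinearGroup (Fin 2) (R ⧸ J) := (mp π).comp (HS k lam).subtype
    have hf : Function.Surjective f := by
      intro g
      have : g ∈ (HS k lam).map (mp π) := by rw [htop]; trivial
      obtain ⟨x, hx, hxg⟩ := this
      exact ⟨⟨x, hx⟩, hxg⟩
    have hcardK : 4 ≤ Nat.card (R ⧸ J) := by
      have : Nat.card k ≤ Nat.card (R ⧸ J) := Nat.card_le_card_of_injective _ (algebraMap k (R ⧸ J)).injective
      omega
    have hcen := le_center_of_normal hcardK p hp2 (N.map f) (hN.map f hf) (by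
      intro hd
      exact hcard (hd.trans (Subgroup.card_map_dvd _ f)))
    have h1 : f n ∈ Subgroup.center _ := hcen ⟨n, hn, rfl⟩
    have h3 : f c = 1 := by
      rw [hc, map_mul, map_mul, map_mul, map_inv, map_inv, ← Subgroup.mem_center_iff.mp h1 (f h),
        mul_inv_cancel_right, mul_inv_cancel]
    have h4 : (f c).1 i j = (1 : Matrix (Fin 2) (Fin 2) (R ⧸ J)) i j := by rw [h3]; rfl
    have h5 : π (c.1.1 i j) = (1 : Matrix (Fin 2) (Fin 2) (R ⧸ J)) i j := h4
    have h6 : π (c.1.1 i j - (1 : Matrix (Fin 2) (Fin 2) R) i j) = 0 := by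
      rw [map_sub, h5, Matrix.one_apply, Matrix.one_apply]
      split_ifs
      · rw [map_one, sub_self]
      · rw [map_zero, sub_self]
    exact Ideal.Quotient.eq_zero_iff_mem.mp h6
  have hnil : IsNilpotent (c.1.1 - 1) := by
    apply isNilpotent_mat2
    intro i j
    rw [nilpotent_iff_mem_prime]
    intro J hJ
    exact hker J hJ i j
  obtain ⟨m, hm⟩ := hnil
  have hc1 : c ^ (p ^ m) = 1 := by
    apply Subtype.ext
    apply Subtype.ext
    change (c.1 ^ (p ^ m)).1 = 1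
    rw [Matrix.SpecialLinearGroup.coe_pow]
    have e : c.1.1 = 1 + (c.1.1 - 1) := by abel
    rw [e, add_pow_char_pow_of_commute (p := p) (n := m) (Commute.one_left _), one_pow]
    have hle : m ≤ p ^ m := (Nat.lt_pow_self (Fact.out : p.Prime).one_lt).le
    rw [← Nat.add_sub_cancel' hle, pow_add, hm, zero_mul, add_zero]
  have hco : orderOf c = 1 := by
    have h3 : orderOf c ∣ p ^ m := orderOf_dvd_of_pow_eq_one hc1
    obtain ⟨j, _, hj⟩ := (Nat.dvd_prime_pow Fact.out).mp h3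
    have h4 : orderOf (⟨c, hcN⟩ : N) = orderOf c := Subgroup.orderOf_mk _ _
    have h5 : orderOf c ∣ Nat.card N := by rw [← h4]; exact orderOf_dvd_natCard _
    rcases Nat.eq_zero_or_pos j with h0 | h0
    · rw [hj, h0, pow_zero]
    · exfalso
      apply hcard
      refine dvd_trans ?_ h5
      rw [hj]; exact dvd_pow_self p h0.ne'
  rw [orderOf_eq_one_iff, hc, mul_inv_eq_one, mul_inv_eq_iff_eq_mul] at hco
  exact hco

/-- Claim 2, with a residue field -/
theorem isUnit_of_SS_aux [Nontrivial R] (h2 : (2 : k) ≠ 0) (hk : 3 < Nat.card k) {lam : R} (hlam : IsUnit lam)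
    (hgen : Algebra.adjoin k {lam} = ⊤) (hS : ∀ s ∈ SS k lam, s ≠ 0 → IsUnit s)
    {K : Type*} [Field K] [Finite K] [Algebra k K] (π : R →ₐ[k] K) (hπs : Function.Surjective π) :
    ∀ r : R, r ≠ 0 → IsUnit r := by
  classical
  obtain ⟨p, hpp, hp2, hpk, hpR⟩ := char_facts h2 R
  haveI : Fact p.Prime := ⟨hpp⟩
  have hπu : ∀ r, IsUnit r → π r ≠ 0 := fun r hr => (hr.map π).ne_zero
  have hπl : π lam ≠ 0 := hπu _ hlam
  have htop := HS_map_top h2 hk π hπl (adjoin_map π hπs hgen)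
  haveI : CharP K p := (RingHom.charP_iff (algebraMap k K) (algebraMap k K).injective p).mp hpk
  have h2K : (2 : K) ≠ 0 := by
    have := (map_ne_zero (algebraMap k K)).mpr h2
    rwa [map_ofNat] at this
  let f : HS k lam →* SpecialLinearGroup (Fin 2) K := (mp π).comp (HS k lam).subtype
  have hfdef : ∀ x : HS k lam, f x = mp π x.1 := fun x => rfl
  have hf : ∀ g, ∃ x, f x = g := by
    intro g
    have : g ∈ (HS k lam).map (mp π) := by rw [htop]; trivial
    obtain ⟨x, hx, hxg⟩ := this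
    exact ⟨⟨x, hx⟩, hxg⟩
  have hX1 : X2 (1 : R) ∈ HS k lam := by
    have := X2_mem_HS (k := k) lam 1
    rwa [map_one] at this
  have hYl : Y2 lam ∈ HS k lam := by
    have := Y2_mem_HS (k := k) lam 1
    rwa [map_one, one_mul] at this
  have hXp : ∀ s : R, (X2 s) ^ p = 1 := fun s => by
    rw [X2_pow, CharP.cast_eq_zero, zero_mul, X2_zero]
  have hYp : ∀ s : R, (Y2 s) ^ p = 1 := fun s => by
    rw [Y2_pow, CharP.cast_eq_zero, zero_mul, Y2_zero]
  -- the kernel is a `p'`-group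
  have hNc : ¬ p ∣ Nat.card f.ker := by
    intro hd
    let L : Subgroup (SpecialLinearGroup (Fin 2) R) := HS k lam ⊓ (mp π).ker
    have hLmem : ∀ x, x ∈ L ↔ x ∈ HS k lam ∧ mp π x = 1 := fun x => by
      rw [← MonoidHom.mem_ker]; exact Subgroup.mem_inf
    have hc : Nat.card L = Nat.card f.ker :=
      Nat.card_congr
        { toFun := fun x => ⟨⟨x.1, ((hLmem _).mp x.2).1⟩, ((hLmem _).mp x.2).2⟩
          invFun := fun x => ⟨x.1.1, (hLmem _).mpr ⟨x.1.2, x.2⟩⟩
          left_inv := fun x => rfl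
          right_inv := fun x => rfl }
    obtain ⟨s, hs0, hsL⟩ := exists_X2_mem p hp2 L (by
      intro x hx
      rw [hLmem] at hx ⊢
      refine ⟨mul_mem (mul_mem hX1 hx.1) (inv_mem hX1), ?_⟩
      rw [map_mul, map_mul, map_inv, hx.2, mul_one, mul_inv_cancel]) (by rw [hc]; exact hd)
    obtain ⟨hsH, hx'⟩ := (hLmem _).mp hsL
    apply hπu s (hS s hsH hs0)
    rw [mp_X2, ← X2_zero] at hx'
    exact X2_inj hx'
  have hcomm := comm_of_ker h2 hk hlam hgen p hp2 f.ker inferInstance hNc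
  -- injectivity on `S`
  have hinj : ∀ s ∈ SS k lam, π s = 0 → s = 0 := by
    intro s hs hs0
    by_contra hne
    exact hπu s (hS s hs hne) hs0
  -- surjectivity
  have hsurj : ∀ r : K, ∃ s ∈ SS k lam, π s = r := by
    intro r
    obtain ⟨x0, hx0⟩ := hf (X2 (r / 2))
    obtain ⟨x, hx, hxc⟩ := coset_fix f p hNc ⟨X2 1, hX1⟩ ⟨X2 1, hX1⟩ (Subtype.ext (hXp 1)) (Subtype.ext (hXp 1)) x0 (by
      rw [hx0, hfdef, mp_X2, X2_mul, X2_mul, add_comm])
    have hxc' : X2 1 * x.1 = x.1 * X2 1 := congrArg Subtype.val hxc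
    have h3 := sq_of_comm_X2_one hxc'
    refine ⟨2 * x.1.1 0 0 * x.1.1 0 1, ?_, ?_⟩
    · rw [mem_SS, ← h3]; exact pow_mem x.2 2
    · apply X2_inj
      rw [← mp_X2, ← h3, map_pow, ← hfdef, hx, hx0, X2_pow]
      congr 1
      push_cast; field_simp
  -- multiplication by squares
  have hsq : ∀ d : K, d ≠ 0 → ∃ s ∈ SS k lam, π s = d ^ 2 ∧ ∀ t ∈ SS k lam, s * t ∈ SS k lam := by
    intro d hd
    obtain ⟨s, hs, hsd⟩ := hsurj (d ^ 2)
    obtain ⟨x0, hx0⟩ := hf ⟨!![d⁻¹, 0; 0, d], by rw [Matrix.det_fin_two_of, inv_mul_cancel₀ hd]; ring⟩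
    have j1 : (f x0).1 0 0 = d⁻¹ := by rw [hx0]; rfl
    have j2 : (f x0).1 0 1 = 0 := by rw [hx0]; rfl
    have j3 : (f x0).1 1 0 = 0 := by rw [hx0]; rfl
    have j4 : (f x0).1 1 1 = d := by rw [hx0]; rfl
    obtain ⟨x, hx, hxc⟩ := coset_fix f p hNc ⟨X2 1, hX1⟩ ⟨X2 s, hs⟩ (Subtype.ext (hXp 1)) (Subtype.ext (hXp s)) x0 (by
      rw [hfdef ⟨X2 1, hX1⟩, hfdef ⟨X2 s, hs⟩, mp_X2, mp_X2, map_one, hsd]
      apply sl2_ext <;> sl2_simp <;> simp only [j1, j2, j3, j4] <;> field_simp <;> ring)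
    have hxc' : X2 1 * x.1 = x.1 * X2 s := congrArg Subtype.val hxc
    have e1 := congrArg (fun g : SpecialLinearGroup (Fin 2) R => g.1 0 0) hxc'
    have e2 := congrArg (fun g : SpecialLinearGroup (Fin 2) R => g.1 0 1) hxc'
    simp only [mul00, mul01, X2_00, X2_01, X2_10, X2_11] at e1 e2
    have h10 : x.1.1 1 0 = 0 := by linear_combination e1
    have h11 : x.1.1 1 1 = x.1.1 0 0 * s := by linear_combination e2
    have hdet := det2 x.1
    refine ⟨s, hs, hsd, ?_⟩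
    intro t ht
    have h3 := SS_mul_sq (k := k) (inv_mem x.2) (by rw [inv10, h10, neg_zero]) ht
    rw [inv00] at h3
    have h4 : x.1.1 1 1 ^ 2 * t = s * t := by
      rw [h11]
      rw [h10, h11, mul_zero, sub_zero] at hdet
      linear_combination s * t * hdet
    rwa [h4] at h3
  have hmul : ∀ s ∈ SS k lam, ∀ t ∈ SS k lam, s * t ∈ SS k lam := by
    intro s hs t ht
    have hsq' : ∀ d : K, ∃ s ∈ SS k lam, π s = d ^ 2 ∧ ∀ t ∈ SS k lam, s * t ∈ SS k lam := by
      intro d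
      by_cases hd : d = 0
      · exact ⟨0, zero_mem _, by rw [map_zero, hd]; ring, fun t _ => by rw [zero_mul]; exact zero_mem _⟩
      · exact hsq d hd
    obtain ⟨a, ha, haπ, ham⟩ := hsq' ((π s + 1) / 2)
    obtain ⟨b, hb, hbπ, hbm⟩ := hsq' ((π s - 1) / 2)
    have h3 : s = a - b := by
      have h4 : s - (a - b) = 0 := by
        apply hinj _ (sub_mem hs (sub_mem ha hb))
        rw [map_sub, map_sub, haπ, hbπ]
        field_simp; ring
      exact sub_eq_zero.mp h4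
    rw [h3, sub_mul]
    exact sub_mem (ham t ht) (hbm t ht)
  -- the lower part
  obtain ⟨τ, hτH, hτπ⟩ : ∃ τ : R, Y2 τ ∈ HS k lam ∧ π τ = 1 := by
    obtain ⟨x0, hx0⟩ := hf (Y2 (1 / 2))
    obtain ⟨x, hx, hxc⟩ := coset_fix f p hNc ⟨Y2 lam, hYl⟩ ⟨Y2 lam, hYl⟩ (Subtype.ext (hYp lam))
      (Subtype.ext (hYp lam)) x0 (by
      rw [hx0, hfdef, mp_Y2, Y2_mul, Y2_mul, add_comm])
    have hxc' : Y2 lam * x.1 = x.1 * Y2 lam := congrArg Subtype.val hxc
    have e1 := congrArg (fun g : SpecialLinearGroup (Fin 2) R => g.1 0 0) hxc'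
    have e2 := congrArg (fun g : SpecialLinearGroup (Fin 2) R => g.1 1 0) hxc'
    simp only [mul00, mul10, Y2_00, Y2_01, Y2_10, Y2_11] at e1 e2
    have h01 : x.1.1 0 1 = 0 := by
      have : x.1.1 0 1 * lam = 0 := by linear_combination -e1
      exact (hlam.mul_left_eq_zero).mp this
    have h00 : x.1.1 0 0 = x.1.1 1 1 := by
      have : (x.1.1 0 0 - x.1.1 1 1) * lam = 0 := by linear_combination e2
      exact sub_eq_zero.mp ((hlam.mul_left_eq_zero).mp this)
    have hdet := det2 x.1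
    have h3 : x.1 ^ 2 = Y2 (2 * x.1.1 0 0 * x.1.1 1 0) := by
      rw [pow_two]
      apply sl2_ext <;> sl2_simp
      · linear_combination hdet + x.1.1 0 0 * h00 + 2 * x.1.1 1 0 * h01
      · linear_combination (x.1.1 0 0 + x.1.1 1 1) * h01
      · linear_combination -x.1.1 1 0 * h00
      · linear_combination hdet - x.1.1 1 1 * h00 + 2 * x.1.1 1 0 * h01
    refine ⟨2 * x.1.1 0 0 * x.1.1 1 0, ?_, ?_⟩
    · rw [← h3]; exact pow_mem x.2 2
    · apply Y2_inj
      rw [← mp_Y2, ← h3, map_pow, ← hfdef, hx, hx0, Y2_pow]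
      congr 1
      push_cast; field_simp
  have hYτ' : Y2 (-τ) ∈ HS k lam := by rw [← Y2_inv]; exact inv_mem hτH
  have hτ1 : τ = 1 := by
    set w : HS k lam := ⟨X2 1, hX1⟩ * ⟨Y2 (-τ), hYτ'⟩ * ⟨X2 1, hX1⟩ with hw
    set z : HS k lam := ⟨Y2 (-τ), hYτ'⟩⁻¹ * (w * ⟨X2 1, hX1⟩ * w⁻¹) with hz
    have hwv : w.1 = X2 1 * Y2 (-τ) * X2 1 := rfl
    have hzker : z ∈ f.ker := by
      rw [MonoidHom.mem_ker, hfdef]
      have e : z.1 = (Y2 (-τ))⁻¹ * (w.1 * X2 1 * w.1⁻¹) := rfl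
      rw [e, hwv]
      simp only [map_mul, map_inv, mp_X2, mp_Y2, map_neg, hτπ, map_one]
      apply sl2_ext <;> sl2_simp <;> ring
    have hzc : ∀ h, z * h = h * z := hcomm z hzker
    have hzp : z ^ p = 1 := by
      have e1 : w * ⟨X2 1, hX1⟩ * w⁻¹ = ⟨Y2 (-τ), hYτ'⟩ * z := by rw [hz]; group
      have hc : Commute (⟨Y2 (-τ), hYτ'⟩ : HS k lam) z := (hzc _).symm
      have e2 := hc.mul_pow p
      rw [← e1, conj_pow] at e2
      have e3 : (⟨X2 1, hX1⟩ : HS k lam) ^ p = 1 := Subtype.ext (hXp 1)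
      have e4 : (⟨Y2 (-τ), hYτ'⟩ : HS k lam) ^ p = 1 := Subtype.ext (hYp _)
      rw [e3, e4, mul_one, mul_inv_cancel, one_mul] at e2
      exact e2.symm
    have hz1 : z = 1 := by
      rw [← orderOf_eq_one_iff]
      have h3 : orderOf z ∣ p := orderOf_dvd_of_pow_eq_one hzp
      have h4 : orderOf (⟨z, hzker⟩ : f.ker) = orderOf z := Subgroup.orderOf_mk _ _
      have h5 : orderOf z ∣ Nat.card f.ker := by rw [← h4]; exact orderOf_dvd_natCard _
      rcases (Nat.dvd_prime hpp).mp h3 with h6 | h6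
      · exact h6
      · exfalso; apply hNc; rw [← h6]; exact h5
    have h3 : w * ⟨X2 1, hX1⟩ * w⁻¹ = ⟨Y2 (-τ), hYτ'⟩ := by
      have : w * ⟨X2 1, hX1⟩ * w⁻¹ = ⟨Y2 (-τ), hYτ'⟩ * z := by rw [hz]; group
      rw [this, hz1, mul_one]
    have h4 : w.1 * X2 1 * w.1⁻¹ = Y2 (-τ) := congrArg Subtype.val h3
    rw [hwv] at h4
    have e1 := congrArg (fun g : SpecialLinearGroup (Fin 2) R => g.1 0 0) h4
    have e2 := congrArg (fun g : SpecialLinearGroup (Fin 2) R => g.1 0 1) h4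
    simp only [mul00, mul01, mul10, mul11, inv00, inv01, inv10, inv11, X2_00, X2_01, X2_10, X2_11, Y2_00, Y2_01,
      Y2_10, Y2_11] at e1 e2
    linear_combination -e1 - e2
  rw [hτ1] at hτH
  have hlamS : lam ∈ SS k lam := by
    rw [mem_SS]
    have hY1' : Y2 (-1 : R) ∈ HS k lam := by rw [← Y2_inv]; exact inv_mem hτH
    have e : X2 lam = ((X2 1 * Y2 (-1) * X2 1)⁻¹ * Y2 lam * (X2 1 * Y2 (-1) * X2 1))⁻¹ := by
      apply sl2_ext <;> sl2_simp <;> ring
    rw [e]
    have hw : X2 1 * Y2 (-1) * X2 1 ∈ HS k lam := mul_mem (mul_mem hX1 hY1') hX1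
    exact inv_mem (mul_mem (mul_mem (inv_mem hw) hYl) hw)
  have h1S : (1 : R) ∈ SS k lam := hX1
  let SA : Subalgebra k R :=
    { carrier := SS k lam
      mul_mem' := fun ha hb => hmul _ ha _ hb
      add_mem' := fun ha hb => add_mem ha hb
      algebraMap_mem' := fun r => by
        change algebraMap k R r ∈ SS k lam
        rw [Algebra.algebraMap_eq_smul_one]
        exact (SS k lam).smul_mem _ h1S }
  have hSA : SA = ⊤ := by
    rw [eq_top_iff, ← hgen]
    apply Algebra.adjoin_le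
    rintro _ rfl
    exact hlamS
  intro r hr
  have : r ∈ SA := by rw [hSA]; trivial
  exact hS r this hr

/-- Claim 2 -/
theorem isUnit_of_SS [Nontrivial R] (h2 : (2 : k) ≠ 0) (hk : 3 < Nat.card k) {lam : R} (hlam : IsUnit lam)
    (hgen : Algebra.adjoin k {lam} = ⊤) (hS : ∀ s ∈ SS k lam, s ≠ 0 → IsUnit s) : ∀ r : R, r ≠ 0 → IsUnit r := by
  obtain ⟨J, hJ⟩ := Ideal.exists_maximal R
  letI : Field (R ⧸ J) := Ideal.Quotient.field J
  have hπs : Function.Surjective (Ideal.Quotient.mkₐ k J) := Ideal.Quotient.mkₐ_surjective k J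
  haveI : Finite (R ⧸ J) := Finite.of_surjective _ hπs
  exact isUnit_of_SS_aux h2 hk hlam hgen hS (Ideal.Quotient.mkₐ k J) hπs

end claim2

end Cfsg.Agent.H11.QP
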