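import Cfsg.Agent.H84.Quad
import Cfsg.Agent.H11.QpFin3

set_option autoImplicit false
set_option linter.unusedSectionVars false

/-! quadratic directions in a linear group -/

namespace Cfsg.Agent.H11.QP

open Cfsg Polynomial

section basic
variable {k : Type*} [Field k] {M : Type*} [AddCommGroup M] [Module k M]
variable {G : Subgroup (LinearMap.GeneralLinearGroup k M)}

/-- `x² = 0` and all `1 + c x` are in `G` -/
def Inn (G : Subgroup (LinearMap.GeneralLinearGroup k M)) (x : M →ₗ[k] M) : Prop :=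
  x * x = 0 ∧ ∀ c : k, ∀ g : LinearMap.GeneralLinearGroup k M, (g : M →ₗ[k] M) = 1 + c • x → g ∈ G

theorem Inn.sq {x : M →ₗ[k] M} (h : Inn G x) : x * x = 0 := h.1

/-- the unit `1 + c x` -/
noncomputable def Inn.el {x : M →ₗ[k] M} (h : Inn G x) (c : k) : LinearMap.GeneralLinearGroup k M :=
  H84.unip (c • x) (H84.smul_sq_zero h.1 c)

theorem Inn.el_val {x : M →ₗ[k] M} (h : Inn G x) (c : k) : ((h.el c : LinearMap.GeneralLinearGroup k M) : M →ₗ[k] M) = 1 + c • x :=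
  rfl

theorem Inn.el_mem {x : M →ₗ[k] M} (h : Inn G x) (c : k) : h.el c ∈ G := h.2 c _ rfl

theorem Inn.el_inv {x : M →ₗ[k] M} (h : Inn G x) (c : k) : (((h.el c)⁻¹ : LinearMap.GeneralLinearGroup k M) : M →ₗ[k] M) = 1 - c • x :=
  rfl

theorem Inn.of_mem {x : M →ₗ[k] M} (hx : x * x = 0)
    (h : ∀ c : k, ∃ g ∈ G, (g : M →ₗ[k] M) = 1 + c • x) : Inn G x := by
  refine ⟨hx, fun c g hg => ?_⟩
  obtain ⟨g', hg', hg''⟩ := h c
  have : g = g' := Units.ext (hg.trans hg''.symm)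
  rw [this]; exact hg'

theorem Inn.zero : Inn G (0 : M →ₗ[k] M) :=
  Inn.of_mem (mul_zero _) (fun c => ⟨1, one_mem _, by rw [smul_zero, add_zero]; rfl⟩)

theorem Inn.smul {x : M →ₗ[k] M} (h : Inn G x) (c : k) : Inn G (c • x) := by
  refine ⟨H84.smul_sq_zero h.1 c, fun d g hg => h.2 (d * c) g ?_⟩
  rw [hg, mul_smul]

theorem Inn.neg {x : M →ₗ[k] M} (h : Inn G x) : Inn G (-x) := by
  have := h.smul (-1)
  rwa [neg_smul, one_smul] at this

theorem Inn.add {x y : M →ₗ[k] M} (hx : Inn G x) (hy : Inn G y) (h1 : x * y = 0) (h2 : y * x = 0) :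
    Inn G (x + y) := by
  apply Inn.of_mem
  · rw [add_mul, mul_add, mul_add, hx.1, hy.1, h1, h2]; simp
  · intro c
    refine ⟨hx.el c * hy.el c, mul_mem (hx.el_mem c) (hy.el_mem c), ?_⟩
    rw [Units.val_mul, hx.el_val, hy.el_val, add_mul, mul_add, mul_add, smul_mul_smul_comm, h1, smul_zero, smul_add]
    simp only [one_mul, mul_one]; abel

theorem Inn.sub {x y : M →ₗ[k] M} (hx : Inn G x) (hy : Inn G y) (h1 : x * y = 0) (h2 : y * x = 0) :
    Inn G (x - y) := by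
  rw [sub_eq_add_neg]
  exact hx.add hy.neg (by rw [mul_neg, h1, neg_zero]) (by rw [neg_mul, h2, neg_zero])

theorem Inn.of_smul {x : M →ₗ[k] M} {c : k} (hc : c ≠ 0) (h : Inn G (c • x)) : Inn G x := by
  have := h.smul c⁻¹
  rwa [smul_smul, inv_mul_cancel₀ hc, one_smul] at this

theorem Inn.conj {x : M →ₗ[k] M} (hx : Inn G x) {g : LinearMap.GeneralLinearGroup k M} (hg : g ∈ G) :
    Inn G ((g : M →ₗ[k] M) * x * ((g⁻¹ : LinearMap.GeneralLinearGroup k M) : M →ₗ[k] M)) := by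
  have h1 : ((g⁻¹ : LinearMap.GeneralLinearGroup k M) : M →ₗ[k] M) * (g : M →ₗ[k] M) = 1 := by
    rw [← Units.val_mul, inv_mul_cancel, Units.val_one]
  have h2 : (g : M →ₗ[k] M) * ((g⁻¹ : LinearMap.GeneralLinearGroup k M) : M →ₗ[k] M) = 1 := by
    rw [← Units.val_mul, mul_inv_cancel, Units.val_one]
  apply Inn.of_mem
  · calc (g : M →ₗ[k] M) * x * ((g⁻¹ : LinearMap.GeneralLinearGroup k M) : M →ₗ[k] M) *
          ((g : M →ₗ[k] M) * x * ((g⁻¹ : LinearMap.GeneralLinearGroup k M) : M →ₗ[k] M))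
        = (g : M →ₗ[k] M) * x * (((g⁻¹ : LinearMap.GeneralLinearGroup k M) : M →ₗ[k] M) * (g : M →ₗ[k] M)) *
            (x * ((g⁻¹ : LinearMap.GeneralLinearGroup k M) : M →ₗ[k] M)) := by simp only [mul_assoc]
      _ = (g : M →ₗ[k] M) * (x * x) * ((g⁻¹ : LinearMap.GeneralLinearGroup k M) : M →ₗ[k] M) := by
          rw [h1]; simp only [mul_assoc, mul_one, one_mul]
      _ = 0 := by rw [hx.1, mul_zero, zero_mul]
  · intro c
    refine ⟨g * hx.el c * g⁻¹, mul_mem (mul_mem hg (hx.el_mem c)) (inv_mem hg), ?_⟩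
    rw [Units.val_mul, Units.val_mul, hx.el_val, mul_add, add_mul, mul_one, h2, mul_smul_comm, smul_mul_assoc]

/-- conjugation by `1 + c y` -/
theorem Inn.conj_el {x y : M →ₗ[k] M} (hx : Inn G x) (hy : Inn G y) (c : k) :
    Inn G ((1 + c • y) * x * (1 - c • y)) := hx.conj (hy.el_mem c)

theorem comm_formula {x y : M →ₗ[k] M} (hx : x * x = 0) (hy : y * y = 0) :
    (1 + x) * (1 + y) * (1 - x) * (1 - y) =
      1 + (x * y - y * x) + y * x * y - x * y * x + x * y * x * y := by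
  have h1 : ∀ z, x * (x * z) = 0 := fun z => by rw [← mul_assoc, hx, zero_mul]
  have h2 : ∀ z, y * (y * z) = 0 := fun z => by rw [← mul_assoc, hy, zero_mul]
  simp only [mul_add, add_mul, mul_sub, sub_mul, one_mul, mul_one, mul_assoc, hx, hy, h1, h2, mul_zero, zero_mul]
  abel

/-- the commutator of two quadratic families with `xyx = yxy = 0` -/
theorem Inn.comm {x y : M →ₗ[k] M} (hx : Inn G x) (hy : Inn G y) (h1 : x * y * x = 0) (h2 : y * x * y = 0) :
    Inn G (x * y - y * x) := by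
  apply Inn.of_mem
  · have a1 : ∀ z, x * (y * (x * z)) = 0 := fun z => by rw [← mul_assoc, ← mul_assoc, h1, zero_mul]
    have a2 : ∀ z, y * (x * (y * z)) = 0 := fun z => by rw [← mul_assoc, ← mul_assoc, h2, zero_mul]
    have a3 : ∀ z, x * (x * z) = 0 := fun z => by rw [← mul_assoc, hx.1, zero_mul]
    have a4 : ∀ z, y * (y * z) = 0 := fun z => by rw [← mul_assoc, hy.1, zero_mul]
    simp only [mul_sub, sub_mul, mul_assoc, a1, a2, a3, a4, mul_zero, sub_zero]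
  · intro c
    refine ⟨hx.el c * hy.el 1 * (hx.el c)⁻¹ * (hy.el 1)⁻¹,
      mul_mem (mul_mem (mul_mem (hx.el_mem c) (hy.el_mem 1)) (inv_mem (hx.el_mem c))) (inv_mem (hy.el_mem 1)), ?_⟩
    rw [Units.val_mul, Units.val_mul, Units.val_mul, hx.el_val, hy.el_val, hx.el_inv, hy.el_inv, one_smul,
      comm_formula (H84.smul_sq_zero hx.1 c) hy.1]
    have b1 : y * c • x * y = 0 := by rw [mul_smul_comm, smul_mul_assoc, h2, smul_zero]
    have b2 : c • x * y * c • x = 0 := by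
      rw [smul_mul_assoc, smul_mul_smul_comm, h1, smul_zero]
    rw [b1, b2, zero_mul, add_zero, sub_zero, add_zero, smul_mul_assoc, mul_smul_comm, ← smul_sub]

end basic

section rank
variable {k : Type*} [Field k] {M : Type*} [AddCommGroup M] [Module k M] [FiniteDimensional k M]
variable {G : Subgroup (LinearMap.GeneralLinearGroup k M)}

/-- rank -/
noncomputable def rk (x : M →ₗ[k] M) : ℕ := Module.finrank k (LinearMap.range x)

theorem rk_neg (x : M →ₗ[k] M) : rk (-x) = rk x := by rw [rk, LinearMap.range_neg]; rfl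

theorem rk_smul (x : M →ₗ[k] M) {c : k} (hc : c ≠ 0) : rk (c • x) = rk x := by
  rw [rk, LinearMap.range_smul _ _ hc]; rfl

theorem rk_add_ker (x : M →ₗ[k] M) : rk x + Module.finrank k (LinearMap.ker x) = Module.finrank k M :=
  LinearMap.finrank_range_add_finrank_ker x

theorem rk_mul_le_left (x y : M →ₗ[k] M) : rk (x * y) ≤ rk x :=
  Submodule.finrank_mono (LinearMap.range_comp_le_range y x)

theorem rk_mul_le_right (x y : M →ₗ[k] M) : rk (x * y) ≤ rk y := by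
  have : LinearMap.range (x * y) = (LinearMap.range y).map x := LinearMap.range_comp y x
  rw [rk, this]
  exact Submodule.finrank_map_le _ _

theorem rk_pos {x : M →ₗ[k] M} (hx : x ≠ 0) : 0 < rk x := by
  rw [Nat.pos_iff_ne_zero]
  intro h
  apply hx
  rw [rk, Submodule.finrank_eq_zero, LinearMap.range_eq_bot] at h
  exact h

theorem rk_add_le (x y : M →ₗ[k] M) : rk (x + y) ≤ rk x + rk y := by
  have h1 : LinearMap.range (x + y) ≤ LinearMap.range x ⊔ LinearMap.range y := by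
    rintro _ ⟨m, rfl⟩
    exact Submodule.add_mem_sup ⟨m, rfl⟩ ⟨m, rfl⟩
  exact (Submodule.finrank_mono h1).trans (Submodule.finrank_add_le_finrank_add_finrank _ _)

theorem rk_conj (x : M →ₗ[k] M) (g : LinearMap.GeneralLinearGroup k M) :
    rk ((g : M →ₗ[k] M) * x * ((g⁻¹ : LinearMap.GeneralLinearGroup k M) : M →ₗ[k] M)) = rk x := by
  apply le_antisymm
  · exact (rk_mul_le_left _ _).trans (rk_mul_le_right _ _)
  · have e : x = ((g⁻¹ : LinearMap.GeneralLinearGroup k M) : M →ₗ[k] M) *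
        ((g : M →ₗ[k] M) * x * ((g⁻¹ : LinearMap.GeneralLinearGroup k M) : M →ₗ[k] M)) * (g : M →ₗ[k] M) := by
      have h1 : ((g⁻¹ : LinearMap.GeneralLinearGroup k M) : M →ₗ[k] M) * (g : M →ₗ[k] M) = 1 := by
        rw [← Units.val_mul, inv_mul_cancel, Units.val_one]
      calc x = 1 * x * 1 := by rw [one_mul, mul_one]
        _ = _ := by rw [← h1]; simp only [mul_assoc]
    conv_lhs => rw [e]
    exact (rk_mul_le_left _ _).trans (rk_mul_le_right _ _)

/-- `x` is a quadratic direction of minimal rank -/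
def Mn (G : Subgroup (LinearMap.GeneralLinearGroup k M)) (x : M →ₗ[k] M) : Prop :=
  Inn G x ∧ x ≠ 0 ∧ ∀ y, Inn G y → y ≠ 0 → rk x ≤ rk y

theorem Mn.inn {x : M →ₗ[k] M} (h : Mn G x) : Inn G x := h.1

theorem Mn.le {x y : M →ₗ[k] M} (h : Mn G x) (hy : Inn G y) (hy0 : y ≠ 0) : rk x ≤ rk y := h.2.2 y hy hy0

theorem Mn.rk_eq {x y : M →ₗ[k] M} (hx : Mn G x) (hy : Mn G y) : rk x = rk y :=
  le_antisymm (hx.le hy.1 hy.2.1) (hy.le hx.1 hx.2.1)

theorem Mn.of_le {x y : M →ₗ[k] M} (hx : Mn G x) (hy : Inn G y) (hy0 : y ≠ 0) (hle : rk y ≤ rk x) : Mn G y :=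
  ⟨hy, hy0, fun _ hz hz0 => hle.trans (hx.le hz hz0)⟩

theorem Mn.eq_zero {x y : M →ₗ[k] M} (hx : Mn G x) (hy : Inn G y) (hlt : rk y < rk x) : y = 0 := by
  by_contra h
  exact absurd (hx.le hy h) (not_le.mpr hlt)

theorem conj_ne_zero {x : M →ₗ[k] M} (hx : x ≠ 0) (g : LinearMap.GeneralLinearGroup k M) :
    (g : M →ₗ[k] M) * x * ((g⁻¹ : LinearMap.GeneralLinearGroup k M) : M →ₗ[k] M) ≠ 0 := by
  intro h
  have := rk_conj x g
  rw [h] at this
  have h0 : rk (0 : M →ₗ[k] M) = 0 := by rw [rk, LinearMap.range_zero, finrank_bot]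
  rw [h0] at this
  exact (rk_pos hx).ne this

theorem Mn.conj {x : M →ₗ[k] M} (hx : Mn G x) {g : LinearMap.GeneralLinearGroup k M} (hg : g ∈ G) :
    Mn G ((g : M →ₗ[k] M) * x * ((g⁻¹ : LinearMap.GeneralLinearGroup k M) : M →ₗ[k] M)) :=
  hx.of_le (hx.1.conj hg) (conj_ne_zero hx.2.1 g) (rk_conj x g).le

theorem Mn.smul {x : M →ₗ[k] M} (hx : Mn G x) {c : k} (hc : c ≠ 0) : Mn G (c • x) :=
  hx.of_le (hx.1.smul c) (smul_ne_zero hc hx.2.1) (rk_smul x hc).le

theorem Mn.neg {x : M →ₗ[k] M} (hx : Mn G x) : Mn G (-x) :=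
  hx.of_le hx.1.neg (neg_ne_zero.mpr hx.2.1) (rk_neg x).le

/-! ### translation -/

theorem quad_iff {σ : LinearMap.GeneralLinearGroup k M} :
    σ ∈ quadraticElements G ↔ Inn G ((σ : M →ₗ[k] M) - 1) ∧ (σ : M →ₗ[k] M) - 1 ≠ 0 := by
  constructor
  · rintro ⟨_, ⟨h1, h2⟩, h3⟩
    exact ⟨⟨h1, fun c g hg => h3 ⟨c, hg⟩⟩, h2⟩
  · rintro ⟨⟨h1, h3⟩, h2⟩
    exact ⟨h3 1 σ (by rw [one_smul]; abel), ⟨h1, h2⟩, fun τ ⟨c, hc⟩ => h3 c τ hc⟩

theorem min_iff {σ : LinearMap.GeneralLinearGroup k M} :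
    σ ∈ minimalQuadraticElements G ↔ Mn G ((σ : M →ₗ[k] M) - 1) := by
  constructor
  · rintro ⟨h1, h2⟩
    obtain ⟨h3, h4⟩ := quad_iff.mp h1
    refine ⟨h3, h4, fun y hy hy0 => ?_⟩
    have h5 : hy.el 1 ∈ quadraticElements G := by
      rw [quad_iff, hy.el_val, one_smul, add_sub_cancel_left]
      exact ⟨hy, hy0⟩
    have h6 := h2 _ h5
    unfold commutatorRank at h6
    rw [hy.el_val, one_smul, add_sub_cancel_left] at h6
    exact h6
  · rintro ⟨h1, h2, h3⟩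
    refine ⟨quad_iff.mpr ⟨h1, h2⟩, fun τ hτ => ?_⟩
    obtain ⟨h4, h5⟩ := quad_iff.mp hτ
    exact h3 _ h4 h5

/-- membership in `E(σ)` -/
theorem mem_E_iff {σ : LinearMap.GeneralLinearGroup k M} (hσ : Mn G ((σ : M →ₗ[k] M) - 1))
    {g : LinearMap.GeneralLinearGroup k M} :
    g ∈ sameActionSubgroup G σ ↔ Inn G ((g : M →ₗ[k] M) - 1) ∧
      LinearMap.ker ((σ : M →ₗ[k] M) - 1) ≤ LinearMap.ker ((g : M →ₗ[k] M) - 1) ∧
      LinearMap.range ((g : M →ₗ[k] M) - 1) ≤ LinearMap.range ((σ : M →ₗ[k] M) - 1) := by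
  rw [← SetLike.mem_coe, H84.sameActionSubgroup_coe]
  constructor
  · rintro (⟨h1, h2, h3⟩ | h)
    · exact ⟨(min_iff.mp h1).1, h2.ge, h3.le⟩
    · rw [Set.mem_singleton_iff.mp h, Units.val_one, sub_self]
      refine ⟨Inn.zero, ?_, ?_⟩
      · rw [LinearMap.ker_zero]; exact le_top
      · rw [LinearMap.range_zero]; exact bot_le
  · rintro ⟨h1, h2, h3⟩
    by_cases hg : (g : M →ₗ[k] M) - 1 = 0
    · right
      rw [Set.mem_singleton_iff]
      exact Units.ext (sub_eq_zero.mp hg)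
    · left
      have hle : rk ((g : M →ₗ[k] M) - 1) ≤ rk ((σ : M →ₗ[k] M) - 1) := Submodule.finrank_mono h3
      have hmn := hσ.of_le h1 hg hle
      have heq := hσ.rk_eq hmn
      refine ⟨min_iff.mpr hmn, ?_, ?_⟩
      · symm
        apply Submodule.eq_of_le_of_finrank_le h2
        have e1 := rk_add_ker ((g : M →ₗ[k] M) - 1)
        have e2 := rk_add_ker ((σ : M →ₗ[k] M) - 1)
        omega
      · exact Submodule.eq_of_le_of_finrank_le h3 heq.le

end rank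

end Cfsg.Agent.H11.QP
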