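import Cfsg.Agent.H11.QpComm

set_option autoImplicit false
set_option linter.unusedSectionVars false
set_option linter.unusedSimpArgs false

/-! the surjectivity of the commutator map -/

namespace Cfsg.Agent.H11.QP

open Cfsg Polynomial

section blk
variable {k : Type*} [Field k] {M : Type*} [AddCommGroup M] [Module k M] [FiniteDimensional k M]
variable {G : Subgroup (LinearMap.GeneralLinearGroup k M)}

/-- an element of weight one for the pair `γ, δ` -/
structure Blk (G : Subgroup (LinearMap.GeneralLinearGroup k M)) (γ δ u : M →ₗ[k] M) : Prop where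
  inn : Inn G u
  ug : u * γ = 0
  gu : γ * u = 0
  dud : δ * (u * δ) = 0
  dec : γ * (δ * u) + u * (δ * γ) = u
  rk_le : rk u ≤ rk γ

theorem eta_l {γ δ η : M →ₗ[k] M} (ho : Opp γ δ) (hη : InE G γ η) : γ * (δ * η) = η := by
  apply LinearMap.ext
  intro v
  obtain ⟨w, hw⟩ := hη.2.2 ⟨v, rfl⟩
  rw [Module.End.mul_apply, Module.End.mul_apply, ← hw]
  have := LinearMap.congr_fun ho.xyx' w
  rw [Module.End.mul_apply, Module.End.mul_apply] at this
  exact this

theorem eta_r {γ δ η : M →ₗ[k] M} (ho : Opp γ δ) (hη : InE G γ η) : η * (δ * γ) = η := by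
  apply LinearMap.ext
  intro v
  have h1 : v - (δ * γ) v ∈ LinearMap.ker γ := by
    rw [LinearMap.mem_ker, map_sub, ← Module.End.mul_apply γ, ho.xyx', sub_self]
  have h2 := hη.2.1 h1
  rw [LinearMap.mem_ker, map_sub, sub_eq_zero] at h2
  rw [Module.End.mul_apply]
  exact h2.symm

theorem eta_gl {γ δ η : M →ₗ[k] M} (ho : Opp γ δ) (hη : InE G γ η) : γ * η = 0 := by
  rw [← eta_l ho hη, ← mul_assoc, ho.xx, zero_mul]

theorem eta_gr {γ δ η : M →ₗ[k] M} (ho : Opp γ δ) (hη : InE G γ η) : η * γ = 0 := by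
  rw [← eta_r ho hη, mul_assoc, mul_assoc, ho.xx, mul_zero, mul_zero]

theorem Blk.rk_add {γ δ u : M →ₗ[k] M} (h : Blk G γ δ u) : rk (δ * u) + rk (u * δ) ≤ rk γ := by
  have h1 := finrank_map_add δ (LinearMap.range u)
  have e1 : (LinearMap.range u).map δ = LinearMap.range (δ * u) := (LinearMap.range_comp u δ).symm
  rw [e1] at h1
  have h2 : LinearMap.range (u * δ) ≤ LinearMap.range u ⊓ LinearMap.ker δ :=
    le_inf (LinearMap.range_comp_le_range δ u) (le_of_mul_eq_zero h.dud)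
  have h3 := Submodule.finrank_mono h2
  have h4 := h.rk_le
  unfold rk at h4 ⊢
  omega

theorem W1 (h2 : (2 : k) ≠ 0) {γ δ u η : M →ₗ[k] M} (hγ : Mn G γ) (hδ : Inn G δ) (ho : Opp γ δ) (hu : Blk G γ δ u)
    (hη : InE G γ η) : u * (δ * (η * (δ * u))) = 0 ∧ Inn G (η * (δ * u) + u * (δ * η)) := by
  have ug := hu.ug
  have gu := hu.gu
  have dud := hu.dud
  have uu := hu.inn.sq
  have ee := hη.1.sq
  have gdn := eta_l ho hη
  have ndg := eta_r ho hη
  have gn := eta_gl ho hη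
  have ng := eta_gr ho hη
  have un : u * η = 0 := by rw [← gdn, ← mul_assoc, ug, zero_mul]
  have nu : η * u = 0 := by rw [← ndg, mul_assoc, mul_assoc, gu, mul_zero, mul_zero]
  have ugz : ∀ z, u * (γ * z) = 0 := fun z => by rw [← mul_assoc, ug, zero_mul]
  have guz : ∀ z, γ * (u * z) = 0 := fun z => by rw [← mul_assoc, gu, zero_mul]
  have uuz : ∀ z, u * (u * z) = 0 := fun z => by rw [← mul_assoc, uu, zero_mul]
  have eez : ∀ z, η * (η * z) = 0 := fun z => by rw [← mul_assoc, ee, zero_mul]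
  have unz : ∀ z, u * (η * z) = 0 := fun z => by rw [← mul_assoc, un, zero_mul]
  have nuz : ∀ z, η * (u * z) = 0 := fun z => by rw [← mul_assoc, nu, zero_mul]
  have dudz : ∀ z, δ * (u * (δ * z)) = 0 := fun z => by
    have : δ * (u * (δ * z)) = δ * (u * δ) * z := by simp only [mul_assoc]
    rw [this, dud, zero_mul]
  have iv : Inn G (u * δ - δ * u) := by
    have h1 := hu.inn.conj (wU_mem_G ho hγ.inn hδ)
    have e : ((wU ho : LinearMap.GeneralLinearGroup k M) : M →ₗ[k] M) * u *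
        (((wU ho)⁻¹ : LinearMap.GeneralLinearGroup k M) : M →ₗ[k] M) =
        (u - (γ * (δ * u) + u * (δ * γ))) + (u * δ - δ * u) := by
      rw [wU_val, wU_inv]
      unfold wW
      simp only [mul_add, add_mul, mul_sub, sub_mul, mul_assoc, ug, gu, dud, ugz, guz, dudz, mul_zero, zero_mul,
        one_mul, mul_one, mul_neg, neg_mul, neg_neg]
      abel
    rw [e, hu.dec, sub_self, zero_add] at h1
    exact h1
  have iw : Inn G (u * δ - δ * u - (η * (δ * u) + u * (δ * η))) := by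
    have h1 := iv.conj_el hη.1 1
    rw [one_smul] at h1
    have e : (1 + η) * (u * δ - δ * u) * (1 - η) = u * δ - δ * u - (η * (δ * u) + u * (δ * η)) := by
      simp only [mul_add, add_mul, mul_sub, sub_mul, mul_assoc, ug, gu, dud, ugz, guz, dudz, un, nu, unz, nuz, mul_zero,
        zero_mul, one_mul, mul_one]
      abel
    rwa [e] at h1
  have vv := iv.sq
  have ic := iv.comm iw
    (by simp only [mul_add, add_mul, mul_sub, sub_mul, mul_assoc, ug, gu, dud, ugz, guz, dudz, un, nu, unz, nuz, uu,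
          uuz, ee, eez, ho.yy, ho.yyz, mul_zero, zero_mul, one_mul, mul_one]; abel)
    (by simp only [mul_add, add_mul, mul_sub, sub_mul, mul_assoc, ug, gu, dud, ugz, guz, dudz, un, nu, unz, nuz, uu,
          uuz, ee, eez, ho.yy, ho.yyz, mul_zero, zero_mul, one_mul, mul_one]; abel)
  have e1 : (u * δ - δ * u) * (u * δ - δ * u - (η * (δ * u) + u * (δ * η))) -
      (u * δ - δ * u - (η * (δ * u) + u * (δ * η))) * (u * δ - δ * u) = (-2 : k) • (u * (δ * (η * (δ * u)))) := by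
    rw [neg_smul, two_smul]
    simp only [mul_add, add_mul, mul_sub, sub_mul, mul_assoc, ug, gu, dud, ugz, guz, dudz, un, nu, unz, nuz, uu,
          uuz, ee, eez, ho.yy, ho.yyz, mul_zero, zero_mul, one_mul, mul_one]
    abel
  rw [e1] at ic
  have i0 : Inn G (u * (δ * (η * (δ * u)))) := ic.of_smul (neg_ne_zero.mpr h2)
  have hz : u * (δ * (η * (δ * u))) = 0 := by
    apply hγ.eq_zero i0
    have r1 := hu.rk_add
    have r2 : rk (u * (δ * (η * (δ * u)))) ≤ rk (δ * u) :=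
      (rk_mul_le_right _ _).trans ((rk_mul_le_right _ _).trans (rk_mul_le_right _ _))
    have r3 : rk (u * (δ * (η * (δ * u)))) ≤ rk (u * δ) := by
      rw [← mul_assoc]; exact rk_mul_le_left _ _
    have r4 := rk_pos hγ.2.1
    omega
  refine ⟨hz, ?_⟩
  have h3 := iv.sub iw
    (by
      have : (u * δ - δ * u) * (u * δ - δ * u - (η * (δ * u) + u * (δ * η))) = -(u * (δ * (η * (δ * u)))) := by
        simp only [mul_add, add_mul, mul_sub, sub_mul, mul_assoc, ug, gu, dud, ugz, guz, dudz, un, nu, unz, nuz, uu,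
          uuz, ee, eez, ho.yy, ho.yyz, mul_zero, zero_mul, one_mul, mul_one]
        abel
      rw [this, hz, neg_zero])
    (by
      have : (u * δ - δ * u - (η * (δ * u) + u * (δ * η))) * (u * δ - δ * u) = u * (δ * (η * (δ * u))) := by
        simp only [mul_add, add_mul, mul_sub, sub_mul, mul_assoc, ug, gu, dud, ugz, guz, dudz, un, nu, unz, nuz, uu,
          uuz, ee, eez, ho.yy, ho.yyz, mul_zero, zero_mul, one_mul, mul_one]
        abel
      rw [this, hz])
  have e2 : u * δ - δ * u - (u * δ - δ * u - (η * (δ * u) + u * (δ * η))) = η * (δ * u) + u * (δ * η) := by abel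
  rwa [e2] at h3

theorem W2 (h2 : (2 : k) ≠ 0) {γ δ u η : M →ₗ[k] M} (hγ : Mn G γ) (hδ : Inn G δ) (ho : Opp γ δ) (hu : Blk G γ δ u)
    (hη : InE G γ η) : Blk G γ δ (η * (δ * u) + u * (δ * η)) := by
  have ug := hu.ug
  have gu := hu.gu
  have dud := hu.dud
  have gdn := eta_l ho hη
  have ndg := eta_r ho hη
  have gn := eta_gl ho hη
  have ng := eta_gr ho hη
  have un : u * η = 0 := by rw [← gdn, ← mul_assoc, ug, zero_mul]
  have nu : η * u = 0 := by rw [← ndg, mul_assoc, mul_assoc, gu, mul_zero, mul_zero]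
  have ugz : ∀ z, u * (γ * z) = 0 := fun z => by rw [← mul_assoc, ug, zero_mul]
  have guz : ∀ z, γ * (u * z) = 0 := fun z => by rw [← mul_assoc, gu, zero_mul]
  have unz : ∀ z, u * (η * z) = 0 := fun z => by rw [← mul_assoc, un, zero_mul]
  have nuz : ∀ z, η * (u * z) = 0 := fun z => by rw [← mul_assoc, nu, zero_mul]
  have gnz : ∀ z, γ * (η * z) = 0 := fun z => by rw [← mul_assoc, gn, zero_mul]
  have ngz : ∀ z, η * (γ * z) = 0 := fun z => by rw [← mul_assoc, ng, zero_mul]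
  have dudz : ∀ z, δ * (u * (δ * z)) = 0 := fun z => by
    have : δ * (u * (δ * z)) = δ * (u * δ) * z := by simp only [mul_assoc]
    rw [this, dud, zero_mul]
  have gdnz : ∀ z, γ * (δ * (η * z)) = η * z := fun z => by
    have : γ * (δ * (η * z)) = γ * (δ * η) * z := by simp only [mul_assoc]
    rw [this, gdn]
  refine ⟨(W1 h2 hγ hδ ho hu hη).2, ?_, ?_, ?_, ?_, ?_⟩
  · simp only [mul_add, add_mul, mul_assoc, ug, ng, ugz, ngz, mul_zero, add_zero]
  · simp only [mul_add, add_mul, mul_assoc, gu, gn, guz, gnz, mul_zero, add_zero]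
  · simp only [mul_add, add_mul, mul_assoc, dud, dudz, mul_zero, add_zero]
  · simp only [mul_add, add_mul, mul_assoc, dud, dudz, gdn, gdnz, ndg, mul_zero, add_zero, zero_add]
  · have r1 := hu.rk_add
    have r2 := rk_add_le (η * (δ * u)) (u * (δ * η))
    have r3 : rk (η * (δ * u)) ≤ rk (δ * u) := rk_mul_le_right _ _
    have r4 : rk (u * (δ * η)) ≤ rk (u * δ) := by rw [← mul_assoc]; exact rk_mul_le_left _ _
    omega

theorem Blk.mul3 {γ δ u v w : M →ₗ[k] M} (hu : Blk G γ δ u) (hv : Blk G γ δ v) (hw : Blk G γ δ w) :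
    u * (v * w) = 0 := by
  have e1 : v * w = v * (w * (δ * γ)) := by
    have h1 : v * w = v * (γ * (δ * w) + w * (δ * γ)) := by rw [hw.dec]
    rw [mul_add, ← mul_assoc v γ, hv.ug, zero_mul, zero_add] at h1
    exact h1
  have e2 : v * w = γ * (δ * (v * w)) := by
    have h1 : v * w = (γ * (δ * v) + v * (δ * γ)) * w := by rw [hv.dec]
    rw [add_mul, mul_assoc v, mul_assoc δ γ w, hw.gu, mul_zero, mul_zero, add_zero] at h1
    rw [← mul_assoc, ← mul_assoc]
    rw [← mul_assoc] at h1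
    exact h1
  rw [e2, ← mul_assoc, hu.ug, zero_mul]

/-- the weight one part of `x` -/
theorem mkBlk (h2 : (2 : k) ≠ 0) {x y γ δ : M →ₗ[k] M} (hx : Mn G x) (hγ : Mn G γ) (hδ : Inn G δ) (ho : Opp γ δ)
    (xg : x * γ = 0) (gx : γ * x = 0) (hK : ∀ v, γ v = 0 → y (x v) = 0)
    (hR : LinearMap.range x ⊓ LinearMap.ker y ≤ LinearMap.range γ) :
    ∃ u w, x = u + w ∧ Blk G γ δ u ∧ InE G γ w ∧ w = γ * (δ * (x * (δ * γ))) := by
  set g : M →ₗ[k] M := 1 - (γ * δ + δ * γ) with hg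
  have xgz : ∀ z, x * (γ * z) = 0 := fun z => by rw [← mul_assoc, xg, zero_mul]
  have gxz : ∀ z, γ * (x * z) = 0 := fun z => by rw [← mul_assoc, gx, zero_mul]
  have xx := hx.inn.sq
  have xxz : ∀ z, x * (x * z) = 0 := fun z => by rw [← mul_assoc, xx, zero_mul]
  have gg : γ * g = 0 := by
    rw [hg]; simp only [mul_sub, mul_add, mul_one, ← mul_assoc, ho.xx, ho.xyx, zero_mul]; abel
  have gg' : g * γ = 0 := by
    rw [hg]; simp only [sub_mul, add_mul, one_mul, mul_assoc, ho.xx, ho.xyx', mul_zero]; abel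
  have hyxg : y * (x * g) = 0 := by
    apply LinearMap.ext
    intro v
    rw [Module.End.mul_apply, Module.End.mul_apply, LinearMap.zero_apply]
    apply hK
    rw [← Module.End.mul_apply, gg, LinearMap.zero_apply]
  have hrxg : LinearMap.range (x * g) ≤ LinearMap.range x ⊓ LinearMap.ker y :=
    le_inf (LinearMap.range_comp_le_range g x) (le_of_mul_eq_zero hyxg)
  have hrg : LinearMap.range γ ≤ LinearMap.ker g := le_of_mul_eq_zero gg'
  have gxg : g * (x * g) = 0 := mul_eq_zero_of_le ((hrxg.trans hR).trans hrg)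
  -- expand
  have hgxg : γ * (δ * (x * (δ * γ))) = γ * (δ * x) + x * (δ * γ) - x := by
    have h1 := gxg
    rw [hg] at h1
    simp only [mul_add, add_mul, mul_sub, sub_mul, mul_assoc, xg, gx, xgz, gxz, mul_zero, zero_mul, one_mul, mul_one,
      zero_add, add_zero] at h1
    have h3 : γ * (δ * (x * (δ * γ))) - (γ * (δ * x) + x * (δ * γ) - x) = 0 := by
      rw [← h1]; abel
    exact sub_eq_zero.mp h3
  have hgxg' : ∀ z, γ * (δ * (x * (δ * (γ * z)))) = γ * (δ * (x * z)) + x * (δ * (γ * z)) - x * z := fun z => by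
    have := congrArg (· * z) hgxg
    simp only [sub_mul, add_mul, mul_assoc] at this
    exact this
  -- the involution
  have ii : Inn G (x - (2 : k) • (x * g + g * x)) := by
    have h1 := hx.inn.conj (mul_mem (wU_mem_G ho hγ.inn hδ) (wU_mem_G ho hγ.inn hδ))
    have h3 : (((wU ho * wU ho)⁻¹ : LinearMap.GeneralLinearGroup k M) : M →ₗ[k] M) = wW γ δ * wW γ δ := by
      apply Units.inv_eq_of_mul_eq_one_right
      rw [Units.val_mul, wU_val, ho.w_sq]
      have hee : (γ * δ + δ * γ) * (γ * δ + δ * γ) = γ * δ + δ * γ := by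
        simp only [mul_add, add_mul, mul_assoc, ho.xx, ho.yy, ho.xyx', ho.yxy', ho.xxz, ho.yyz, ho.xyxz, ho.yxyz,
          mul_zero, zero_mul]
        abel
      rw [sub_mul, mul_sub, mul_sub, one_mul, one_mul, mul_one, smul_mul_smul_comm, hee]
      have : ((2 : k) * 2) • (γ * δ + δ * γ) = (2 : k) • (γ * δ + δ * γ) + (2 : k) • (γ * δ + δ * γ) := by
        rw [← add_smul]; norm_num
      rw [this]; abel
    rw [h3, Units.val_mul, wU_val, ho.w_sq] at h1
    have e : (1 - (2 : k) • (γ * δ + δ * γ)) * x * (1 - (2 : k) • (γ * δ + δ * γ)) =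
        x - (2 : k) • (x * g + g * x) := by
      rw [hg]
      simp only [two_smul, mul_add, add_mul, mul_sub, sub_mul, mul_assoc, xg, gx, xgz, gxz, mul_zero, zero_mul, one_mul,
        mul_one, zero_add, add_zero, hgxg]
      abel
    rwa [e] at h1
  have px : x * (x * g + g * x) = 0 := by
    rw [hg]
    simp only [mul_add, add_mul, mul_sub, sub_mul, mul_assoc, xg, gx, xgz, gxz, xx, xxz, mul_zero, zero_mul, one_mul,
      mul_one]
    abel
  have px' : (x * g + g * x) * x = 0 := by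
    rw [hg]
    simp only [mul_add, add_mul, mul_sub, sub_mul, mul_assoc, xg, gx, xgz, gxz, xx, xxz, mul_zero, zero_mul, one_mul,
      mul_one]
    abel
  have i1 : Inn G (x * g + g * x) := by
    have h1 := hx.inn.sub ii
      (by rw [mul_sub, xx, mul_smul_comm, px, smul_zero, sub_zero])
      (by rw [sub_mul, xx, smul_mul_assoc, px', smul_zero, sub_zero])
    rw [sub_sub_cancel] at h1
    exact h1.of_smul h2
  have hw : x - (x * g + g * x) = γ * (δ * (x * (δ * γ))) := by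
    rw [hgxg, hg]
    simp only [mul_add, add_mul, mul_sub, sub_mul, mul_assoc, xg, gx, xgz, gxz, mul_zero, zero_mul, one_mul,
      mul_one]
    abel
  refine ⟨x * g + g * x, x - (x * g + g * x), by abel, ⟨i1, ?_, ?_, ?_, ?_, ?_⟩, ⟨?_, ?_, ?_⟩, hw⟩
  · rw [add_mul, mul_assoc, gg', mul_assoc, xg]; simp
  · rw [mul_add, ← mul_assoc, gx, ← mul_assoc, gg]; simp
  · rw [hg]
    simp only [mul_add, add_mul, mul_sub, sub_mul, mul_assoc, xg, gx, xgz, gxz, ho.xx, ho.yy, ho.xyx', ho.yxy', ho.xxz,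
      ho.yyz, ho.xyxz, ho.yxyz, mul_zero, zero_mul, one_mul, mul_one]
    abel
  · rw [hg]
    simp only [mul_add, add_mul, mul_sub, sub_mul, mul_assoc, xg, gx, xgz, gxz, ho.xx, ho.yy, ho.xyx', ho.yxy', ho.xxz,
      ho.yyz, ho.xyxz, ho.yxyz, mul_zero, zero_mul, one_mul, mul_one, hgxg, hgxg']
    abel
  · have r1 := finrank_map_add g (LinearMap.range x)
    have e1 : (LinearMap.range x).map g = LinearMap.range (g * x) := (LinearMap.range_comp x g).symm
    rw [e1] at r1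
    have r2 : LinearMap.range (x * g) ≤ LinearMap.range x ⊓ LinearMap.ker g :=
      le_inf (LinearMap.range_comp_le_range g x) ((hrxg.trans hR).trans hrg)
    have r3 := Submodule.finrank_mono r2
    have r4 := rk_add_le (x * g) (g * x)
    have r5 := hx.rk_eq hγ
    unfold rk at r4 r5 ⊢
    omega
  · exact hx.inn.sub i1 px px'
  · rw [hw]
    intro v hv
    rw [LinearMap.mem_ker] at hv ⊢
    rw [← mul_assoc, ← mul_assoc, ← mul_assoc, Module.End.mul_apply, hv, map_zero]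
  · rw [hw]
    exact LinearMap.range_comp_le_range _ _

/-- the surjectivity -/
theorem CP.surj (h2 : (2 : k) ≠ 0) (hk3 : Nat.card k ≠ 3) (hirr : IsIrreducibleFor G) {x y : M →ₗ[k] M}
    (h : CP G x y) {η : M →ₗ[k] M} (hη : InE G (x * y - y * x) η) : ∃ z, InE G y z ∧ x * z - z * x = η := by
  obtain ⟨c1, c2, c3, c4, c5⟩ := h.c1
  have hγ := h.mn
  obtain ⟨δ, hδ, ho⟩ := exists_opp_of_irr h2 hk3 hirr hγ
  have hk := h.ker
  have hgx := h.gx
  have hxg := h.xg
  have hgy := h.gy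
  have hyg := h.yg
  obtain ⟨γ, hγdef⟩ : ∃ γ, γ = x * y - y * x := ⟨_, rfl⟩
  rw [← hγdef] at hη hγ ho hk hgx hxg hgy hyg c4 c5
  obtain ⟨x₁, x₂, hx12, bx, ix2, ex2⟩ := mkBlk (y := y) h2 h.hx hγ hδ.inn ho hxg hgx
    (fun v hv => by
      have h1 : v ∈ LinearMap.ker γ := hv
      rw [hk] at h1
      exact h1.2)
    (by rw [c4, ← c1]; exact le_sup_left)
  obtain ⟨y₁, y₂, hy12, by1, iy2, ey2⟩ := mkBlk (y := x) h2 h.hy hγ hδ.inn ho hyg hgy
    (fun v hv => by
      have h1 : v ∈ LinearMap.ker γ := hv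
      rw [hk] at h1
      exact h1.1)
    (by rw [c4, ← c2]; exact le_sup_right)
  -- the commutator
  have hcom : x₁ * y₁ - y₁ * x₁ = γ := by
    have a1 : x₂ * y₁ = 0 := by rw [ex2]; simp only [mul_assoc, by1.gu, mul_zero]
    have a2 : y₁ * x₂ = 0 := by rw [ex2, ← mul_assoc, by1.ug, zero_mul]
    have a3 : x₁ * y₂ = 0 := by rw [ey2, ← mul_assoc, bx.ug, zero_mul]
    have a4 : y₂ * x₁ = 0 := by rw [ey2]; simp only [mul_assoc, bx.gu, mul_zero]
    have a5 : x₂ * y₂ = 0 := by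
      rw [ex2, ey2]; simp only [mul_assoc, ho.xxz, mul_zero]
    have a6 : y₂ * x₂ = 0 := by
      rw [ex2, ey2]; simp only [mul_assoc, ho.xxz, mul_zero]
    rw [hγdef, hx12, hy12]
    simp only [mul_add, add_mul, a1, a2, a3, a4, a5, a6, add_zero, zero_add]
  have hWy : ∀ ζ, InE G γ ζ → y₁ * (δ * (ζ * (δ * y₁))) = 0 := fun ζ hζ => (W1 h2 hγ hδ.inn ho by1 hζ).1
  have hWx : ∀ ζ, InE G γ ζ → x₁ * (δ * (ζ * (δ * x₁))) = 0 := fun ζ hζ => (W1 h2 hγ hδ.inn ho bx hζ).1
  have key1 : ∀ ζ, InE G γ ζ → y₁ * (x₁ * (δ * ζ)) = -(y₁ * (x₁ * (δ * (ζ * (δ * (y₁ * x₁)))))) := by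
    intro ζ hζ
    have e1 : ζ = ζ * (δ * (x₁ * y₁ - y₁ * x₁)) := by rw [hcom, eta_r ho hζ]
    conv_lhs => rw [e1]
    have e2 : x₁ * (δ * (ζ * (δ * (x₁ * y₁)))) = 0 := by
      have : x₁ * (δ * (ζ * (δ * (x₁ * y₁)))) = x₁ * (δ * (ζ * (δ * x₁))) * y₁ := by simp only [mul_assoc]
      rw [this, hWx ζ hζ, zero_mul]
    rw [mul_sub, mul_sub, mul_sub, mul_sub, e2, zero_sub, mul_neg]
  have key2 : ∀ ζ, InE G γ ζ → ζ * (δ * (y₁ * x₁)) = -(y₁ * (x₁ * (δ * (ζ * (δ * (y₁ * x₁)))))) := by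
    intro ζ hζ
    have e1 : ζ = (x₁ * y₁ - y₁ * x₁) * (δ * ζ) := by rw [hcom, eta_l ho hζ]
    conv_lhs => rw [e1]
    have e2 : y₁ * (δ * (ζ * (δ * (y₁ * x₁)))) = 0 := by
      have : y₁ * (δ * (ζ * (δ * (y₁ * x₁)))) = y₁ * (δ * (ζ * (δ * y₁))) * x₁ := by simp only [mul_assoc]
      rw [this, hWy ζ hζ, zero_mul]
    simp only [sub_mul, mul_assoc, e2, mul_zero, zero_sub]
  have key : ∀ ζ, InE G γ ζ → y₁ * (x₁ * (δ * ζ)) = ζ * (δ * (y₁ * x₁)) := fun ζ hζ =>
    (key1 ζ hζ).trans (key2 ζ hζ).symm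
  -- the element ω
  have hwy := W1 h2 hγ hδ.inn ho by1 hη
  have bw := W2 h2 hγ hδ.inn ho by1 hη
  set ω := η * (δ * y₁) + y₁ * (δ * η) with hω
  have hxn : ∀ ζ, InE G γ ζ → x₁ * ζ = 0 := fun ζ hζ => by rw [← eta_l ho hζ, ← mul_assoc, bx.ug, zero_mul]
  have hnx : ∀ ζ, InE G γ ζ → ζ * x₁ = 0 := fun ζ hζ => by
    rw [← eta_r ho hζ, mul_assoc, mul_assoc, bx.gu, mul_zero, mul_zero]
  have hyn : ∀ ζ, InE G γ ζ → y₁ * ζ = 0 := fun ζ hζ => by rw [← eta_l ho hζ, ← mul_assoc, by1.ug, zero_mul]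
  have hny : ∀ ζ, InE G γ ζ → ζ * y₁ = 0 := fun ζ hζ => by
    rw [← eta_r ho hζ, mul_assoc, mul_assoc, by1.gu, mul_zero, mul_zero]
  have hxy1 : x₁ * y₁ = γ + y₁ * x₁ := by rw [← hcom]; abel
  have T1 : x₁ * ω - ω * x₁ = η := by
    have e1 : x₁ * ω = γ * (δ * η) + y₁ * (x₁ * (δ * η)) := by
      rw [hω, mul_add, ← mul_assoc x₁ η, hxn η hη, zero_mul, zero_add, ← mul_assoc x₁ y₁, hxy1, add_mul]
      simp only [mul_assoc]
    have e2 : ω * x₁ = η * (δ * (y₁ * x₁)) := by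
      rw [hω, add_mul]
      simp only [mul_assoc, hnx η hη, mul_zero, add_zero]
    rw [e1, e2, eta_l ho hη, key η hη]; abel
  have hEω : InE G y₁ ω := by
    refine ⟨bw.inn, ?_, ?_⟩
    · have e1 : y₁ * (δ * η) = y₁ * (δ * (η * (δ * x₁))) * y₁ := by
        have e1 : η = η * (δ * (x₁ * y₁ - y₁ * x₁)) := by rw [hcom, eta_r ho hη]
        conv_lhs => rw [e1]
        have e2 : y₁ * (δ * (η * (δ * (y₁ * x₁)))) = 0 := by
          have : y₁ * (δ * (η * (δ * (y₁ * x₁)))) = y₁ * (δ * (η * (δ * y₁))) * x₁ := by simp only [mul_assoc]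
          rw [this, hWy η hη, zero_mul]
        rw [mul_sub, mul_sub, mul_sub, mul_sub, e2, sub_zero]
        simp only [mul_assoc]
      intro v hv
      rw [LinearMap.mem_ker] at hv ⊢
      rw [hω, e1, ← mul_assoc, LinearMap.add_apply, Module.End.mul_apply, Module.End.mul_apply _ y₁, hv, map_zero,
        map_zero, add_zero]
    · have e1 : η * (δ * y₁) = y₁ * (-(x₁ * (δ * (η * (δ * y₁))))) := by
        have e1 : η = (x₁ * y₁ - y₁ * x₁) * (δ * η) := by rw [hcom, eta_l ho hη]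
        conv_lhs => rw [e1]
        have e2 : x₁ * (y₁ * (δ * (η * (δ * y₁)))) = 0 := by rw [hWy η hη, mul_zero]
        simp only [sub_mul, mul_assoc, e2, zero_sub, mul_neg]
      rw [hω, e1, ← mul_add]
      exact LinearMap.range_comp_le_range _ _
  -- the element ω'
  have bw' := W2 h2 hγ hδ.inn ho bx iy2
  set ω' := y₂ * (δ * x₁) + x₁ * (δ * y₂) with hω'
  have T2 : ω' * y₁ - y₁ * ω' = y₂ := by
    have e1 : ω' * y₁ = y₂ * (δ * γ) + y₂ * (δ * (y₁ * x₁)) := by
      rw [hω', add_mul]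
      have : x₁ * (δ * y₂) * y₁ = 0 := by rw [mul_assoc, mul_assoc, hny y₂ iy2, mul_zero, mul_zero]
      rw [this, add_zero, mul_assoc, mul_assoc, hxy1, mul_add, mul_add]
    have e2 : y₁ * ω' = y₁ * (x₁ * (δ * y₂)) := by
      rw [hω', mul_add, ← mul_assoc y₁ y₂, hyn y₂ iy2, zero_mul, zero_add]
    rw [e1, e2, eta_r ho iy2, key y₂ iy2]; abel
  have hh := bw'.inn.el_mem 1
  have hconj : (1 + ω') * y₁ * (1 - ω') = y := by
    have h3 : ω' * (y₁ * ω') = 0 := bw'.mul3 by1 bw'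
    rw [hy12, ← T2]
    simp only [mul_add, add_mul, mul_sub, sub_mul, mul_assoc, one_mul, mul_one, h3]
    abel
  have hv1 : ((bw'.inn.el 1 : LinearMap.GeneralLinearGroup k M) : M →ₗ[k] M) = 1 + ω' := by
    rw [bw'.inn.el_val, one_smul]
  have hv2 : (((bw'.inn.el 1)⁻¹ : LinearMap.GeneralLinearGroup k M) : M →ₗ[k] M) = 1 - ω' := by
    rw [bw'.inn.el_inv, one_smul]
  have hfin := hEω.conj hh
  rw [hv1, hv2, hconj] at hfin
  refine ⟨(1 + ω') * ω * (1 - ω'), hfin, ?_⟩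
  have m1 : x₁ * (ω' * ω) = 0 := bx.mul3 bw' bw
  have m2 : x₁ * (ω * ω') = 0 := bx.mul3 bw bw'
  have m3 : ω' * (ω * x₁) = 0 := bw'.mul3 bw bx
  have m4 : ω * (ω' * x₁) = 0 := bw.mul3 bw' bx
  have m5 : ω' * (ω * ω') = 0 := bw'.mul3 bw bw'
  have n1 : x₂ * ω = 0 := by rw [ex2]; simp only [mul_assoc, bw.gu, mul_zero]
  have n2 : x₂ * ω' = 0 := by rw [ex2]; simp only [mul_assoc, bw'.gu, mul_zero]
  have n3 : ω * x₂ = 0 := by rw [ex2, ← mul_assoc, bw.ug, zero_mul]
  have n4 : ω' * x₂ = 0 := by rw [ex2, ← mul_assoc, bw'.ug, zero_mul]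
  have n1z : ∀ z, x₂ * (ω * z) = 0 := fun z => by rw [← mul_assoc, n1, zero_mul]
  have n2z : ∀ z, x₂ * (ω' * z) = 0 := fun z => by rw [← mul_assoc, n2, zero_mul]
  rw [hx12]
  conv_rhs => rw [← T1]
  simp only [mul_add, add_mul, mul_sub, sub_mul, mul_assoc, one_mul, mul_one, m1, m2, m3, m4, m5, n1, n2, n3, n4, n1z,
    n2z, mul_zero, zero_mul]
  abel

end blk

end Cfsg.Agent.H11.QP
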