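import Cfsg.Agent.H11.QpCore

set_option autoImplicit false
set_option linter.unusedSectionVars false
set_option linter.unusedSimpArgs false

/-! the commutator of two quadratic root directions -/

namespace Cfsg.Agent.H11.QP

open Cfsg Polynomial

section comm
variable {k : Type*} [Field k] {M : Type*} [AddCommGroup M] [Module k M] [FiniteDimensional k M]
variable {G : Subgroup (LinearMap.GeneralLinearGroup k M)}

theorem finrank_map_add (f : M →ₗ[k] M) (P : Submodule k M) :
    Module.finrank k (P.map f) + Module.finrank k (P ⊓ LinearMap.ker f : Submodule k M) = Module.finrank k P := by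
  have h1 := LinearMap.finrank_range_add_finrank_ker (f.domRestrict P)
  rw [LinearMap.range_domRestrict, LinearMap.ker_domRestrict] at h1
  rw [← Submodule.map_comap_subtype, Submodule.finrank_map_subtype_eq]
  exact h1

/-- the data of a noncommuting nilpotent pair -/
structure CP (G : Subgroup (LinearMap.GeneralLinearGroup k M)) (x y : M →ₗ[k] M) : Prop where
  hx : Mn G x
  hy : Mn G y
  xyx : x * y * x = 0
  yxy : y * x * y = 0
  ne : x * y - y * x ≠ 0

theorem CP.symm {x y : M →ₗ[k] M} (h : CP G x y) : CP G y x :=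
  ⟨h.hy, h.hx, h.yxy, h.xyx, fun h0 => h.ne (by rw [← neg_sub, h0, neg_zero])⟩

theorem CP.inn {x y : M →ₗ[k] M} (h : CP G x y) : Inn G (x * y - y * x) := h.hx.inn.comm h.hy.inn h.xyx h.yxy

theorem CP.c1 {x y : M →ₗ[k] M} (h : CP G x y) :
    LinearMap.range (x * y) = LinearMap.range x ⊓ LinearMap.ker y ∧
    LinearMap.range (y * x) = LinearMap.range y ⊓ LinearMap.ker x ∧
    LinearMap.range (x * y) ⊓ LinearMap.range (y * x) = ⊥ ∧
    LinearMap.range (x * y - y * x) = LinearMap.range (x * y) ⊔ LinearMap.range (y * x) ∧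
    rk (x * y - y * x) = rk x := by
  have r1 := finrank_map_add y (LinearMap.range x)
  have r2 := finrank_map_add x (LinearMap.range y)
  have e1 : (LinearMap.range x).map y = LinearMap.range (y * x) := (LinearMap.range_comp x y).symm
  have e2 : (LinearMap.range y).map x = LinearMap.range (x * y) := (LinearMap.range_comp y x).symm
  rw [e1] at r1
  rw [e2] at r2
  have le1 : LinearMap.range (x * y) ≤ LinearMap.range x ⊓ LinearMap.ker y :=
    le_inf (LinearMap.range_comp_le_range y x) (le_of_mul_eq_zero (by rw [← mul_assoc, h.yxy]))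
  have le2 : LinearMap.range (y * x) ≤ LinearMap.range y ⊓ LinearMap.ker x :=
    le_inf (LinearMap.range_comp_le_range x y) (le_of_mul_eq_zero (by rw [← mul_assoc, h.xyx]))
  have f1 := Submodule.finrank_mono le1
  have f2 := Submodule.finrank_mono le2
  have le3 : LinearMap.range (x * y - y * x) ≤ LinearMap.range (x * y) ⊔ LinearMap.range (y * x) := by
    rintro _ ⟨v, rfl⟩
    rw [LinearMap.sub_apply, sub_eq_add_neg, ← map_neg]
    exact Submodule.add_mem_sup ⟨v, rfl⟩ ⟨-v, rfl⟩
  have f3 := Submodule.finrank_mono le3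
  have f4 := Submodule.finrank_sup_add_finrank_inf_eq (LinearMap.range (x * y)) (LinearMap.range (y * x))
  have f5 := h.hx.le h.inn h.ne
  have f6 := h.hx.rk_eq h.hy
  unfold rk at f5 f6 ⊢
  refine ⟨Submodule.eq_of_le_of_finrank_le le1 (by omega), Submodule.eq_of_le_of_finrank_le le2 (by omega), ?_,
    Submodule.eq_of_le_of_finrank_le le3 (by omega), by omega⟩
  rw [← Submodule.finrank_eq_zero (R := k)]
  omega

theorem CP.mn {x y : M →ₗ[k] M} (h : CP G x y) : Mn G (x * y - y * x) := h.hx.of_le h.inn h.ne h.c1.2.2.2.2.le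

theorem CP.ker {x y : M →ₗ[k] M} (h : CP G x y) :
    LinearMap.ker (x * y - y * x) = LinearMap.ker (x * y) ⊓ LinearMap.ker (y * x) := by
  obtain ⟨c1, c2, c3, c4, c5⟩ := h.c1
  apply le_antisymm
  · intro v hv
    rw [LinearMap.mem_ker, LinearMap.sub_apply, sub_eq_zero] at hv
    have h1 : (x * y) v ∈ LinearMap.range (x * y) ⊓ LinearMap.range (y * x) := ⟨⟨v, rfl⟩, ⟨v, hv.symm⟩⟩
    rw [c3, Submodule.mem_bot] at h1
    exact ⟨h1, by change (y * x) v = 0; rw [← hv, h1]⟩
  · rintro v ⟨h1, h2⟩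
    have h1' : (x * y) v = 0 := h1
    have h2' : (y * x) v = 0 := h2
    rw [LinearMap.mem_ker, LinearMap.sub_apply, h1', h2', sub_zero]

theorem CP.ker1 {x y : M →ₗ[k] M} (h : CP G x y) :
    LinearMap.ker (x * y) = LinearMap.range x ⊔ LinearMap.ker y := by
  obtain ⟨c1, c2, c3, c4, c5⟩ := h.c1
  apply le_antisymm
  · intro v hv
    have h1 : y v ∈ LinearMap.range (y * x) := by
      rw [c2]; exact ⟨⟨v, rfl⟩, hv⟩
    obtain ⟨w, hw⟩ := h1
    have : v = x w + (v - x w) := by abel
    rw [this]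
    refine Submodule.add_mem_sup ⟨w, rfl⟩ ?_
    rw [LinearMap.mem_ker, map_sub, ← hw, Module.End.mul_apply, sub_self]
  · apply sup_le
    · exact le_of_mul_eq_zero h.xyx
    · intro v hv
      rw [LinearMap.mem_ker] at hv ⊢
      rw [Module.End.mul_apply, hv, map_zero]

theorem CP.ker2 {x y : M →ₗ[k] M} (h : CP G x y) :
    LinearMap.ker (y * x) = LinearMap.range y ⊔ LinearMap.ker x := h.symm.ker1

/-- all other pairs behave in the same way -/
theorem CP.other (h2 : (2 : k) ≠ 0) (hk3 : Nat.card k ≠ 3) {x y a b : M →ₗ[k] M} (h : CP G x y) (hn : ¬ NN x y)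
    (ha : InE G x a) (ha0 : a ≠ 0) (hb : InE G y b) (hb0 : b ≠ 0) :
    CP G a b ∧ InE G (x * y - y * x) (a * b - b * a) := by
  have ham := ha.mn h.hx ha0
  have hbm := hb.mn h.hy hb0
  have hka := ha.ker_eq h.hx ha0
  have hra := ha.range_eq h.hx ha0
  have hkb := hb.ker_eq h.hy hb0
  have hrb := hb.range_eq h.hy hb0
  have haba : a * b * a = 0 := core_nn h2 hk3 h.hx h.hy hn ha hb
  have hbab : b * a * b = 0 := core_nn h2 hk3 h.hy h.hx (fun h => hn h.symm) hb ha
  obtain ⟨c1, c2, c3, c4, c5⟩ := h.c1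
  have hne : a * b - b * a ≠ 0 := by
    intro h0
    have hab : a * b = b * a := sub_eq_zero.mp h0
    have r2 := finrank_map_add a (LinearMap.range b)
    have r2' := finrank_map_add x (LinearMap.range y)
    have r1 := finrank_map_add b (LinearMap.range a)
    have r1' := finrank_map_add y (LinearMap.range x)
    have e2 : (LinearMap.range b).map a = LinearMap.range (a * b) := (LinearMap.range_comp b a).symm
    have e2' : (LinearMap.range y).map x = LinearMap.range (x * y) := (LinearMap.range_comp y x).symm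
    have e1 : (LinearMap.range a).map b = LinearMap.range (b * a) := (LinearMap.range_comp a b).symm
    have e1' : (LinearMap.range x).map y = LinearMap.range (y * x) := (LinearMap.range_comp x y).symm
    rw [e2, hka, hrb] at r2
    rw [e2'] at r2'
    rw [e1, hra, hkb] at r1
    rw [e1'] at r1'
    have q1 : LinearMap.range (a * b) = LinearMap.range (x * y) := by
      rw [c1]
      apply Submodule.eq_of_le_of_finrank_le
      · rw [← hra, ← hkb]
        exact le_inf (LinearMap.range_comp_le_range b a) (le_of_mul_eq_zero (by rw [← mul_assoc, hbab]))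
      · rw [← c1]; omega
    have q2 : LinearMap.range (b * a) = LinearMap.range (y * x) := by
      rw [c2]
      apply Submodule.eq_of_le_of_finrank_le
      · rw [← hrb, ← hka]
        exact le_inf (LinearMap.range_comp_le_range a b) (le_of_mul_eq_zero (by rw [← mul_assoc, haba]))
      · rw [← c2]; omega
    rw [← q1, ← q2, hab, inf_idem] at c3
    rw [hab, c3] at q1
    rw [c3] at q2
    apply h.ne
    rw [LinearMap.range_eq_bot.mp q1.symm, LinearMap.range_eq_bot.mp q2.symm, sub_zero]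
  have hcp : CP G a b := ⟨ham, hbm, haba, hbab, hne⟩
  refine ⟨hcp, hcp.inn, ?_, ?_⟩
  · rw [hcp.ker, h.ker, hcp.ker1, h.ker1, hcp.ker2, h.ker2, hka, hra, hkb, hrb]
  · obtain ⟨d1, d2, d3, d4, d5⟩ := hcp.c1
    rw [d4, c4, d1, d2, c1, c2, hka, hra, hkb, hrb]

theorem CP.gx {x y : M →ₗ[k] M} (h : CP G x y) : (x * y - y * x) * x = 0 := by
  rw [sub_mul, h.xyx, mul_assoc, h.hx.inn.sq, mul_zero, sub_zero]

theorem CP.xg {x y : M →ₗ[k] M} (h : CP G x y) : x * (x * y - y * x) = 0 := by
  rw [mul_sub, ← mul_assoc, h.hx.inn.sq, zero_mul, ← mul_assoc, h.xyx, sub_zero]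

theorem CP.gy {x y : M →ₗ[k] M} (h : CP G x y) : (x * y - y * x) * y = 0 := by
  have := h.symm.gx
  rw [← neg_sub, neg_mul, this, neg_zero]

theorem CP.yg {x y : M →ₗ[k] M} (h : CP G x y) : y * (x * y - y * x) = 0 := by
  have := h.symm.xg
  rw [← neg_sub, mul_neg, this, neg_zero]

/-- `x` maps the fixed space of the commutator into its range -/
theorem CP.map_ker {x y : M →ₗ[k] M} (h : CP G x y) {v : M} (hv : v ∈ LinearMap.ker (x * y - y * x)) :
    x v ∈ LinearMap.range (x * y - y * x) := by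
  obtain ⟨c1, c2, c3, c4, c5⟩ := h.c1
  rw [h.ker] at hv
  rw [c4]
  apply Submodule.mem_sup_left
  rw [c1]
  exact ⟨⟨v, rfl⟩, hv.2⟩

/-! ### opposites from irreducibility -/

theorem exists_opp_of_irr (h2 : (2 : k) ≠ 0) (hk3 : Nat.card k ≠ 3) (hirr : IsIrreducibleFor G) {z : M →ₗ[k] M}
    (hz : Mn G z) : ∃ w, Mn G w ∧ Opp z w := by
  by_contra hcon
  push Not at hcon
  have key : ∀ g ∈ G, ∀ h ∈ G, IsNilpotent
      (((g : LinearMap.GeneralLinearGroup k M) : M →ₗ[k] M) * z * ((g⁻¹ : LinearMap.GeneralLinearGroup k M) : M →ₗ[k] M) *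
        (((h : LinearMap.GeneralLinearGroup k M) : M →ₗ[k] M) * z * ((h⁻¹ : LinearMap.GeneralLinearGroup k M) : M →ₗ[k] M))) := by
    intro g hg h hh
    by_contra hc
    obtain ⟨w, hw, ho⟩ := exists_opp h2 hk3 (hz.conj hg) (hz.conj hh) hc
    have hw0 : w ≠ 0 := by
      rintro rfl
      apply (hz.conj hg).2.1
      rw [← ho.xyx]; simp
    have hwm := hw.mn (hz.conj hh) hw0
    have h1 : ((g⁻¹ : LinearMap.GeneralLinearGroup k M) : M →ₗ[k] M) * (g : M →ₗ[k] M) = 1 := by
      rw [← Units.val_mul, inv_mul_cancel, Units.val_one]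
    have h1' : (g : M →ₗ[k] M) * ((g⁻¹ : LinearMap.GeneralLinearGroup k M) : M →ₗ[k] M) = 1 := by
      rw [← Units.val_mul, mul_inv_cancel, Units.val_one]
    have hwm' := hwm.conj (inv_mem hg)
    rw [inv_inv] at hwm'
    apply hcon _ hwm'
    have a1 := ho.xyx
    have a2 := ho.yxy
    refine ⟨hz.inn.sq, hwm'.inn.sq, ?_, ?_⟩
    · calc z * (((g⁻¹ : LinearMap.GeneralLinearGroup k M) : M →ₗ[k] M) * w * (g : M →ₗ[k] M)) * z
          = ((g⁻¹ : LinearMap.GeneralLinearGroup k M) : M →ₗ[k] M) * (g : M →ₗ[k] M) *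
            (z * (((g⁻¹ : LinearMap.GeneralLinearGroup k M) : M →ₗ[k] M) * w * (g : M →ₗ[k] M)) * z) *
            (((g⁻¹ : LinearMap.GeneralLinearGroup k M) : M →ₗ[k] M) * (g : M →ₗ[k] M)) := by rw [h1, one_mul, mul_one]
        _ = ((g⁻¹ : LinearMap.GeneralLinearGroup k M) : M →ₗ[k] M) *
            ((g : M →ₗ[k] M) * z * ((g⁻¹ : LinearMap.GeneralLinearGroup k M) : M →ₗ[k] M) * w *
              ((g : M →ₗ[k] M) * z * ((g⁻¹ : LinearMap.GeneralLinearGroup k M) : M →ₗ[k] M))) * (g : M →ₗ[k] M) := by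
            simp only [mul_assoc]
        _ = (((g⁻¹ : LinearMap.GeneralLinearGroup k M) : M →ₗ[k] M) * (g : M →ₗ[k] M)) * z *
            (((g⁻¹ : LinearMap.GeneralLinearGroup k M) : M →ₗ[k] M) * (g : M →ₗ[k] M)) := by
            rw [a1]; simp only [mul_assoc]
        _ = z := by rw [h1, one_mul, mul_one]
    · calc ((g⁻¹ : LinearMap.GeneralLinearGroup k M) : M →ₗ[k] M) * w * (g : M →ₗ[k] M) * z *
          (((g⁻¹ : LinearMap.GeneralLinearGroup k M) : M →ₗ[k] M) * w * (g : M →ₗ[k] M))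
          = ((g⁻¹ : LinearMap.GeneralLinearGroup k M) : M →ₗ[k] M) *
            (w * ((g : M →ₗ[k] M) * z * ((g⁻¹ : LinearMap.GeneralLinearGroup k M) : M →ₗ[k] M)) * w) *
            (g : M →ₗ[k] M) := by simp only [mul_assoc]
        _ = ((g⁻¹ : LinearMap.GeneralLinearGroup k M) : M →ₗ[k] M) * w * (g : M →ₗ[k] M) := by rw [a2]
  -- the normal closure is unipotent
  let W : Set (Subgroup (LinearMap.GeneralLinearGroup k M)) := {H | ∃ g ∈ G, ∃ hq : ((g : LinearMap.GeneralLinearGroup k M) : M →ₗ[k] M) * z *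
    ((g⁻¹ : LinearMap.GeneralLinearGroup k M) : M →ₗ[k] M) * ((g : M →ₗ[k] M) * z *
    ((g⁻¹ : LinearMap.GeneralLinearGroup k M) : M →ₗ[k] M)) = 0, H = oneP _ hq}
  have hWconj : ∀ A ∈ W, ∀ g ∈ G, conjBy A g ∈ W := by
    rintro _ ⟨g', hg', hq, rfl⟩ g hg
    have h1 := (hz.inn.conj (mul_mem hg hg')).sq
    refine ⟨g * g', mul_mem hg hg', h1, ?_⟩
    ext h
    rw [mem_conjBy]
    have e0 : (g : M →ₗ[k] M) * ((g' : M →ₗ[k] M) * z * ((g'⁻¹ : LinearMap.GeneralLinearGroup k M) : M →ₗ[k] M)) *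
        ((g⁻¹ : LinearMap.GeneralLinearGroup k M) : M →ₗ[k] M) =
        ((g * g' : LinearMap.GeneralLinearGroup k M) : M →ₗ[k] M) * z *
          (((g * g')⁻¹ : LinearMap.GeneralLinearGroup k M) : M →ₗ[k] M) := by
      rw [Units.val_mul, mul_inv_rev, Units.val_mul]; simp only [mul_assoc]
    constructor
    · rintro ⟨c, hc⟩
      refine ⟨c, ?_⟩
      have e : h = g * (g⁻¹ * h * g) * g⁻¹ := by group
      have e2 := conj_sub_one g (g⁻¹ * h * g)
      rw [← e, hc, add_sub_cancel_left, mul_smul_comm, smul_mul_assoc, e0] at e2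
      rw [← e2]; abel
    · rintro ⟨c, hc⟩
      refine ⟨c, ?_⟩
      have e2 := conj_sub_one g⁻¹ h
      rw [inv_inv, hc, add_sub_cancel_left, mul_smul_comm, smul_mul_assoc, ← e0] at e2
      have e3 : ((g⁻¹ : LinearMap.GeneralLinearGroup k M) : M →ₗ[k] M) *
          ((g : M →ₗ[k] M) * ((g' : M →ₗ[k] M) * z * ((g'⁻¹ : LinearMap.GeneralLinearGroup k M) : M →ₗ[k] M)) *
            ((g⁻¹ : LinearMap.GeneralLinearGroup k M) : M →ₗ[k] M)) * (g : M →ₗ[k] M) =
          (g' : M →ₗ[k] M) * z * ((g'⁻¹ : LinearMap.GeneralLinearGroup k M) : M →ₗ[k] M) := by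
        have h1 : ((g⁻¹ : LinearMap.GeneralLinearGroup k M) : M →ₗ[k] M) * (g : M →ₗ[k] M) = 1 := by
          rw [← Units.val_mul, inv_mul_cancel, Units.val_one]
        generalize (g' : M →ₗ[k] M) * z * ((g'⁻¹ : LinearMap.GeneralLinearGroup k M) : M →ₗ[k] M) = z'
        calc _ = (((g⁻¹ : LinearMap.GeneralLinearGroup k M) : M →ₗ[k] M) * (g : M →ₗ[k] M)) * z' *
              (((g⁻¹ : LinearMap.GeneralLinearGroup k M) : M →ₗ[k] M) * (g : M →ₗ[k] M)) := by
                simp only [mul_assoc]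
          _ = z' := by rw [h1, one_mul, mul_one]
      rw [e3] at e2
      rw [← e2]; abel
  have hWG : ∀ A ∈ W, A ≤ G := by
    rintro _ ⟨g, hg, hq, rfl⟩ h ⟨c, hc⟩
    exact (hz.inn.conj hg).2 c h hc
  have hU := unip_sSup (G := G) (W := W) hWG
    (by
      rintro _ ⟨g, hg, hq, rfl⟩ _ ⟨h, hh, hq', rfl⟩
      exact unip_oneP hq hq' (key g hg h hh)) hWconj
  have hUn : ∀ g ∈ G, ∀ u ∈ sSup W, g * u * g⁻¹ ∈ sSup W := by
    intro g hg u hu
    have h1 : sSup W ≤ (sSup W).comap (MulAut.conj g).toMonoidHom := by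
      apply sSup_le
      intro A hA a ha
      rw [Subgroup.mem_comap]
      have h3 := hWconj A hA g hg
      exact (le_sSup h3) ⟨a, ha, rfl⟩
    exact h1 hu
  -- the fixed space
  have hC : fixedSubmodule (sSup W) = ⊤ := by
    rcases hirr.2 (fixedSubmodule (sSup W)) (by
      intro g hg w hw
      simp only [fixedSubmodule, Submodule.mem_iInf] at hw ⊢
      intro u hu
      have h1 := hw (g⁻¹ * u * g) (by
        have := hUn g⁻¹ (inv_mem hg) u hu
        rwa [inv_inv] at this)
      rw [LinearMap.mem_ker, LinearMap.sub_apply, Module.End.one_apply, sub_eq_zero] at h1 ⊢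
      rw [Units.val_mul, Units.val_mul, Module.End.mul_apply, Module.End.mul_apply] at h1
      have h3 := congrArg (g : M →ₗ[k] M) h1
      rw [← Module.End.mul_apply (g : M →ₗ[k] M) ((g⁻¹ : LinearMap.GeneralLinearGroup k M) : M →ₗ[k] M),
        ← Units.val_mul, mul_inv_cancel, Units.val_one, Module.End.one_apply] at h3
      exact h3) with h1 | h1
    · exfalso
      rw [isUnipotentOn_iff] at hU
      obtain ⟨m₀, hm₀⟩ := hirr.1
      classical
      have hne : ∃ n, Dh (sSup W) ^ n = ⊥ := hU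
      have hmin := Nat.find_spec hne
      rcases hn : Nat.find hne with _ | n
      · rw [hn, pow_zero] at hmin
        have : (1 : M →ₗ[k] M) ∈ (1 : Submodule k (M →ₗ[k] M)) := Submodule.one_le.mp le_rfl
        rw [hmin, Submodule.mem_bot] at this
        apply hm₀
        rw [← Module.End.one_apply (R := k) m₀, this, LinearMap.zero_apply]
      · rw [hn] at hmin
        have hn' : Dh (sSup W) ^ n ≠ ⊥ := Nat.find_min hne (by omega)
        obtain ⟨f, hf, hf0⟩ := Submodule.exists_mem_ne_zero_of_ne_bot hn'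
        obtain ⟨v, hv⟩ : ∃ v, f v ≠ 0 := by
          by_contra hcon
          push Not at hcon
          exact hf0 (LinearMap.ext hcon)
        have h3 : f v ∈ fixedSubmodule (sSup W) := by
          simp only [fixedSubmodule, Submodule.mem_iInf]
          intro u hu
          have h4 : ((u : M →ₗ[k] M) - 1) * f ∈ Dh (sSup W) ^ (n + 1) := by
            rw [pow_succ']
            exact Submodule.mul_mem_mul (sub_mem_Dh hu) hf
          rw [hmin, Submodule.mem_bot] at h4
          rw [LinearMap.mem_ker, ← Module.End.mul_apply, h4, LinearMap.zero_apply]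
        rw [h1, Submodule.mem_bot] at h3
        exact hv h3
    · exact h1
  apply hz.2.1
  apply LinearMap.ext
  intro v
  have h1 : v ∈ fixedSubmodule (sSup W) := by rw [hC]; trivial
  simp only [fixedSubmodule, Submodule.mem_iInf] at h1
  have h3 := h1 (un z hz.inn.sq) (by
    have h4 : oneP z hz.inn.sq ∈ W := by
      have e : ((1 : LinearMap.GeneralLinearGroup k M) : M →ₗ[k] M) * z *
        (((1 : LinearMap.GeneralLinearGroup k M)⁻¹ : LinearMap.GeneralLinearGroup k M) : M →ₗ[k] M) = z := by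
        rw [inv_one, Units.val_one, one_mul, mul_one]
      refine ⟨1, one_mem _, by rw [e]; exact hz.inn.sq, ?_⟩
      ext g
      rw [mem_oneP, mem_oneP, e]
    exact (le_sSup h4) ⟨1, by rw [un_val, one_smul]⟩)
  rw [un_val, add_sub_cancel_left] at h3
  exact h3

end comm

end Cfsg.Agent.H11.QP
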