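import Cfsg.Agent.H11.QpRank3

set_option autoImplicit false
set_option linter.unusedSectionVars false
set_option linter.unusedSimpArgs false

/-! nilpotent pairs: `xyx = 0`, and the structure of the commutator -/

namespace Cfsg.Agent.H11.QP

open Cfsg Polynomial

section core
variable {k : Type*} [Field k] {M : Type*} [AddCommGroup M] [Module k M] [FiniteDimensional k M]
variable {G : Subgroup (LinearMap.GeneralLinearGroup k M)}

theorem core2 (h2 : (2 : k) ≠ 0) {x y : M →ₗ[k] M} (hx : Mn G x) (hy : Mn G y)
    (h : x * (y * (x * (y * x))) = 0) : x * y * x = 0 := by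
  have xx := hx.inn.sq
  have yy := hy.inn.sq
  have xxz : ∀ z, x * (x * z) = 0 := fun z => by rw [← mul_assoc, xx, zero_mul]
  have yyz : ∀ z, y * (y * z) = 0 := fun z => by rw [← mul_assoc, yy, zero_mul]
  have hz : ∀ z, x * (y * (x * (y * (x * z)))) = 0 := fun z => by
    have : x * (y * (x * (y * (x * z)))) = x * (y * (x * (y * x))) * z := by simp only [mul_assoc]
    rw [this, h, zero_mul]
  have i1 : Inn G ((1 + y) * x * (1 - y)) := by
    have := hx.inn.conj_el hy.inn 1
    rwa [one_smul] at this
  have i2 : Inn G ((1 - y) * x * (1 + y)) := by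
    have := hx.inn.conj_el hy.inn (-1)
    rwa [neg_smul, one_smul, ← sub_eq_add_neg, sub_neg_eq_add] at this
  have j1 := hx.inn.comm i1
    (by simp only [mul_add, add_mul, mul_sub, sub_mul, mul_assoc, xx, yy, xxz, yyz, h, hz, mul_zero, zero_mul, one_mul,
          mul_one]; abel)
    (by simp only [mul_add, add_mul, mul_sub, sub_mul, mul_assoc, xx, yy, xxz, yyz, h, hz, mul_zero, zero_mul, one_mul,
          mul_one]; abel)
  have j2 := hx.inn.comm i2
    (by simp only [mul_add, add_mul, mul_sub, sub_mul, mul_assoc, xx, yy, xxz, yyz, h, hz, mul_zero, zero_mul, one_mul,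
          mul_one]; abel)
    (by simp only [mul_add, add_mul, mul_sub, sub_mul, mul_assoc, xx, yy, xxz, yyz, h, hz, mul_zero, zero_mul, one_mul,
          mul_one]; abel)
  have j3 := j1.sub j2
    (by simp only [mul_add, add_mul, mul_sub, sub_mul, mul_assoc, xx, yy, xxz, yyz, h, hz, mul_zero, zero_mul, one_mul,
          mul_one]; abel)
    (by simp only [mul_add, add_mul, mul_sub, sub_mul, mul_assoc, xx, yy, xxz, yyz, h, hz, mul_zero, zero_mul, one_mul,
          mul_one]; abel)
  have e4 : x * ((1 + y) * x * (1 - y)) - (1 + y) * x * (1 - y) * x -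
      (x * ((1 - y) * x * (1 + y)) - (1 - y) * x * (1 + y) * x) = ((2 : k) * 2) • (x * y * x) := by
    have : ((2 : k) * 2) • (x * y * x) = x * y * x + x * y * x + (x * y * x + x * y * x) := by
      rw [mul_smul, two_smul, two_smul]
    rw [this]
    simp only [mul_add, add_mul, mul_sub, sub_mul, mul_assoc, xx, yy, xxz, yyz, h, hz, mul_zero, zero_mul, one_mul,
          mul_one]
    abel
  rw [e4] at j3
  have j4 : Inn G (x * y * x) := j3.of_smul (mul_ne_zero h2 h2)
  by_contra hne
  have h5 := hx.le j4 hne
  have hr : LinearMap.range (x * y * x) = LinearMap.range x := by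
    apply Submodule.eq_of_le_of_finrank_le
    · rw [mul_assoc]; exact LinearMap.range_comp_le_range _ _
    · exact h5
  apply hne
  apply LinearMap.ext
  intro v
  rw [Module.End.mul_apply, LinearMap.zero_apply]
  have h6 : x v ∈ LinearMap.range (x * y * x) := by rw [hr]; exact ⟨v, rfl⟩
  obtain ⟨w, hw⟩ := h6
  rw [← hw, ← Module.End.mul_apply]
  have : x * y * (x * y * x) = 0 := by rw [← h]; simp only [mul_assoc]
  rw [this, LinearMap.zero_apply]

theorem core_aux (h2 : (2 : k) ≠ 0) (m : ℕ) : ∀ {x y : M →ₗ[k] M}, Mn G x → Mn G y →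
    (x * y) ^ m * x = 0 → x * y * x = 0 := by
  induction m using Nat.strong_induction_on with
  | _ m ih =>
    intro x y hx hy h
    rcases Nat.lt_or_ge m 3 with hm | hm
    · interval_cases m
      · rw [pow_zero, one_mul] at h
        exact absurd h hx.2.1
      · rw [pow_one] at h; exact h
      · apply core2 h2 hx hy
        rw [← h, pow_two]; simp only [mul_assoc]
    · have i1 : Inn G ((1 + y) * x * (1 - y)) := by
        have := hx.inn.conj_el hy.inn 1
        rwa [one_smul] at this
      have hmn : Mn G ((1 + y) * x * (1 - y)) := by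
        have h1 := hx.conj (hy.inn.el_mem 1)
        rwa [hy.inn.el_val, hy.inn.el_inv, one_smul] at h1
      have xx := hx.inn.sq
      have hpow : ∀ j, (x * ((1 + y) * x * (1 - y))) ^ j * x = ((-1 : k) ^ j) • ((x * y) ^ (2 * j) * x) := by
        intro j
        induction j with
        | zero => rw [pow_zero, pow_zero, mul_zero, pow_zero, one_mul, one_smul]
        | succ j ihj =>
          rw [pow_succ', mul_assoc, ihj, mul_smul_comm]
          have e2 : x * ((x * y) ^ (2 * j) * x) = 0 := by
            rcases j with _ | j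
            · rw [mul_zero, pow_zero, one_mul, xx]
            · rw [show 2 * (j + 1) = (2 * j + 1) + 1 by ring, pow_succ' (x * y)]
              calc x * (x * y * (x * y) ^ (2 * j + 1) * x) = x * x * (y * (x * y) ^ (2 * j + 1) * x) := by
                    simp only [mul_assoc]
                _ = 0 := by rw [xx, zero_mul]
          have e3 : x * ((1 + y) * x * (1 - y)) = x * y * x - x * y * (x * y) := by
            simp only [mul_add, add_mul, mul_sub, sub_mul, mul_assoc, one_mul, mul_one, xx]
            have : x * (x * y) = 0 := by rw [← mul_assoc, xx, zero_mul]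
            rw [this]; abel
          rw [e3, sub_mul, mul_assoc (x * y) x, e2, mul_zero, zero_sub, pow_succ (-1 : k), mul_smul, neg_one_smul]
          congr 2
          rw [show 2 * (j + 1) = (2 * j + 1) + 1 by ring, pow_succ' (x * y) (2 * j + 1), pow_succ' (x * y) (2 * j)]
          simp only [mul_assoc]
      have h3 : (x * ((1 + y) * x * (1 - y))) ^ ((m + 1) / 2) * x = 0 := by
        rw [hpow]
        have h4 : 2 * ((m + 1) / 2) = (2 * ((m + 1) / 2) - m) + m := by omega
        rw [h4, pow_add, mul_assoc, h, mul_zero, smul_zero]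
      have h4 := ih ((m + 1) / 2) (by omega) hx hmn h3
      have h5 := hpow 1
      rw [pow_one, h4, pow_one, mul_one, neg_one_smul, eq_comm, neg_eq_zero] at h5
      apply core2 h2 hx hy
      rw [← h5, pow_two]; simp only [mul_assoc]

theorem core (h2 : (2 : k) ≠ 0) {x y : M →ₗ[k] M} (hx : Mn G x) (hy : Mn G y) (h : IsNilpotent (x * y)) :
    x * y * x = 0 := by
  obtain ⟨n, hn⟩ := h
  exact core_aux h2 n hx hy (by rw [hn, zero_mul])

theorem core_nn (h2 : (2 : k) ≠ 0) (hk3 : Nat.card k ≠ 3) {x y a b : M →ₗ[k] M} (hx : Mn G x) (hy : Mn G y)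
    (h : ¬ NN x y) (ha : InE G x a) (hb : InE G y b) : a * b * a = 0 := by
  by_cases ha0 : a = 0
  · rw [ha0, zero_mul, zero_mul]
  by_cases hb0 : b = 0
  · rw [hb0, mul_zero, zero_mul]
  apply core h2 (ha.mn hx ha0) (hb.mn hy hb0)
  by_contra hcon
  rw [nn_iff h2 hk3 (ha.mn hx ha0) (hb.mn hy hb0)] at hcon
  exact h (hcon.congr (ha.ker_eq hx ha0).symm (ha.range_eq hx ha0).symm (hb.ker_eq hy hb0).symm
    (hb.range_eq hy hb0).symm)

end core

end Cfsg.Agent.H11.QP
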