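import Mathlib

set_option autoImplicit false
set_option linter.unnecessarySeqFocus false

/-! Subgroups of `SL₂(R)`, `R = k[λ]`, generated by `x(k)` and `y(kλ)`, for infinite `k`. -/

namespace Cfsg.Agent.H11.QP

open Matrix Polynomial

section defs
variable {R : Type*} [CommRing R]

/-- upper unitriangular -/
def X2 (r : R) : SpecialLinearGroup (Fin 2) R := ⟨!![1, r; 0, 1], by simp [Matrix.det_fin_two]⟩
/-- lower unitriangular -/
def Y2 (r : R) : SpecialLinearGroup (Fin 2) R := ⟨!![1, 0; r, 1], by simp [Matrix.det_fin_two]⟩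

theorem X2_val (r : R) : (X2 r).1 = !![1, r; 0, 1] := rfl
theorem Y2_val (r : R) : (Y2 r).1 = !![1, 0; r, 1] := rfl

theorem sl2_ext {A B : SpecialLinearGroup (Fin 2) R} (h00 : A.1 0 0 = B.1 0 0) (h01 : A.1 0 1 = B.1 0 1)
    (h10 : A.1 1 0 = B.1 1 0) (h11 : A.1 1 1 = B.1 1 1) : A = B := by
  apply Subtype.ext
  ext i j
  fin_cases i <;> fin_cases j
  · exact h00
  · exact h01
  · exact h10
  · exact h11

theorem mul00 (A B : SpecialLinearGroup (Fin 2) R) : (A * B).1 0 0 = A.1 0 0 * B.1 0 0 + A.1 0 1 * B.1 1 0 := by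
  rw [Matrix.SpecialLinearGroup.coe_mul, Matrix.mul_apply, Fin.sum_univ_two]
theorem mul01 (A B : SpecialLinearGroup (Fin 2) R) : (A * B).1 0 1 = A.1 0 0 * B.1 0 1 + A.1 0 1 * B.1 1 1 := by
  rw [Matrix.SpecialLinearGroup.coe_mul, Matrix.mul_apply, Fin.sum_univ_two]
theorem mul10 (A B : SpecialLinearGroup (Fin 2) R) : (A * B).1 1 0 = A.1 1 0 * B.1 0 0 + A.1 1 1 * B.1 1 0 := by
  rw [Matrix.SpecialLinearGroup.coe_mul, Matrix.mul_apply, Fin.sum_univ_two]
theorem mul11 (A B : SpecialLinearGroup (Fin 2) R) : (A * B).1 1 1 = A.1 1 0 * B.1 0 1 + A.1 1 1 * B.1 1 1 := by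
  rw [Matrix.SpecialLinearGroup.coe_mul, Matrix.mul_apply, Fin.sum_univ_two]

theorem inv00 (A : SpecialLinearGroup (Fin 2) R) : (A⁻¹).1 0 0 = A.1 1 1 := by
  have : (A⁻¹).1 = A.1.adjugate := Matrix.SpecialLinearGroup.coe_inv A
  rw [this, Matrix.adjugate_fin_two]; rfl
theorem inv01 (A : SpecialLinearGroup (Fin 2) R) : (A⁻¹).1 0 1 = -A.1 0 1 := by
  have : (A⁻¹).1 = A.1.adjugate := Matrix.SpecialLinearGroup.coe_inv A
  rw [this, Matrix.adjugate_fin_two]; rfl
theorem inv10 (A : SpecialLinearGroup (Fin 2) R) : (A⁻¹).1 1 0 = -A.1 1 0 := by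
  have : (A⁻¹).1 = A.1.adjugate := Matrix.SpecialLinearGroup.coe_inv A
  rw [this, Matrix.adjugate_fin_two]; rfl
theorem inv11 (A : SpecialLinearGroup (Fin 2) R) : (A⁻¹).1 1 1 = A.1 0 0 := by
  have : (A⁻¹).1 = A.1.adjugate := Matrix.SpecialLinearGroup.coe_inv A
  rw [this, Matrix.adjugate_fin_two]; rfl

theorem det2 (A : SpecialLinearGroup (Fin 2) R) : A.1 0 0 * A.1 1 1 - A.1 0 1 * A.1 1 0 = 1 := by
  have := A.2
  rw [Matrix.det_fin_two] at this
  exact this

theorem X2_00 (r : R) : (X2 r).1 0 0 = 1 := rfl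
theorem X2_01 (r : R) : (X2 r).1 0 1 = r := rfl
theorem X2_10 (r : R) : (X2 r).1 1 0 = 0 := rfl
theorem X2_11 (r : R) : (X2 r).1 1 1 = 1 := rfl
theorem Y2_00 (r : R) : (Y2 r).1 0 0 = 1 := rfl
theorem Y2_01 (r : R) : (Y2 r).1 0 1 = 0 := rfl
theorem Y2_10 (r : R) : (Y2 r).1 1 0 = r := rfl
theorem Y2_11 (r : R) : (Y2 r).1 1 1 = 1 := rfl
theorem one_00 : (1 : SpecialLinearGroup (Fin 2) R).1 0 0 = 1 := rfl
theorem one_01 : (1 : SpecialLinearGroup (Fin 2) R).1 0 1 = 0 := rfl
theorem one_10 : (1 : SpecialLinearGroup (Fin 2) R).1 1 0 = 0 := rfl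
theorem one_11 : (1 : SpecialLinearGroup (Fin 2) R).1 1 1 = 1 := rfl

/-- normalisation of entries -/
macro "sl2_simp" : tactic => `(tactic| simp only [mul00, mul01, mul10, mul11, inv00, inv01, inv10, inv11,
  X2_00, X2_01, X2_10, X2_11, Y2_00, Y2_01, Y2_10, Y2_11, one_00, one_01, one_10, one_11])

theorem X2_mul (a b : R) : X2 a * X2 b = X2 (a + b) := by
  apply sl2_ext <;> sl2_simp <;> ring
theorem Y2_mul (a b : R) : Y2 a * Y2 b = Y2 (a + b) := by
  apply sl2_ext <;> sl2_simp <;> ring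
theorem X2_zero : X2 (0 : R) = 1 := by apply sl2_ext <;> rfl
theorem Y2_zero : Y2 (0 : R) = 1 := by apply sl2_ext <;> rfl
theorem X2_inv (a : R) : (X2 a)⁻¹ = X2 (-a) := by
  apply sl2_ext <;> sl2_simp <;> ring
theorem Y2_inv (a : R) : (Y2 a)⁻¹ = Y2 (-a) := by
  apply sl2_ext <;> sl2_simp <;> ring

end defs

section HS
variable (k : Type*) {R : Type*} [Field k] [CommRing R] [Algebra k R]

/-- the group generated by `x(k)` and `y(kλ)` -/
def HS (lam : R) : Subgroup (SpecialLinearGroup (Fin 2) R) :=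
  Subgroup.closure ({g | ∃ c : k, g = X2 (algebraMap k R c)} ∪ {g | ∃ c : k, g = Y2 (algebraMap k R c * lam)})

variable {k}
theorem X2_mem_HS (lam : R) (c : k) : X2 (algebraMap k R c) ∈ HS k lam :=
  Subgroup.subset_closure (Or.inl ⟨c, rfl⟩)
theorem Y2_mem_HS (lam : R) (c : k) : Y2 (algebraMap k R c * lam) ∈ HS k lam :=
  Subgroup.subset_closure (Or.inr ⟨c, rfl⟩)

/-- conjugation by `diag(a,1)`, the function -/
def sclF (a : k) (ha : a ≠ 0) (g : SpecialLinearGroup (Fin 2) R) : SpecialLinearGroup (Fin 2) R :=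
  ⟨!![g.1 0 0, algebraMap k R a * g.1 0 1; algebraMap k R a⁻¹ * g.1 1 0, g.1 1 1], by
    rw [Matrix.det_fin_two_of]
    have h := det2 g
    have h2 : algebraMap k R a * algebraMap k R a⁻¹ = 1 := by
      rw [← map_mul, mul_inv_cancel₀ ha, map_one]
    linear_combination h - g.1 0 1 * g.1 1 0 * h2⟩

theorem sclF_00 (a : k) (ha : a ≠ 0) (g : SpecialLinearGroup (Fin 2) R) : (sclF a ha g).1 0 0 = g.1 0 0 := rfl
theorem sclF_01 (a : k) (ha : a ≠ 0) (g : SpecialLinearGroup (Fin 2) R) :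
    (sclF a ha g).1 0 1 = algebraMap k R a * g.1 0 1 := rfl
theorem sclF_10 (a : k) (ha : a ≠ 0) (g : SpecialLinearGroup (Fin 2) R) :
    (sclF a ha g).1 1 0 = algebraMap k R a⁻¹ * g.1 1 0 := rfl
theorem sclF_11 (a : k) (ha : a ≠ 0) (g : SpecialLinearGroup (Fin 2) R) : (sclF a ha g).1 1 1 = g.1 1 1 := rfl

/-- conjugation by `diag(a,1)` -/
def scl (a : k) (ha : a ≠ 0) : SpecialLinearGroup (Fin 2) R →* SpecialLinearGroup (Fin 2) R where
  toFun := sclF a ha
  map_one' := by
    apply sl2_ext <;> simp only [sclF_00, sclF_01, sclF_10, sclF_11, one_00, one_01, one_10, one_11, mul_zero]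
  map_mul' g h := by
    have h2 : algebraMap k R a * algebraMap k R a⁻¹ = 1 := by
      rw [← map_mul, mul_inv_cancel₀ ha, map_one]
    apply sl2_ext <;> simp only [sclF_00, sclF_01, sclF_10, sclF_11, mul00, mul01, mul10, mul11]
    · linear_combination -(g.1 0 1 * h.1 1 0) * h2
    · ring
    · ring
    · linear_combination -(g.1 1 0 * h.1 0 1) * h2

theorem scl_00 (a : k) (ha : a ≠ 0) (g : SpecialLinearGroup (Fin 2) R) : (scl a ha g).1 0 0 = g.1 0 0 := rfl
theorem scl_01 (a : k) (ha : a ≠ 0) (g : SpecialLinearGroup (Fin 2) R) :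
    (scl a ha g).1 0 1 = algebraMap k R a * g.1 0 1 := rfl
theorem scl_10 (a : k) (ha : a ≠ 0) (g : SpecialLinearGroup (Fin 2) R) :
    (scl a ha g).1 1 0 = algebraMap k R a⁻¹ * g.1 1 0 := rfl
theorem scl_11 (a : k) (ha : a ≠ 0) (g : SpecialLinearGroup (Fin 2) R) : (scl a ha g).1 1 1 = g.1 1 1 := rfl

theorem scl_mem_HS (a : k) (ha : a ≠ 0) (lam : R) {g : SpecialLinearGroup (Fin 2) R} (hg : g ∈ HS k lam) :
    scl a ha g ∈ HS k lam := by
  refine Subgroup.closure_induction (p := fun g _ => scl a ha g ∈ HS k lam) ?_ ?_ ?_ ?_ hg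
  · rintro g (⟨c, rfl⟩ | ⟨c, rfl⟩)
    · have : scl a ha (X2 (algebraMap k R c)) = X2 (algebraMap k R (a * c)) := by
        apply sl2_ext
        · rfl
        · rw [scl_01, X2_01, X2_01, map_mul]
        · rw [scl_10, X2_10, X2_10, mul_zero]
        · rfl
      rw [this]; exact X2_mem_HS _ _
    · have : scl a ha (Y2 (algebraMap k R c * lam)) = Y2 (algebraMap k R (a⁻¹ * c) * lam) := by
        apply sl2_ext
        · rfl
        · rw [scl_01, Y2_01, Y2_01, mul_zero]
        · rw [scl_10, Y2_10, Y2_10, map_mul, mul_assoc]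
        · rfl
      rw [this]; exact Y2_mem_HS _ _
  · change scl a ha 1 ∈ HS k lam
    rw [map_one]; exact one_mem _
  · intro g h _ _ hg hh
    change scl a ha (g * h) ∈ HS k lam
    rw [map_mul]; exact mul_mem hg hh
  · intro g _ hg
    change scl a ha g⁻¹ ∈ HS k lam
    rw [map_inv]; exact inv_mem hg

variable (k) in
/-- the set of `s` with `x(s) ∈ H`, as a `k`-subspace -/
def SS (lam : R) : Submodule k R where
  carrier := {s | X2 s ∈ HS k lam}
  zero_mem' := by
    change X2 0 ∈ HS k lam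
    rw [X2_zero]; exact one_mem _
  add_mem' {a b} ha hb := by
    change X2 (a + b) ∈ HS k lam
    rw [← X2_mul]; exact mul_mem ha hb
  smul_mem' c {x} hx := by
    change X2 (c • x) ∈ HS k lam
    by_cases hc : c = 0
    · rw [hc, zero_smul, X2_zero]; exact one_mem _
    · have := scl_mem_HS c hc lam hx
      have h2 : scl c hc (X2 x) = X2 (c • x) := by
        apply sl2_ext
        · rfl
        · rw [scl_01, X2_01, X2_01, Algebra.smul_def]
        · rw [scl_10, X2_10, X2_10, mul_zero]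
        · rfl
      rw [← h2]; exact this

theorem mem_SS {lam s : R} : s ∈ SS k lam ↔ X2 s ∈ HS k lam := Iff.rfl

theorem SS_mul_sq {lam : R} {g : SpecialLinearGroup (Fin 2) R} (hg : g ∈ HS k lam) (h10 : g.1 1 0 = 0) {s : R}
    (hs : s ∈ SS k lam) : g.1 0 0 ^ 2 * s ∈ SS k lam := by
  rw [mem_SS] at hs ⊢
  have : X2 (g.1 0 0 ^ 2 * s) = g * X2 s * g⁻¹ := by
    have hd := det2 g
    apply sl2_ext <;> sl2_simp
    · linear_combination -hd + g.1 0 0 * s * h10
    · ring
    · linear_combination g.1 1 0 * s * h10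
    · linear_combination -hd - g.1 0 0 * s * h10
  rw [this]
  exact mul_mem (mul_mem hg hs) (inv_mem hg)

end HS

section chain
variable {k : Type*} {R : Type*} [Field k] [CommRing R] [Algebra k R]

/-- Hankel matrices -/
def Hk (lam : R) (s : ℕ) (L : R →ₗ[k] k) (i : ℕ) : Matrix (Fin i) (Fin i) k :=
  Matrix.of fun a b => L (lam ^ (a.1 + b.1 + s))

theorem nondeg {lam : R} {s : ℕ} {L : R →ₗ[k] k} {i : ℕ} (hdet : (Hk lam s L i).det ≠ 0) {p : k[X]}
    (hp : ∀ j, i ≤ j → p.coeff j = 0) (h : ∀ j, j < i → L (aeval lam p * lam ^ (j + s)) = 0) : p = 0 := by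
  have hz : (fun a : Fin i => p.coeff a.1) = 0 := by
    apply Matrix.eq_zero_of_vecMul_eq_zero hdet
    ext b
    rw [Matrix.vecMul, dotProduct]
    have h1 := h b.1 b.2
    have h2 : aeval lam p = ∑ a ∈ Finset.range i, p.coeff a • lam ^ a := by
      by_cases hi : i = 0
      · subst hi
        have : p = 0 := by ext j; rw [hp j (Nat.zero_le _)]; simp
        rw [this]; simp
      · apply aeval_eq_sum_range'
        by_cases hp0 : p = 0
        · rw [hp0, natDegree_zero]; omega
        · by_contra hcon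
          push Not at hcon
          have := hp _ hcon
          rw [coeff_natDegree, leadingCoeff_eq_zero] at this
          exact hp0 this
    rw [h2, Finset.sum_mul, map_sum, ← Fin.sum_univ_eq_sum_range (fun a => L (p.coeff a • lam ^ a * lam ^ (b.1 + s)))] at h1
    rw [Pi.zero_apply, ← h1]
    apply Finset.sum_congr rfl
    intro a _
    rw [Hk, Matrix.of_apply, smul_mul_assoc, map_smul, ← pow_add, smul_eq_mul, add_assoc]
  ext j
  rw [coeff_zero]
  by_cases hj : j < i
  · exact congrFun hz ⟨j, hj⟩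
  · exact hp j (not_lt.mp hj)

/-- the functional is good -/
structure Good (lam : R) (n : ℕ) (L : R →ₗ[k] k) : Prop where
  A : ∀ i ≤ n, (Hk lam 0 L i).det ≠ 0
  B : ∀ i < n, (Hk lam 1 L i).det ≠ 0

theorem chain {lam : R} {n : ℕ} {L : R →ₗ[k] k} (hL : Good lam n L) (i : ℕ) (hi : 1 ≤ i) (hin : i ≤ n) :
    ∃ P Q : k[X], ∃ g ∈ HS k lam, (∀ j, i ≤ j → P.coeff j = 0) ∧ (∀ j, i ≤ j → Q.coeff j = 0) ∧ P.coeff 0 = 1 ∧
      (∀ j, j + 1 < i → L (aeval lam P * lam ^ j) = 0) ∧ L (aeval lam Q) = 1 ∧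
      (∀ j, 1 ≤ j → j < i → L (aeval lam Q * lam ^ j) = 0) ∧
      g.1 0 0 = aeval lam P ∧ g.1 1 0 = lam * aeval lam Q := by
  induction i, hi using Nat.le_induction with
  | base =>
    have h1 : L 1 ≠ 0 := by
      have := hL.A 1 hin
      rw [Matrix.det_fin_one, Hk, Matrix.of_apply] at this
      simpa using this
    refine ⟨1, C (L 1)⁻¹, Y2 (algebraMap k R (L 1)⁻¹ * lam), Y2_mem_HS _ _, ?_, ?_, ?_, ?_, ?_, ?_, ?_, ?_⟩
    · intro j hj
      rw [coeff_one, if_neg (by omega)]
    · intro j hj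
      rw [coeff_C, if_neg (by omega)]
    · simp
    · intro j hj; omega
    · rw [aeval_C, Algebra.algebraMap_eq_smul_one, map_smul, smul_eq_mul, inv_mul_cancel₀ h1]
    · intro j hj1 hj2; omega
    · rw [Y2_00, map_one]
    · rw [Y2_10, aeval_C, mul_comm]
  | succ i hi ih =>
    obtain ⟨P, Q, g, hg, hP, hQ, hP0, hPo, hQ1, hQo, hg0, hg1⟩ := ih (by omega)
    set u := L (aeval lam Q * lam ^ i) with hu
    have hu0 : u ≠ 0 := by
      intro hu0
      have : Q = 0 := by
        apply nondeg (hL.B i (by omega)) hQ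
        intro j hj
        by_cases hji : j + 1 < i
        · exact hQo (j + 1) (by omega) hji
        · have : j + 1 = i := by omega
          rw [this]; exact hu0
      rw [this] at hQ1
      simp at hQ1
    set a := -L (aeval lam P * lam ^ (i - 1)) / u with ha
    set P' := P + C a * (X * Q) with hP'
    have hP'ev : aeval lam P' = aeval lam P + algebraMap k R a * (lam * aeval lam Q) := by
      rw [hP', map_add, map_mul, map_mul, aeval_C, aeval_X]
    have hP'o : ∀ j, j < i → L (aeval lam P' * lam ^ j) = 0 := by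
      intro j hj
      have e1 : aeval lam P' * lam ^ j = aeval lam P * lam ^ j + a • (aeval lam Q * lam ^ (j + 1)) := by
        rw [hP'ev, Algebra.smul_def]; ring
      rw [e1, map_add, map_smul, smul_eq_mul]
      by_cases hji : j + 1 < i
      · rw [hPo j hji, hQo (j + 1) (by omega) hji, mul_zero, add_zero]
      · have hj1 : j = i - 1 := by omega
        have hj2 : i - 1 + 1 = i := by omega
        rw [hj1, hj2, ← hu, ha, div_mul_cancel₀ _ hu0, add_neg_cancel]
    have hP'0 : P'.coeff 0 = 1 := by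
      rw [hP', coeff_add, coeff_C_mul, coeff_X_mul_zero, mul_zero, add_zero, hP0]
    have hP'd : ∀ j, i + 1 ≤ j → P'.coeff j = 0 := by
      intro j hj
      obtain ⟨j', rfl⟩ : ∃ j', j = j' + 1 := ⟨j - 1, by omega⟩
      rw [hP', coeff_add, coeff_C_mul, coeff_X_mul, hP _ (by omega), hQ _ (by omega), mul_zero, add_zero]
    set u' := L (aeval lam P' * lam ^ i) with hu'
    have hu'0 : u' ≠ 0 := by
      intro hu'0
      have : P' = 0 := by
        apply nondeg (hL.A (i + 1) hin) hP'd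
        intro j hj
        rw [add_zero]
        by_cases hji : j < i
        · exact hP'o j hji
        · have : j = i := by omega
          rw [this]; exact hu'0
      rw [this] at hP'0
      simp at hP'0
    set b := -L (aeval lam Q * lam ^ i) / u' with hb
    set Q' := Q + C b * P' with hQ'
    have hQ'ev : aeval lam Q' = aeval lam Q + algebraMap k R b * aeval lam P' := by
      rw [hQ', map_add, map_mul, aeval_C]
    refine ⟨P', Q', Y2 (algebraMap k R b * lam) * (X2 (algebraMap k R a) * g),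
      mul_mem (Y2_mem_HS _ _) (mul_mem (X2_mem_HS _ _) hg), hP'd, ?_, hP'0, ?_, ?_, ?_, ?_, ?_⟩
    · intro j hj
      rw [hQ', coeff_add, coeff_C_mul, hQ _ (by omega), hP'd _ hj, mul_zero, add_zero]
    · intro j hj
      exact hP'o j (by omega)
    · rw [hQ'ev, map_add, ← Algebra.smul_def, map_smul, hQ1]
      have := hP'o 0 (by omega)
      rw [pow_zero, mul_one] at this
      rw [this, smul_zero, add_zero]
    · intro j hj1 hj2
      have e1 : aeval lam Q' * lam ^ j = aeval lam Q * lam ^ j + b • (aeval lam P' * lam ^ j) := by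
        rw [hQ'ev, Algebra.smul_def]; ring
      rw [e1, map_add, map_smul, smul_eq_mul]
      by_cases hji : j < i
      · rw [hQo j hj1 hji, hP'o j hji, mul_zero, add_zero]
      · have hj3 : j = i := by omega
        rw [hj3, ← hu', hb, div_mul_cancel₀ _ hu'0, add_neg_cancel]
    · rw [mul00, mul00, mul10, Y2_00, Y2_01, X2_00, X2_01, X2_10, X2_11, hg0, hg1, hP'ev]
      ring
    · rw [mul10, mul00, mul10, Y2_10, Y2_11, X2_00, X2_01, X2_10, X2_11, hg0, hg1, hQ'ev, hP'ev]
      ring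

/-- the end of the chain -/
theorem chain_end {lam : R} {n : ℕ} (hn : 1 ≤ n) {L : R →ₗ[k] k} (hL : Good lam n L)
    (hspan : ∀ u : R, ∃ U : k[X], (∀ j, n ≤ j → U.coeff j = 0) ∧ aeval lam U = u) :
    ∃ P Q : R, ∃ g ∈ HS k lam, ∃ μ : k, g.1 0 0 = P ∧ g.1 1 0 = μ • P ∧ lam * Q = μ • P ∧ Q ≠ 0 ∧
      (∀ j, j + 1 < n → L (P * lam ^ j) = 0) ∧
      ∀ u : R, (∀ j, j + 1 < n → L (u * lam ^ j) = 0) → ∃ κ : k, u = κ • P := by
  obtain ⟨P, Q, g, hg, hP, hQ, hP0, hPo, hQ1, hQo, hg0, hg1⟩ := chain hL n hn le_rfl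
  have hlead : P.coeff (n - 1) ≠ 0 := by
    intro h0
    have : P = 0 := by
      apply nondeg (hL.A (n - 1) (by omega))
      · intro j hj
        by_cases hjn : j = n - 1
        · rw [hjn]; exact h0
        · exact hP j (by omega)
      · intro j hj
        exact hPo j (by omega)
    rw [this] at hP0
    simp at hP0
  have key : ∀ u : R, (∀ j, j + 1 < n → L (u * lam ^ j) = 0) → ∃ κ : k, u = κ • aeval lam P := by
    intro u hu
    obtain ⟨U, hU, rfl⟩ := hspan u
    refine ⟨U.coeff (n - 1) / P.coeff (n - 1), ?_⟩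
    have : U - C (U.coeff (n - 1) / P.coeff (n - 1)) * P = 0 := by
      apply nondeg (hL.A (n - 1) (by omega))
      · intro j hj
        rw [coeff_sub, coeff_C_mul]
        by_cases hjn : j = n - 1
        · rw [hjn, div_mul_cancel₀ _ hlead, sub_self]
        · rw [hU j (by omega), hP j (by omega), mul_zero, sub_zero]
      · intro j hj
        have e1 : aeval lam (U - C (U.coeff (n - 1) / P.coeff (n - 1)) * P) * lam ^ (j + 0) =
            aeval lam U * lam ^ j - (U.coeff (n - 1) / P.coeff (n - 1)) • (aeval lam P * lam ^ j) := by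
          have e2 : aeval lam (C (U.coeff (n - 1) / P.coeff (n - 1)) * P) =
              algebraMap k R (U.coeff (n - 1) / P.coeff (n - 1)) * aeval lam P := by
            rw [map_mul, aeval_C]
          rw [add_zero, map_sub, e2, Algebra.smul_def]; ring
        rw [e1, map_sub, map_smul, hu j (by omega), hPo j (by omega), smul_zero, sub_zero]
    rw [sub_eq_zero] at this
    rw [this, map_mul, aeval_C, ← Algebra.smul_def]
    congr 1
    rw [coeff_C_mul, div_mul_cancel₀ _ hlead]
  obtain ⟨μ, hμ⟩ := key (lam * aeval lam Q) (by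
    intro j hj
    have := hQo (j + 1) (by omega) hj
    rw [← this]; congr 1; ring)
  refine ⟨aeval lam P, aeval lam Q, g, hg, μ, hg0, ?_, hμ, ?_, hPo, key⟩
  · rw [hg1, hμ]
  · intro h0
    rw [h0, map_zero] at hQ1
    exact zero_ne_one hQ1

theorem good_ne_zero {lam : R} {n : ℕ} (hn : 1 ≤ n) {L : R →ₗ[k] k} (hL : Good lam n L) : L ≠ 0 := by
  rintro rfl
  have := hL.A 1 hn
  rw [Matrix.det_fin_one, Hk, Matrix.of_apply] at this
  simp at this

/-- two good functionals give a torus element -/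
theorem torus_of_good {lam : R} {n : ℕ} (hn : 1 ≤ n) {L : R →ₗ[k] k} (hL : Good lam n L)
    (hspan : ∀ u : R, ∃ U : k[X], (∀ j, n ≤ j → U.coeff j = 0) ∧ aeval lam U = u)
    {w : R} (hw : Good lam n (L ∘ₗ LinearMap.mulLeft k w)) {s : R} (hs : s ∈ SS k lam) : w ^ 2 * s ∈ SS k lam := by
  obtain ⟨P, Q, g, hg, μ, hg0, hg1, hPQ, hQ0, hPo, key⟩ := chain_end hn hL hspan
  obtain ⟨P', Q', g', hg', μ', hg0', hg1', hPQ', hQ0', hPo', key'⟩ := chain_end hn hw hspan
  have hd := det2 g
  have hd' := det2 g'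
  rw [hg0, hg1] at hd
  rw [hg0', hg1'] at hd'
  rw [Algebra.smul_def] at hd hd' hPQ hPQ'
  obtain ⟨κ, hκ⟩ := key (w * P') (fun j hj => by
    have := hPo' j hj
    rw [LinearMap.comp_apply, LinearMap.mulLeft_apply] at this
    rw [mul_assoc]; exact this)
  have hκ0 : κ ≠ 0 := by
    rintro rfl
    rw [zero_smul] at hκ
    have hw0 : w = 0 := by
      calc w = w * (P' * g'.1 1 1 - g'.1 0 1 * (algebraMap k R μ' * P')) := by rw [hd', mul_one]
        _ = (w * P') * (g'.1 1 1 - g'.1 0 1 * algebraMap k R μ') := by ring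
        _ = 0 := by rw [hκ, zero_mul]
    apply good_ne_zero hn hw
    rw [hw0]; ext; simp
  rw [Algebra.smul_def] at hκ
  have hκi : algebraMap k R κ⁻¹ * algebraMap k R κ = 1 := by
    rw [← map_mul, inv_mul_cancel₀ hκ0, map_one]
  -- it suffices to have a torus element
  suffices h : ∃ t ∈ HS k lam, ∃ c : k, c ≠ 0 ∧ t.1 1 0 = 0 ∧ t.1 0 0 = algebraMap k R c * w by
    obtain ⟨t, ht, c, hc, h10, h00⟩ := h
    have h1 := SS_mul_sq ht h10 hs
    rw [h00] at h1
    have h2 := (SS k lam).smul_mem (c⁻¹ ^ 2) h1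
    have h3 : (c⁻¹ ^ 2) • ((algebraMap k R c * w) ^ 2 * s) = w ^ 2 * s := by
      have h4 : algebraMap k R c⁻¹ * algebraMap k R c = 1 := by
        rw [← map_mul, inv_mul_cancel₀ hc, map_one]
      rw [Algebra.smul_def, map_pow]
      linear_combination (w ^ 2 * s) * (algebraMap k R c⁻¹ * algebraMap k R c + 1) * h4
    rw [h3] at h2
    exact h2
  by_cases hμ : μ = 0
  · have hμ' : μ' = 0 := by
      by_contra hne
      have hi : algebraMap k R μ'⁻¹ * algebraMap k R μ' = 1 := by
        rw [← map_mul, inv_mul_cancel₀ hne, map_one]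
      apply hQ0
      rw [hμ, map_zero, zero_mul] at hPQ
      calc Q = (algebraMap k R μ'⁻¹ * algebraMap k R μ') * (P' * g'.1 1 1 - g'.1 0 1 * (algebraMap k R μ' * P')) * Q := by
            rw [hd', hi]; ring
        _ = (algebraMap k R μ' * P') * (algebraMap k R μ'⁻¹ * (g'.1 1 1 - g'.1 0 1 * algebraMap k R μ')) * Q := by ring
        _ = (algebraMap k R μ'⁻¹ * (g'.1 1 1 - g'.1 0 1 * algebraMap k R μ')) * Q' * (lam * Q) := by
            rw [← hPQ']; ring
        _ = 0 := by rw [hPQ, mul_zero]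
    subst hμ hμ'
    rw [map_zero, zero_mul, mul_zero, sub_zero] at hd hd'
    refine ⟨g'⁻¹ * g, mul_mem (inv_mem hg') hg, κ⁻¹, inv_ne_zero hκ0, ?_, ?_⟩
    · rw [mul10, inv10, inv11, hg1, hg1', zero_smul, zero_smul]; ring
    · rw [mul00, inv00, inv01, hg1, zero_smul, hg0, mul_zero, add_zero]
      linear_combination (-g'.1 1 1 * P) * hκi - g'.1 1 1 * algebraMap k R κ⁻¹ * hκ + algebraMap k R κ⁻¹ * w * hd'
  · have hi : algebraMap k R μ⁻¹ * algebraMap k R μ = 1 := by
      rw [← map_mul, inv_mul_cancel₀ hμ, map_one]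
    have hμ' : μ' ≠ 0 := by
      rintro rfl
      apply hQ0'
      rw [map_zero, zero_mul] at hPQ'
      calc Q' = (algebraMap k R μ⁻¹ * algebraMap k R μ) * (P * g.1 1 1 - g.1 0 1 * (algebraMap k R μ * P)) * Q' := by
            rw [hd, hi]; ring
        _ = (algebraMap k R μ * P) * (algebraMap k R μ⁻¹ * (g.1 1 1 - g.1 0 1 * algebraMap k R μ)) * Q' := by ring
        _ = (algebraMap k R μ⁻¹ * (g.1 1 1 - g.1 0 1 * algebraMap k R μ)) * Q * (lam * Q') := by
            rw [← hPQ]; ring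
        _ = 0 := by rw [hPQ', mul_zero]
    have hi' : algebraMap k R μ'⁻¹ * algebraMap k R μ' = 1 := by
      rw [← map_mul, inv_mul_cancel₀ hμ', map_one]
    set a := X2 (algebraMap k R (-μ⁻¹)) * g with ha
    set b := X2 (algebraMap k R (-μ'⁻¹)) * g' with hb
    have haH : a ∈ HS k lam := mul_mem (X2_mem_HS _ _) hg
    have hbH : b ∈ HS k lam := mul_mem (X2_mem_HS _ _) hg'
    have ha0 : a.1 0 0 = 0 := by
      rw [ha, mul00, X2_00, X2_01, hg0, hg1, Algebra.smul_def, map_neg]
      linear_combination (-P) * hi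
    have ha1 : a.1 1 0 = algebraMap k R μ * P := by
      rw [ha, mul10, X2_10, X2_11, hg1, Algebra.smul_def]; ring
    have hb0 : b.1 0 0 = 0 := by
      rw [hb, mul00, X2_00, X2_01, hg0', hg1', Algebra.smul_def, map_neg]
      linear_combination (-P') * hi'
    have hb1 : b.1 1 0 = algebraMap k R μ' * P' := by
      rw [hb, mul10, X2_10, X2_11, hg1', Algebra.smul_def]; ring
    have hdb := det2 b
    rw [hb0, hb1] at hdb
    refine ⟨b⁻¹ * a, mul_mem (inv_mem hbH) haH, μ * κ⁻¹ * μ'⁻¹, ?_, ?_, ?_⟩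
    · exact mul_ne_zero (mul_ne_zero hμ (inv_ne_zero hκ0)) (inv_ne_zero hμ')
    · rw [mul10, inv10, inv11, ha0, hb0]; ring
    · rw [mul00, inv00, inv01, ha0, ha1, mul_zero, zero_add, map_mul, map_mul]
      linear_combination (b.1 0 1 * algebraMap k R μ * P) * hκi +
        b.1 0 1 * algebraMap k R μ * algebraMap k R κ⁻¹ * hκ +
        (algebraMap k R μ * algebraMap k R κ⁻¹ * algebraMap k R μ'⁻¹ * w) * hdb +
        (b.1 0 1 * algebraMap k R μ * algebraMap k R κ⁻¹ * w * P') * hi'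

end chain

section good
variable {k : Type*} {R : Type*} [Field k] [CommRing R] [Algebra k R]

theorem Hk_special (pb : PowerBasis k R) (s i : ℕ) (hi : 1 ≤ i) (his : i - 1 + s < pb.dim) :
    (Hk pb.gen s (pb.basis.coord ⟨i - 1 + s, his⟩) i).det ≠ 0 := by
  classical
  intro hdet
  obtain ⟨v, hv0, hv⟩ := Matrix.exists_vecMul_eq_zero_iff.mpr hdet
  obtain ⟨a0, ha0, hmax⟩ : ∃ a0 : Fin i, v a0 ≠ 0 ∧ ∀ a : Fin i, a0 < a → v a = 0 := by
    have hne : (Finset.univ.filter fun a : Fin i => v a ≠ 0).Nonempty := by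
      obtain ⟨a, ha⟩ := Function.ne_iff.mp hv0
      exact ⟨a, by simpa using ha⟩
    refine ⟨(Finset.univ.filter fun a : Fin i => v a ≠ 0).max' hne, ?_, ?_⟩
    · exact (Finset.mem_filter.mp (Finset.max'_mem _ hne)).2
    · intro a ha
      by_contra hcon
      exact absurd (Finset.le_max' _ a (by simpa using hcon)) (not_le.mpr ha)
  have hb : i - 1 - a0.1 < i := by omega
  have h1 := congrFun hv ⟨i - 1 - a0.1, hb⟩
  rw [Matrix.vecMul, dotProduct, Pi.zero_apply] at h1
  have hpow : ∀ j (hj : j < pb.dim), pb.gen ^ j = pb.basis ⟨j, hj⟩ := fun j hj => (pb.basis_eq_pow ⟨j, hj⟩).symm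
  rw [Finset.sum_eq_single a0] at h1
  · rw [Hk, Matrix.of_apply] at h1
    have e : a0.1 + (⟨i - 1 - a0.1, hb⟩ : Fin i).1 + s = i - 1 + s := by
      change a0.1 + (i - 1 - a0.1) + s = i - 1 + s
      omega
    rw [e, hpow _ his, Module.Basis.coord_apply, Module.Basis.repr_self, Finsupp.single_eq_same, mul_one] at h1
    exact ha0 h1
  · intro a _ ha
    by_cases haa : a0 < a
    · rw [hmax a haa, zero_mul]
    · have hlt : a.1 < a0.1 := by
        rcases lt_trichotomy a a0 with h | h | h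
        · exact h
        · exact absurd h ha
        · exact absurd h haa
      rw [Hk, Matrix.of_apply]
      have e : a.1 + (⟨i - 1 - a0.1, hb⟩ : Fin i).1 + s < i - 1 + s := by
        change a.1 + (i - 1 - a0.1) + s < i - 1 + s
        omega
      rw [hpow _ (e.trans his), Module.Basis.coord_apply, Module.Basis.repr_self, Finsupp.single_apply, if_neg, mul_zero]
      intro h
      have := congrArg Fin.val h
      change a.1 + (i - 1 - a0.1) + s = i - 1 + s at this
      omega
  · intro h; exact absurd (Finset.mem_univ _) h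

theorem finite_bad_det {lam : R} {s : ℕ} {L : R →ₗ[k] k} {i : ℕ} (hdet : (Hk lam s L i).det ≠ 0)
    (L' : R →ₗ[k] k) : {r : k | (Hk lam s (L + r • L') i).det = 0}.Finite := by
  let M : Matrix (Fin i) (Fin i) k[X] := Matrix.of fun a b =>
    C (L (lam ^ (a.1 + b.1 + s))) + X * C (L' (lam ^ (a.1 + b.1 + s)))
  have hev : ∀ r : k, M.det.eval r = (Hk lam s (L + r • L') i).det := by
    intro r
    have h1 := RingHom.map_det (evalRingHom r) M
    rw [coe_evalRingHom] at h1
    rw [h1]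
    congr 1
    ext a b
    rw [RingHom.mapMatrix_apply, Matrix.map_apply]
    change (evalRingHom r) (C (L (lam ^ (a.1 + b.1 + s))) + X * C (L' (lam ^ (a.1 + b.1 + s)))) =
      (L + r • L') (lam ^ (a.1 + b.1 + s))
    rw [coe_evalRingHom, eval_add, eval_mul, eval_C, eval_C, eval_X, LinearMap.add_apply, LinearMap.smul_apply,
      smul_eq_mul]
  have hM : M.det ≠ 0 := by
    intro h0
    apply hdet
    have := hev 0
    rw [h0, eval_zero, zero_smul, add_zero] at this
    exact this.symm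
  refine (M.det.rootSet_finite k).subset ?_
  intro r hr
  rw [mem_rootSet']
  refine ⟨?_, ?_⟩
  · rw [Algebra.algebraMap_self, Polynomial.map_id]; exact hM
  · rw [coe_aeval_eq_eval, hev]; exact hr

theorem Good.finite_bad {lam : R} {n : ℕ} {L : R →ₗ[k] k} (hL : Good lam n L) (L' : R →ₗ[k] k) :
    {r : k | ¬ Good lam n (L + r • L')}.Finite := by
  have h1 : (⋃ i ∈ Finset.range (n + 1), {r : k | (Hk lam 0 (L + r • L') i).det = 0}).Finite :=
    Set.Finite.biUnion (Finset.finite_toSet _)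
      (fun i hi => finite_bad_det (hL.A i (Nat.lt_succ_iff.mp (Finset.mem_range.mp hi))) L')
  have h2 : (⋃ i ∈ Finset.range n, {r : k | (Hk lam 1 (L + r • L') i).det = 0}).Finite :=
    Set.Finite.biUnion (Finset.finite_toSet _) (fun i hi => finite_bad_det (hL.B i (Finset.mem_range.mp hi)) L')
  refine (h1.union h2).subset ?_
  intro r hr
  by_contra hcon
  apply hr
  rw [Set.mem_union, not_or] at hcon
  obtain ⟨hc1, hc2⟩ := hcon
  simp only [Set.mem_iUnion, Finset.mem_range, Set.mem_ofPred_eq, not_exists] at hc1 hc2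
  exact ⟨fun i hi => hc1 i (Nat.lt_succ_iff.mpr hi), fun i hi => hc2 i hi⟩

theorem exists_good [Infinite k] (pb : PowerBasis k R) : ∃ L : R →ₗ[k] k, Good pb.gen pb.dim L := by
  classical
  -- the list of conditions
  have key : ∀ J : Finset (ℕ × ℕ), (∀ x ∈ J, x.1 = 0 ∨ x.1 - 1 + x.2 < pb.dim) →
      ∃ L : R →ₗ[k] k, ∀ x ∈ J, (Hk pb.gen x.2 L x.1).det ≠ 0 := by
    intro J
    induction J using Finset.induction_on with
    | empty => intro _; exact ⟨0, fun x hx => absurd hx (Finset.notMem_empty x)⟩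
    | insert x J hxJ ih =>
      intro hJ
      obtain ⟨L, hL⟩ := ih (fun y hy => hJ y (Finset.mem_insert_of_mem hy))
      by_cases hx0 : x.1 = 0
      · refine ⟨L, fun y hy => ?_⟩
        rcases Finset.mem_insert.mp hy with rfl | hy
        · obtain ⟨a, b⟩ := y
          change a = 0 at hx0
          subst hx0
          rw [Matrix.det_isEmpty]; exact one_ne_zero
        · exact hL y hy
      have hx1 : x.1 - 1 + x.2 < pb.dim := (hJ x (Finset.mem_insert_self _ _)).resolve_left hx0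
      obtain ⟨L', hL'⟩ : ∃ L' : R →ₗ[k] k, (Hk pb.gen x.2 L' x.1).det ≠ 0 :=
        ⟨_, Hk_special pb x.2 x.1 (Nat.one_le_iff_ne_zero.mpr hx0) hx1⟩
      have f1 : (⋃ y ∈ J, {r : k | (Hk pb.gen y.2 (L + r • L') y.1).det = 0}).Finite :=
        Set.Finite.biUnion (Finset.finite_toSet _) (fun y hy => finite_bad_det (hL y hy) L')
      have f2 : ((fun r : k => r⁻¹) ⁻¹' {r : k | (Hk pb.gen x.2 (L' + r • L) x.1).det = 0}).Finite :=
        Set.Finite.preimage (inv_injective.injOn) (finite_bad_det hL' L)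
      obtain ⟨r, hr⟩ := (((f1.union f2).union (Set.finite_singleton (0 : k)))).exists_notMem
      rw [Set.mem_union, not_or, Set.mem_union, not_or] at hr
      obtain ⟨⟨hr1, hr2⟩, hr0⟩ := hr
      have hr0 : r ≠ 0 := hr0
      refine ⟨L + r • L', fun y hy => ?_⟩
      rcases Finset.mem_insert.mp hy with rfl | hy
      · intro h0
        apply hr2
        change (Hk pb.gen y.2 (L' + r⁻¹ • L) y.1).det = 0
        have e : Hk pb.gen y.2 (L + r • L') y.1 = r • Hk pb.gen y.2 (L' + r⁻¹ • L) y.1 := by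
          ext a b
          simp only [Hk, Matrix.of_apply, Matrix.smul_apply, LinearMap.add_apply, LinearMap.smul_apply, smul_eq_mul]
          field_simp
          ring
        rw [e, Matrix.det_smul] at h0
        rcases mul_eq_zero.mp h0 with h | h
        · exact absurd (eq_zero_of_pow_eq_zero h) hr0
        · exact h
      · intro h0
        apply hr1
        simp only [Set.mem_iUnion]
        exact ⟨y, hy, h0⟩
  obtain ⟨L, hL⟩ := key ((Finset.range (pb.dim + 1)).image (fun i => (i, 0)) ∪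
      (Finset.range pb.dim).image (fun i => (i, 1))) (by
    intro x hx
    rcases Finset.mem_union.mp hx with hx | hx
    · obtain ⟨i, hi, rfl⟩ := Finset.mem_image.mp hx
      rw [Finset.mem_range] at hi
      by_cases hi0 : i = 0
      · exact Or.inl hi0
      · right; change i - 1 + 0 < pb.dim; omega
    · obtain ⟨i, hi, rfl⟩ := Finset.mem_image.mp hx
      rw [Finset.mem_range] at hi
      by_cases hi0 : i = 0
      · exact Or.inl hi0
      · right; change i - 1 + 1 < pb.dim; omega)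
  refine ⟨L, fun i hi => ?_, fun i hi => ?_⟩
  · exact hL (i, 0) (Finset.mem_union_left _ (Finset.mem_image.mpr ⟨i, Finset.mem_range.mpr (by omega), rfl⟩))
  · exact hL (i, 1) (Finset.mem_union_right _ (Finset.mem_image.mpr ⟨i, Finset.mem_range.mpr hi, rfl⟩))

/-- `⟨x(k), y(kλ)⟩` contains `x(R)` for infinite `k` -/
theorem SS_eq_top [Infinite k] (h2 : (2 : k) ≠ 0) [Nontrivial R] (pb : PowerBasis k R) : SS k pb.gen = ⊤ := by
  have hn : 1 ≤ pb.dim := pb.dim_pos
  have hspan : ∀ u : R, ∃ U : k[X], (∀ j, pb.dim ≤ j → U.coeff j = 0) ∧ aeval pb.gen U = u := by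
    intro u
    obtain ⟨f, hf, hfu⟩ := pb.exists_eq_aeval u
    refine ⟨f, fun j hj => coeff_eq_zero_of_natDegree_lt (lt_of_lt_of_le hf hj), hfu.symm⟩
  obtain ⟨L, hL⟩ := exists_good pb
  have key : ∀ v s : R, s ∈ SS k pb.gen → v * s ∈ SS k pb.gen := by
    intro v s hs
    have hfin := hL.finite_bad (L ∘ₗ LinearMap.mulLeft k v)
    obtain ⟨r, hr⟩ := (hfin.union (Set.finite_singleton (0 : k))).exists_notMem
    rw [Set.mem_union, not_or] at hr
    obtain ⟨hr1, hr0⟩ := hr
    obtain ⟨r', hr'⟩ := ((hfin.union (Set.finite_singleton (0 : k))).union (Set.finite_singleton r)).exists_notMem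
    rw [Set.mem_union, not_or, Set.mem_union, not_or] at hr'
    obtain ⟨⟨hr1', hr0'⟩, hrr'⟩ := hr'
    have hr0 : r ≠ 0 := hr0
    have hr0' : r' ≠ 0 := hr0'
    have hrr' : r' ≠ r := hrr'
    have hgood : ∀ r : k, ¬ r ∈ {r : k | ¬ Good pb.gen pb.dim (L + r • (L ∘ₗ LinearMap.mulLeft k v))} →
        (1 + algebraMap k R r * v) ^ 2 * s ∈ SS k pb.gen := by
      intro r hr
      have hg : Good pb.gen pb.dim (L ∘ₗ LinearMap.mulLeft k (1 + algebraMap k R r * v)) := by
        have e : L ∘ₗ LinearMap.mulLeft k (1 + algebraMap k R r * v) = L + r • (L ∘ₗ LinearMap.mulLeft k v) := by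
          ext x
          simp only [LinearMap.comp_apply, LinearMap.mulLeft_apply, LinearMap.add_apply, LinearMap.smul_apply]
          rw [add_mul, one_mul, map_add, mul_assoc, ← Algebra.smul_def, map_smul]
        rw [e]
        by_contra hcon
        exact hr hcon
      exact torus_of_good hn hL hspan hg hs
    have m1 := (SS k pb.gen).smul_mem (r' ^ 2) ((SS k pb.gen).sub_mem (hgood r hr1) hs)
    have m2 := (SS k pb.gen).smul_mem (r ^ 2) ((SS k pb.gen).sub_mem (hgood r' hr1') hs)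
    have m3 := (SS k pb.gen).sub_mem m1 m2
    have m4 := (SS k pb.gen).smul_mem (2 * r * r' * (r' - r))⁻¹ m3
    have hne : 2 * r * r' * (r' - r) ≠ 0 :=
      mul_ne_zero (mul_ne_zero (mul_ne_zero h2 hr0) hr0') (sub_ne_zero.mpr hrr')
    have e : (2 * r * r' * (r' - r))⁻¹ • (r' ^ 2 • ((1 + algebraMap k R r * v) ^ 2 * s - s) -
        r ^ 2 • ((1 + algebraMap k R r' * v) ^ 2 * s - s)) = v * s := by
      have e1 : r' ^ 2 • ((1 + algebraMap k R r * v) ^ 2 * s - s) -
        r ^ 2 • ((1 + algebraMap k R r' * v) ^ 2 * s - s) = (2 * r * r' * (r' - r)) • (v * s) := by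
        simp only [Algebra.smul_def, map_mul, map_sub, map_pow, map_ofNat]
        ring
      rw [e1, smul_smul, inv_mul_cancel₀ hne, one_smul]
    rw [e] at m4
    exact m4
  rw [eq_top_iff]
  intro v _
  have h1 : (1 : R) ∈ SS k pb.gen := by
    have := X2_mem_HS (k := k) pb.gen 1
    rw [map_one] at this
    exact this
  have := key v 1 h1
  rwa [mul_one] at this

end good

end Cfsg.Agent.H11.QP
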