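import Cfsg.Agent.H81.Dickson
import Cfsg.Agent.H11.QpInf

set_option autoImplicit false

/-! `⟨x(k), y(kλ)⟩ ⊇ x(F)` for finite `F = k(λ)`, `|k| > 3` odd. -/

namespace Cfsg.Agent.H11.QP

open Matrix LinearAlgebra.Projectivization Projectivization
open scoped Pointwise
open Cfsg.Agent.H81

theorem X2_eq_xx {F : Type*} [Field F] (a : F) : X2 a = xx a := rfl
theorem Y2_eq_yy {F : Type*} [Field F] (a : F) : Y2 a = yy a := rfl

theorem SS_eq_top_fin {k F : Type*} [Field k] [Field F] [Finite F] [Algebra k F] (h2 : (2 : k) ≠ 0)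
    (hk : 3 < Nat.card k) {lam : F} (hlam : lam ≠ 0) (hgen : Algebra.adjoin k {lam} = ⊤) : SS k lam = ⊤ := by
  classical
  obtain ⟨p, hpc⟩ := CharP.exists F
  have hpp : p.Prime := by
    rcases CharP.char_is_prime_or_zero F p with h | h
    · exact h
    · exfalso
      subst h
      have := CharP.charP_to_charZero F
      exact not_finite F
  haveI : Fact p.Prime := ⟨hpp⟩
  have h20 : (2 : F) ≠ 0 := by
    intro h
    apply h2
    apply (algebraMap k F).injective
    rw [map_ofNat, map_zero]; exact h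
  have hp2 : p ≠ 2 := by
    rintro rfl
    apply h20
    exact_mod_cast CharP.cast_eq_zero F 2
  set H := HS k lam with hH
  let G := pmH H
  have hm1 : m1 F ∈ G := m1_mem_pmH H
  have hx1 : xx (1 : F) ∈ G := by
    apply le_pmH H
    have := X2_mem_HS (k := k) lam 1
    rw [map_one] at this
    exact this
  have hylH : yy lam ∈ H := by
    have := Y2_mem_HS (k := k) lam 1
    rw [map_one, one_mul] at this
    exact this
  have hyl : yy lam ∈ G := le_pmH H hylH
  have hS0 : pt0 F ∈ SylPt G := sylPt_of_mem hx1 (mem_Tpt_pt0.2 ⟨1, rfl⟩) (xx_ne_one one_ne_zero)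
  have hS1 : ptz F 0 ∈ SylPt G := sylPt_of_mem hyl (mem_Tpt_ptz0 lam) (yy_ne_one hlam)
  have hN : 2 ≤ Nat.card (SylPt G) := by
    change 2 ≤ (SylPt G).ncard
    have h5 : ({pt0 F, ptz F 0} : Set (ℙ F (Fin 2 → F))).ncard = 2 := Set.ncard_pair (pt0_ne_ptz 0)
    refine h5.symm.le.trans (Set.ncard_le_ncard ?_ (Set.toFinite _))
    rintro x (rfl | rfl)
    · exact hS0
    · exact hS1
  let S : Set F := {z | ptz F z ∈ SylPt G}
  let A : Set F := {a | xx a ∈ G}
  have hSyl : SylPt G = insert (pt0 F) (ptz F '' S) := by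
    ext x
    constructor
    · intro hx
      rcases eq_pt0_or_ptz x with rfl | ⟨z, rfl⟩
      · left; rfl
      · right; exact ⟨z, hx, rfl⟩
    · rintro (rfl | ⟨z, hz, rfl⟩)
      · exact hS0
      · exact hz
  have hcardS : Nat.card (SylPt G) = S.ncard + 1 := by
    change (SylPt G).ncard = _
    rw [hSyl, Set.ncard_insert_of_notMem _ (Set.toFinite _), Set.ncard_image_of_injective _ ptz_injective]
    rintro ⟨z, _, hz⟩
    exact pt0_ne_ptz z hz.symm
  have hcardA : Nat.card (PG G (pt0 F)) = A.ncard := by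
    symm
    refine Nat.card_congr (Equiv.ofBijective (fun a : A => (⟨⟨xx a.1, a.2⟩, (mem_PG G).2 (mem_Tpt_pt0.2 ⟨a.1, rfl⟩)⟩ : PG G (pt0 F))) ⟨?_, ?_⟩)
    · intro a c hac
      apply Subtype.ext
      have h3 : (xx a.1 : SpecialLinearGroup (Fin 2) F) = xx c.1 := congrArg (fun z => z.1.1) hac
      exact xx_injective h3
    · rintro ⟨⟨g, hg⟩, hgP⟩
      obtain ⟨a, ha⟩ := mem_Tpt_pt0.1 ((mem_PG G).1 hgP)
      change g = xx a at ha
      subst ha
      exact ⟨⟨a, hg⟩, rfl⟩
  have hAH : ∀ a, a ∈ A ↔ a ∈ SS k lam := by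
    intro a
    constructor
    · intro ha
      exact mem_of_mem_pmH p hp2 H ha (mem_Tpt_pt0.2 ⟨_, rfl⟩)
    · intro ha
      exact le_pmH H ha
  have hkA : Nat.card k ≤ A.ncard := by
    have : Set.range (algebraMap k F) ⊆ A := by
      rintro _ ⟨c, rfl⟩
      exact le_pmH H (X2_mem_HS lam c)
    calc Nat.card k = (Set.range (algebraMap k F)).ncard := by
          rw [← Set.image_univ, Set.ncard_image_of_injective _ (algebraMap k F).injective, Set.ncard_univ]
      _ ≤ A.ncard := Set.ncard_le_ncard this (Set.toFinite _)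
  have hSadd : ∀ z a : F, z ∈ S → a ∈ A → z + a ∈ S := by
    intro z a hz ha
    have h3 := sylPt_smul G ⟨xx a, ha⟩ hz
    change xx a • ptz F z ∈ SylPt G at h3
    rw [xx_smul_ptz] at h3
    exact h3
  have h0S : (0 : F) ∈ S := hS1
  have hinv : lam⁻¹ ∈ S := by
    have h3 := sylPt_smul G ⟨yy lam, hyl⟩ hS0
    change yy lam • pt0 F ∈ SylPt G at h3
    rw [yy_smul_pt0 hlam] at h3
    exact h3
  have hAS : A ⊆ S := by
    intro a ha
    have := hSadd 0 a h0S ha
    rwa [zero_add] at this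
  have hAS' : A = S := by
    rcases dickson_count p G h20 hm1 hS0 hN with hc | ⟨hc3, hc10⟩
    · apply Set.eq_of_subset_of_ncard_le hAS _ (Set.toFinite _)
      rw [hcardS, hcardA] at hc
      omega
    · rw [hcardA] at hc3
      omega
  -- inversion
  have hinv' : ∀ z ∈ SS k lam, z ≠ 0 → lam⁻¹ ^ 2 * z⁻¹ ∈ SS k lam := by
    intro z hz hz0
    have hli : lam⁻¹ ∈ SS k lam := by rw [← hAH, hAS']; exact hinv
    have hzS : z ∈ S := by rw [← hAS', hAH]; exact hz
    have hm : xx (-lam⁻¹) ∈ G := by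
      have : -lam⁻¹ ∈ A := by rw [hAH]; exact neg_mem hli
      exact this
    have h3 := sylPt_smul G ⟨xx (-lam⁻¹), hm⟩ (x := ptz F z) hzS
    change xx (-lam⁻¹) • ptz F z ∈ SylPt G at h3
    rw [xx_smul_ptz] at h3
    have h4 := sylPt_smul G ⟨yy lam, hyl⟩ h3
    change yy lam • ptz F (z + -lam⁻¹) ∈ SylPt G at h4
    rw [yy_smul_ptz (w := (z - lam⁻¹) / (lam * z)) (by field_simp; ring)] at h4
    have h5 := sylPt_smul G ⟨xx (-lam⁻¹), hm⟩ h4
    change xx (-lam⁻¹) • ptz F ((z - lam⁻¹) / (lam * z)) ∈ SylPt G at h5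
    rw [xx_smul_ptz] at h5
    have h6 : (z - lam⁻¹) / (lam * z) + -lam⁻¹ = -(lam⁻¹ ^ 2 * z⁻¹) := by
      field_simp; ring
    rw [h6] at h5
    have h7 : -(lam⁻¹ ^ 2 * z⁻¹) ∈ SS k lam := by
      rw [← hAH, hAS']; exact h5
    have := neg_mem h7
    rwa [neg_neg] at this
  -- `B = λ A`
  let B : Submodule k F := (SS k lam).map (LinearMap.mulLeft k lam)
  have hB : ∀ b, b ∈ B ↔ lam⁻¹ * b ∈ SS k lam := by
    intro b
    constructor
    · rintro ⟨a, ha, rfl⟩
      rw [LinearMap.mulLeft_apply, ← mul_assoc, inv_mul_cancel₀ hlam, one_mul]; exact ha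
    · intro h
      exact ⟨_, h, by rw [LinearMap.mulLeft_apply, ← mul_assoc, mul_inv_cancel₀ hlam, one_mul]⟩
  have h1SS : (1 : F) ∈ SS k lam := by
    have := X2_mem_HS (k := k) lam 1
    rw [map_one] at this
    exact this
  have h1B : (1 : F) ∈ B := by
    rw [hB, mul_one, ← hAH, hAS']; exact hinv
  have hlB : lam ∈ B := by
    rw [hB, inv_mul_cancel₀ hlam]; exact h1SS
  have hBinv : ∀ b ∈ B, b⁻¹ ∈ B := by
    intro b hb
    by_cases hb0 : b = 0
    · rw [hb0, _root_.inv_zero]; exact zero_mem _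
    rw [hB] at hb ⊢
    have := hinv' _ hb (mul_ne_zero (inv_ne_zero hlam) hb0)
    have e : lam⁻¹ ^ 2 * (lam⁻¹ * b)⁻¹ = lam⁻¹ * b⁻¹ := by
      field_simp
    rwa [e] at this
  have hBsq : ∀ b ∈ B, b ^ 2 ∈ B := by
    intro b hb
    by_cases hb0 : b = 0
    · rw [hb0]; simp
    by_cases hb1 : b = 1
    · rw [hb1, _root_.one_pow]; exact h1B
    have hb1' : 1 - b ≠ 0 := sub_ne_zero.mpr (Ne.symm hb1)
    have h3 := hBinv _ (add_mem (hBinv _ hb) (hBinv _ (sub_mem h1B hb)))
    have e : (b⁻¹ + (1 - b)⁻¹)⁻¹ = b - b ^ 2 := by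
      have h4 : b⁻¹ + (1 - b)⁻¹ = (b * (1 - b))⁻¹ := by
        field_simp; ring
      rw [h4, inv_inv]; ring
    rw [e] at h3
    have := sub_mem hb h3
    rwa [sub_sub_cancel] at this
  have hBmul : ∀ a ∈ B, ∀ b ∈ B, a * b ∈ B := by
    intro a ha b hb
    have h3 := sub_mem (sub_mem (hBsq _ (add_mem ha hb)) (hBsq _ ha)) (hBsq _ hb)
    have h4 := B.smul_mem (2⁻¹ : k) h3
    have e : (2⁻¹ : k) • ((a + b) ^ 2 - a ^ 2 - b ^ 2) = a * b := by
      have e1 : (a + b) ^ 2 - a ^ 2 - b ^ 2 = (2 : k) • (a * b) := by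
        rw [Algebra.smul_def, map_ofNat]; ring
      rw [e1, smul_smul, inv_mul_cancel₀ h2, one_smul]
    rwa [e] at h4
  let BA : Subalgebra k F :=
    { carrier := B
      mul_mem' := fun ha hb => hBmul _ ha _ hb
      add_mem' := fun ha hb => add_mem ha hb
      algebraMap_mem' := fun r => by
        change algebraMap k F r ∈ B
        rw [Algebra.algebraMap_eq_smul_one]
        exact B.smul_mem _ h1B }
  have hBA : BA = ⊤ := by
    rw [eq_top_iff, ← hgen]
    apply Algebra.adjoin_le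
    rintro _ rfl
    exact hlB
  rw [eq_top_iff]
  intro s _
  have : lam * s ∈ BA := by rw [hBA]; trivial
  have h3 : lam * s ∈ B := this
  rw [hB, ← mul_assoc, inv_mul_cancel₀ hlam, one_mul] at h3
  exact h3

/-- from `x(F)` to everything -/
theorem HS_eq_top {k F : Type*} [Field k] [Field F] [Algebra k F] {lam : F} (hlam : lam ≠ 0)
    (h : SS k lam = ⊤) : HS k lam = ⊤ := by
  have hx : ∀ s : F, X2 s ∈ HS k lam := fun s => by
    have : s ∈ SS k lam := by rw [h]; trivial
    exact this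
  have hyl : Y2 lam ∈ HS k lam := by
    have := Y2_mem_HS (k := k) lam 1
    rw [map_one, one_mul] at this
    exact this
  have hy : ∀ s : F, Y2 s ∈ HS k lam := by
    intro s
    set w := X2 (-lam⁻¹) * Y2 lam * X2 (-lam⁻¹) with hw
    have hwm : w ∈ HS k lam := mul_mem (mul_mem (hx _) hyl) (hx _)
    have e : Y2 s = w * X2 (-(lam⁻¹ ^ 2 * s)) * w⁻¹ := by
      apply sl2_ext <;> simp only [hw] <;> sl2_simp <;> field_simp <;> ring
    rw [e]
    exact mul_mem (mul_mem hwm (hx _)) (inv_mem hwm)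
  rw [eq_top_iff]
  intro M _
  refine SL2.transvection_induction (fun M => M ∈ HS k lam) ?_ (fun A B hA hB => mul_mem hA hB) M
  intro i j hij c
  fin_cases i <;> fin_cases j
  · exact absurd rfl hij
  · have : SpecialLinearGroup.transvection hij c = X2 c := by
      apply sl2_ext <;> simp [SpecialLinearGroup.transvection, Matrix.transvection, Matrix.single, X2_val]
    rw [this]; exact hx c
  · have : SpecialLinearGroup.transvection hij c = Y2 c := by
      apply sl2_ext <;> simp [SpecialLinearGroup.transvection, Matrix.transvection, Matrix.single, Y2_val]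
    rw [this]; exact hy c
  · exact absurd rfl hij

end Cfsg.Agent.H11.QP
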