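import Cfsg.Agent.H11.QpSL

set_option autoImplicit false
set_option linter.style.haveILetI false
set_option linter.unnecessarySeqFocus false

/-! finite `R = k[λ]`: elements `x(s)` in `⟨x(k), y(kλ)⟩`. -/

namespace Cfsg.Agent.H11.QP

open Matrix

section general

theorem X2_pow {R : Type*} [CommRing R] (a : R) (n : ℕ) : X2 a ^ n = X2 (n * a) := by
  induction n with
  | zero => rw [pow_zero, Nat.cast_zero, zero_mul, X2_zero]
  | succ n ih => rw [pow_succ, ih, X2_mul]; congr 1; push_cast; ring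

theorem Y2_pow {R : Type*} [CommRing R] (a : R) (n : ℕ) : Y2 a ^ n = Y2 (n * a) := by
  induction n with
  | zero => rw [pow_zero, Nat.cast_zero, zero_mul, Y2_zero]
  | succ n ih => rw [pow_succ, ih, Y2_mul]; congr 1; push_cast; ring

theorem X2_inj {R : Type*} [CommRing R] {a b : R} (h : X2 a = X2 b) : a = b := by
  have := congrArg (fun g : SpecialLinearGroup (Fin 2) R => g.1 0 1) h
  exact this

theorem Y2_inj {R : Type*} [CommRing R] {a b : R} (h : Y2 a = Y2 b) : a = b := by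
  have := congrArg (fun g : SpecialLinearGroup (Fin 2) R => g.1 1 0) h
  exact this

theorem comm_X2_one {R : Type*} [CommRing R] {g : SpecialLinearGroup (Fin 2) R} (h : X2 1 * g = g * X2 1) :
    g.1 1 0 = 0 ∧ g.1 0 0 = g.1 1 1 := by
  have h1 := congrArg (fun g : SpecialLinearGroup (Fin 2) R => g.1 0 0) h
  have h2 := congrArg (fun g : SpecialLinearGroup (Fin 2) R => g.1 0 1) h
  simp only [mul00, mul01, X2_00, X2_01, X2_10, X2_11] at h1 h2
  constructor
  · linear_combination h1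
  · linear_combination -h2

theorem sq_of_comm_X2_one {R : Type*} [CommRing R] {g : SpecialLinearGroup (Fin 2) R}
    (h : X2 1 * g = g * X2 1) : g ^ 2 = X2 (2 * g.1 0 0 * g.1 0 1) := by
  obtain ⟨h1, h2⟩ := comm_X2_one h
  have hd := det2 g
  rw [pow_two]
  apply sl2_ext <;> sl2_simp
  · linear_combination hd + g.1 0 0 * h2 + 2 * g.1 0 1 * h1
  · linear_combination -g.1 0 1 * h2
  · linear_combination (g.1 0 0 + g.1 1 1) * h1
  · linear_combination hd - g.1 1 1 * h2 + 2 * g.1 0 1 * h1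

theorem exists_X2_mem {R : Type*} [CommRing R] [Finite R] (p : ℕ) [Fact p.Prime] (hp2 : p ≠ 2) [CharP R p]
    (L : Subgroup (SpecialLinearGroup (Fin 2) R)) (hn : ∀ l ∈ L, X2 1 * l * (X2 1)⁻¹ ∈ L)
    (hdvd : p ∣ Nat.card L) : ∃ s : R, s ≠ 0 ∧ X2 s ∈ L := by
  classical
  haveI := Fintype.ofFinite L
  have hpow : (X2 (1 : R)) ^ p = 1 := by
    rw [X2_pow, CharP.cast_eq_zero, zero_mul, X2_zero]
  have hn' : ∀ l ∈ L, (X2 1)⁻¹ * l * X2 1 ∈ L := by
    intro l hl
    have h1 : ∀ n : ℕ, (X2 1) ^ n * l * ((X2 1) ^ n)⁻¹ ∈ L := by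
      intro n
      induction n with
      | zero => simpa using hl
      | succ n ih =>
        have := hn _ ih
        have e : X2 1 * (X2 1 ^ n * l * (X2 1 ^ n)⁻¹) * (X2 1)⁻¹ = X2 (1 : R) ^ (n + 1) * l * (X2 1 ^ (n + 1))⁻¹ := by
          rw [pow_succ']; group
        rwa [e] at this
    have hinv : (X2 (1 : R))⁻¹ = X2 1 ^ (p - 1) := by
      rw [inv_eq_iff_mul_eq_one, ← pow_succ']
      have : p - 1 + 1 = p := Nat.sub_add_cancel (Fact.out : p.Prime).one_lt.le
      rw [this, hpow]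
    have := h1 (p - 1)
    rw [← hinv, inv_inv] at this
    exact this
  let σ : Equiv.Perm L :=
    { toFun := fun l => ⟨X2 1 * l.1 * (X2 1)⁻¹, hn _ l.2⟩
      invFun := fun l => ⟨(X2 1)⁻¹ * l.1 * X2 1, hn' _ l.2⟩
      left_inv := fun l => Subtype.ext (by change (X2 1)⁻¹ * (X2 1 * l.1 * (X2 1)⁻¹) * X2 1 = l.1; group)
      right_inv := fun l => Subtype.ext (by change X2 1 * ((X2 1)⁻¹ * l.1 * X2 1) * (X2 1)⁻¹ = l.1; group) }
  have hσn : ∀ (n : ℕ) (l : L), ((σ ^ n) l).1 = X2 1 ^ n * l.1 * (X2 1 ^ n)⁻¹ := by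
    intro n
    induction n with
    | zero => intro l; simp
    | succ n ih =>
      intro l
      rw [pow_succ', Equiv.Perm.mul_apply]
      change X2 1 * ((σ ^ n) l).1 * (X2 1)⁻¹ = _
      rw [ih, pow_succ']; group
  have hσ : σ ^ p ^ 1 = 1 := by
    rw [pow_one]
    ext1 l
    apply Subtype.ext
    rw [hσn, hpow]; simp
  have hmod := Equiv.Perm.card_compl_support_modEq (p := p) (n := 1) hσ
  -- the centraliser
  let C : Subgroup L := (Subgroup.centralizer {X2 (1 : R)}).subgroupOf L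
  have hC : Nat.card C = (σ.supportᶜ).card := by
    rw [Nat.card_eq_fintype_card]
    refine Fintype.card_of_subtype σ.supportᶜ ?_ |>.trans ?_
    · intro l
      rw [Finset.mem_compl, Equiv.Perm.mem_support, not_not]
      constructor
      · intro h
        change l.1 ∈ Subgroup.centralizer {X2 (1 : R)}
        rw [Subgroup.mem_centralizer_singleton_iff]
        have h1 : X2 1 * l.1 * (X2 1)⁻¹ = l.1 := congrArg Subtype.val h
        rw [mul_inv_eq_iff_eq_mul] at h1
        exact h1.symm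
      · intro h
        have h1 : l.1 ∈ Subgroup.centralizer {X2 (1 : R)} := h
        rw [Subgroup.mem_centralizer_singleton_iff] at h1
        apply Subtype.ext
        change X2 1 * l.1 * (X2 1)⁻¹ = l.1
        rw [mul_inv_eq_iff_eq_mul]; exact h1.symm
    · rfl
  have hpC : p ∣ Nat.card C := by
    rw [hC]
    have h1 : p ∣ Fintype.card L := by rw [← Nat.card_eq_fintype_card]; exact hdvd
    exact (Nat.modEq_zero_iff_dvd.mp (hmod.trans (Nat.modEq_zero_iff_dvd.mpr h1)))
  haveI : Finite C := inferInstance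
  obtain ⟨c, hc⟩ := exists_prime_orderOf_dvd_card' p hpC
  have hcomm : X2 1 * c.1.1 = c.1.1 * X2 1 := by
    have h1 : c.1.1 ∈ Subgroup.centralizer {X2 (1 : R)} := c.2
    rw [Subgroup.mem_centralizer_singleton_iff] at h1
    exact h1.symm
  refine ⟨2 * c.1.1.1 0 0 * c.1.1.1 0 1, ?_, ?_⟩
  · intro h0
    have h1 := sq_of_comm_X2_one hcomm
    rw [h0, X2_zero] at h1
    have h2 : c ^ 2 = 1 := Subtype.ext (Subtype.ext h1)
    have h3 := orderOf_dvd_of_pow_eq_one h2
    rw [hc, Nat.dvd_prime Nat.prime_two] at h3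
    rcases h3 with h3 | h3
    · exact (Fact.out : p.Prime).one_lt.ne' h3
    · exact hp2 h3
  · rw [← sq_of_comm_X2_one hcomm]
    exact pow_mem c.1.2 2

/-- fixed points in a coset of a `p'`-kernel -/
theorem coset_fix {Γ Q : Type*} [Group Γ] [Finite Γ] [Group Q] (f : Γ →* Q) (p : ℕ) [Fact p.Prime]
    (hN : ¬ p ∣ Nat.card f.ker) (u v : Γ) (hu : u ^ p = 1) (hv : v ^ p = 1) (x0 : Γ)
    (hcomm : f u * f x0 = f x0 * f v) : ∃ x, f x = f x0 ∧ u * x = x * v := by
  classical
  haveI := Fintype.ofFinite Γ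
  let Ω := {x : Γ // f x = f x0}
  haveI : Fintype Ω := inferInstance
  have hcard : Fintype.card Ω = Nat.card f.ker := by
    rw [← Nat.card_eq_fintype_card]
    refine Nat.card_congr
      { toFun := fun x => ⟨x.1 * x0⁻¹, by rw [MonoidHom.mem_ker, map_mul, map_inv, x.2, mul_inv_cancel]⟩
        invFun := fun n => ⟨n.1 * x0, by
          have := n.2
          rw [MonoidHom.mem_ker] at this
          rw [map_mul, this, one_mul]⟩
        left_inv := fun x => Subtype.ext (by simp)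
        right_inv := fun n => Subtype.ext (by simp) }
  have hσmem : ∀ x : Γ, f x = f x0 → f (u * x * v⁻¹) = f x0 := by
    intro x hx
    rw [map_mul, map_mul, map_inv, hx, hcomm, mul_inv_cancel_right]
  have hσmem' : ∀ x : Γ, f x = f x0 → f (u⁻¹ * x * v) = f x0 := by
    intro x hx
    rw [map_mul, map_mul, map_inv, hx, mul_assoc, ← hcomm, inv_mul_cancel_left]
  let σ : Equiv.Perm Ω :=
    { toFun := fun x => ⟨u * x.1 * v⁻¹, hσmem _ x.2⟩
      invFun := fun x => ⟨u⁻¹ * x.1 * v, hσmem' _ x.2⟩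
      left_inv := fun x => Subtype.ext (by change u⁻¹ * (u * x.1 * v⁻¹) * v = x.1; group)
      right_inv := fun x => Subtype.ext (by change u * (u⁻¹ * x.1 * v) * v⁻¹ = x.1; group) }
  have hσn : ∀ (n : ℕ) (x : Ω), ((σ ^ n) x).1 = u ^ n * x.1 * (v ^ n)⁻¹ := by
    intro n
    induction n with
    | zero => intro x; simp
    | succ n ih =>
      intro x
      rw [pow_succ', Equiv.Perm.mul_apply]
      change u * ((σ ^ n) x).1 * v⁻¹ = _
      rw [ih, pow_succ', pow_succ']
      have : (v * v ^ n)⁻¹ = (v ^ n)⁻¹ * v⁻¹ := mul_inv_rev _ _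
      rw [this]
      simp only [mul_assoc]
  have hσ : σ ^ p ^ 1 = 1 := by
    rw [pow_one]
    ext1 x
    apply Subtype.ext
    rw [hσn, hu, hv]; simp
  obtain ⟨x, hx⟩ := Equiv.Perm.exists_fixed_point_of_prime (p := p) (n := 1) (by rw [hcard]; exact hN) hσ
  refine ⟨x.1, x.2, ?_⟩
  have h1 : u * x.1 * v⁻¹ = x.1 := congrArg Subtype.val hx
  rw [mul_inv_eq_iff_eq_mul] at h1
  exact h1

end general

section maps
variable {k R R' : Type*} [Field k] [CommRing R] [CommRing R'] [Algebra k R] [Algebra k R']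

/-- the induced map on `SL₂` -/
def mp (f : R →ₐ[k] R') : SpecialLinearGroup (Fin 2) R →* SpecialLinearGroup (Fin 2) R' :=
  Matrix.SpecialLinearGroup.map (f : R →+* R')

theorem mp_val (f : R →ₐ[k] R') (g : SpecialLinearGroup (Fin 2) R) (i j : Fin 2) : (mp f g).1 i j = f (g.1 i j) :=
  rfl

theorem mp_X2 (f : R →ₐ[k] R') (a : R) : mp f (X2 a) = X2 (f a) := by
  apply sl2_ext <;> rw [mp_val]
  · exact map_one f
  · rfl
  · exact map_zero f
  · exact map_one f

theorem mp_Y2 (f : R →ₐ[k] R') (a : R) : mp f (Y2 a) = Y2 (f a) := by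
  apply sl2_ext <;> rw [mp_val]
  · exact map_one f
  · exact map_zero f
  · rfl
  · exact map_one f

theorem HS_map (f : R →ₐ[k] R') (lam : R) : (HS k lam).map (mp f) = HS k (f lam) := by
  unfold HS
  rw [MonoidHom.map_closure]
  congr 1
  ext g
  constructor
  · rintro ⟨_, (⟨c, rfl⟩ | ⟨c, rfl⟩), rfl⟩
    · left; exact ⟨c, by rw [mp_X2, AlgHom.commutes]⟩
    · right; exact ⟨c, by rw [mp_Y2, map_mul, AlgHom.commutes]⟩
  · rintro (⟨c, rfl⟩ | ⟨c, rfl⟩)
    · exact ⟨_, Or.inl ⟨c, rfl⟩, by rw [mp_X2, AlgHom.commutes]⟩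
    · exact ⟨_, Or.inr ⟨c, rfl⟩, by rw [mp_Y2, map_mul, AlgHom.commutes]⟩

theorem mem_HS_map (f : R →ₐ[k] R') {lam : R} {g : SpecialLinearGroup (Fin 2) R} (hg : g ∈ HS k lam) :
    mp f g ∈ HS k (f lam) := by
  rw [← HS_map]; exact ⟨g, hg, rfl⟩

end maps

section PB
theorem exists_powerBasis {k R : Type*} [Field k] [CommRing R] [Algebra k R] {x : R} (hint : IsIntegral k x)
    (hgen : Algebra.adjoin k {x} = ⊤) : ∃ pb : PowerBasis k R, pb.gen = x := by
  let e : (Algebra.adjoin k {x}) ≃ₐ[k] R := (Subalgebra.equivOfEq _ _ hgen).trans Subalgebra.topEquiv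
  exact ⟨(Algebra.adjoin.powerBasis hint).map e, rfl⟩
end PB

/-- normal `p'`-subgroups of `SL₂(K)` are central -/
theorem le_center_of_normal {K : Type*} [Field K] [Finite K] (hK : 4 ≤ Nat.card K) (p : ℕ) [Fact p.Prime]
    (hp2 : p ≠ 2) [CharP K p] (N : Subgroup (SpecialLinearGroup (Fin 2) K)) (hN : N.Normal)
    (hcard : ¬ p ∣ Nat.card N) : N ≤ Subgroup.center (SpecialLinearGroup (Fin 2) K) := by
  haveI hs := Matrix.ProjectiveSpecialLinearGroup.rank_two_simple (F := K) hK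
  let q : SpecialLinearGroup (Fin 2) K →* Matrix.ProjectiveSpecialLinearGroup (Fin 2) K :=
    QuotientGroup.mk' (Subgroup.center (SpecialLinearGroup (Fin 2) K))
  have hqs : Function.Surjective q := QuotientGroup.mk'_surjective _
  have hqk : q.ker = Subgroup.center (SpecialLinearGroup (Fin 2) K) := QuotientGroup.ker_mk' _
  rcases Subgroup.Normal.eq_bot_or_eq_top (hN.map q hqs) with h | h
  · intro n hn
    rw [← hqk, MonoidHom.mem_ker]
    have : q n ∈ N.map q := ⟨n, hn, rfl⟩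
    rw [h, Subgroup.mem_bot] at this
    exact this
  · exfalso
    have h1 : q (X2 1) ∈ N.map q := by rw [h]; trivial
    obtain ⟨n, hn, hnq⟩ := h1
    have hz : n⁻¹ * X2 1 ∈ Subgroup.center (SpecialLinearGroup (Fin 2) K) := by
      rw [← hqk, MonoidHom.mem_ker, map_mul, map_inv, hnq, inv_mul_cancel]
    set z := n⁻¹ * X2 1 with hz'
    have hX : X2 (1 : K) = n * z := by rw [hz']; group
    have hzc : ∀ g, g * z = z * g := fun g => (Subgroup.mem_center_iff.mp hz g)
    have hz2 : z ^ 2 = 1 := by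
      have a1 := comm_X2_one (hzc (X2 1))
      have a2 := sq_of_comm_X2_one (hzc (X2 1))
      have a3 := congrArg (fun g : SpecialLinearGroup (Fin 2) K => g.1 0 0) (hzc (Y2 1))
      simp only [mul00, Y2_00, Y2_01, Y2_10] at a3
      have a4 : z.1 0 1 = 0 := by linear_combination -a3
      rw [a2, a4, mul_zero, X2_zero]
    have h2 : X2 (2 : K) ∈ N := by
      have e : X2 (2 : K) = n ^ 2 := by
        have hc : Commute n z := hzc n
        have h5 := hc.mul_pow 2
        rw [← hX, X2_pow, hz2] at h5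
        have h6 : ((2 : ℕ) : K) * 1 = 2 := by norm_num
        rw [h6] at h5
        exact h5.trans (mul_one _)
      rw [e]; exact pow_mem hn 2
    have h20 : (2 : K) ≠ 0 := by
      intro h0
      have : ((2 : ℕ) : K) = 0 := by exact_mod_cast h0
      rw [CharP.cast_eq_zero_iff K p] at this
      exact hp2 ((Nat.prime_dvd_prime_iff_eq Fact.out Nat.prime_two).mp this)
    have h3 : orderOf (⟨X2 2, h2⟩ : N) = p := by
      apply orderOf_eq_prime
      · apply Subtype.ext
        change (X2 (2 : K)) ^ p = 1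
        rw [X2_pow, CharP.cast_eq_zero, zero_mul, X2_zero]
      · intro h0
        have h4 : X2 (2 : K) = X2 0 := by rw [X2_zero]; exact congrArg Subtype.val h0
        exact h20 (X2_inj h4)
    apply hcard
    rw [← h3]
    exact orderOf_dvd_natCard _


section claims
variable {k : Type*} [Field k]

theorem char_facts [Finite k] (h2 : (2 : k) ≠ 0) (R : Type*) [CommRing R] [Nontrivial R] [Algebra k R] :
    ∃ p : ℕ, p.Prime ∧ p ≠ 2 ∧ CharP k p ∧ CharP R p := by
  obtain ⟨p, hpc⟩ := CharP.exists k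
  have hpp : p.Prime := by
    rcases CharP.char_is_prime_or_zero k p with h | h
    · exact h
    · exfalso
      subst h
      have := CharP.charP_to_charZero k
      exact not_finite k
  refine ⟨p, hpp, ?_, hpc, ?_⟩
  · rintro rfl
    apply h2
    exact_mod_cast CharP.cast_eq_zero k 2
  · exact (RingHom.charP_iff (algebraMap k R) (FaithfulSMul.algebraMap_injective k R) p).mp hpc

/-- the group `⟨x(k), y(kλ)⟩` maps onto `SL₂(K)` -/
theorem HS_map_top [Finite k] (h2 : (2 : k) ≠ 0) (hk : 3 < Nat.card k) {R K : Type*} [CommRing R] [Field K]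
    [Algebra k R] [Algebra k K] [Finite K] (π : R →ₐ[k] K) {lam : R} (hπ : π lam ≠ 0)
    (hgen : Algebra.adjoin k {π lam} = ⊤) : (HS k lam).map (mp π) = ⊤ := by
  rw [HS_map]
  exact HS_eq_top hπ (SS_eq_top_fin h2 hk hπ hgen)

/-- Claim 1 -/
theorem exists_SS_of_nilpotent [Finite k] (h2 : (2 : k) ≠ 0) (hk : 3 < Nat.card k) {R K R0 : Type*} [CommRing R]
    [Finite R] [Field K] [Finite K] [CommRing R0] [Nontrivial R] [Algebra k R] [Algebra k K] [Algebra k R0]
    (π : R →ₐ[k] K) (ρ : R →ₐ[k] R0) {lam : R} (hπ : π lam ≠ 0) (hgen : Algebra.adjoin k {π lam} = ⊤)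
    (hρ : IsNilpotent (ρ lam)) : ∃ s ∈ SS k lam, s ≠ 0 ∧ ρ s = 0 := by
  classical
  obtain ⟨p, hpp, hp2, hpk, hpR⟩ := char_facts h2 R
  haveI : Fact p.Prime := ⟨hpp⟩
  have htop := HS_map_top h2 hk π hπ hgen
  -- `R0` trivial is harmless
  rcases subsingleton_or_nontrivial R0 with hR0 | hR0
  · refine ⟨1, ?_, one_ne_zero, Subsingleton.elim _ _⟩
    have := X2_mem_HS (k := k) lam 1
    rw [map_one] at this
    exact this
  haveI : CharP R0 p := (RingHom.charP_iff (algebraMap k R0) (FaithfulSMul.algebraMap_injective k R0) p).mp hpk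
  haveI : CharP K p := (RingHom.charP_iff (algebraMap k K) (FaithfulSMul.algebraMap_injective k K) p).mp hpk
  -- every element of `HS (ρ λ)` has `p`-power order
  obtain ⟨m, hm⟩ := hρ
  have hpow : ∀ g ∈ HS k lam, (mp ρ g) ^ (p * p ^ m) = 1 := by
    intro g hg
    have hg' := mem_HS_map ρ hg
    -- entries mod `ρ λ`
    have hent : ∀ g ∈ HS k (ρ lam), ∃ a b c d : R0, g.1 0 0 = 1 + ρ lam * a ∧ g.1 1 0 = ρ lam * b ∧
        g.1 1 1 = 1 + ρ lam * c ∧ g.1 0 1 = d := by
      intro g hg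
      refine Subgroup.closure_induction (p := fun (g : SpecialLinearGroup (Fin 2) R0) _ =>
        ∃ a b c d : R0, g.1 0 0 = 1 + ρ lam * a ∧ g.1 1 0 = ρ lam * b ∧
        g.1 1 1 = 1 + ρ lam * c ∧ g.1 0 1 = d) ?_ ?_ ?_ ?_ hg
      · rintro g (⟨c, rfl⟩ | ⟨c, rfl⟩)
        · exact ⟨0, 0, 0, _, by rw [X2_00]; ring, by rw [X2_10]; ring, by rw [X2_11]; ring, rfl⟩
        · exact ⟨0, algebraMap k R0 c, 0, _, by rw [Y2_00]; ring, by rw [Y2_10]; ring, by rw [Y2_11]; ring, rfl⟩
      · exact ⟨0, 0, 0, _, by rw [one_00]; ring, by rw [one_10]; ring, by rw [one_11]; ring, rfl⟩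
      · rintro g h _ _ ⟨a, b, c, d, h1, h2, h3, h4⟩ ⟨a', b', c', d', h1', h2', h3', h4'⟩
        refine ⟨a + a' + ρ lam * a * a' + d * b', b * (1 + ρ lam * a') + (1 + ρ lam * c) * b',
          c + c' + ρ lam * c * c' + b * d', _, ?_, ?_, ?_, rfl⟩
        · rw [mul00, h1, h4, h1', h2']; ring
        · rw [mul10, h2, h3, h1', h2']; ring
        · rw [mul11, h2, h3, h3', h4']; ring
      · rintro g _ ⟨a, b, c, d, h1, h2, h3, h4⟩
        exact ⟨c, -b, a, _, by rw [inv00, h3], by rw [inv10, h2]; ring, by rw [inv11, h1], rfl⟩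
    obtain ⟨a, b, c, d, h1, h2', h3, h4⟩ := hent _ (pow_mem hg' p)
    -- the (0,1) entry of the `p`-th power
    have hg01 : ∃ e, ((mp ρ g) ^ p).1 0 1 = ρ lam * e := by
      have key : ∀ n : ℕ, ∃ e, ((mp ρ g) ^ n).1 0 1 = n * (mp ρ g).1 0 1 + ρ lam * e := by
        intro n
        obtain ⟨a', b', c', d', h1', h2'', h3', h4'⟩ := hent _ hg'
        induction n with
        | zero => exact ⟨0, by rw [pow_zero, one_01, Nat.cast_zero]; ring⟩
        | succ n ih =>
          obtain ⟨e, he⟩ := ih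
          obtain ⟨a'', b'', c'', d'', k1, k2, k3, k4⟩ := hent _ (pow_mem hg' n)
          refine ⟨a'' * (mp ρ g).1 0 1 + e + c' * (n * (mp ρ g).1 0 1 + ρ lam * e), ?_⟩
          rw [pow_succ, mul01, k1, he, h3']
          push_cast; ring
      obtain ⟨e, he⟩ := key p
      rw [CharP.cast_eq_zero, zero_mul, zero_add] at he
      exact ⟨e, he⟩
    obtain ⟨e, he⟩ := hg01
    let B : Matrix (Fin 2) (Fin 2) R0 := !![a, e; b, c]
    have hB : ((mp ρ g) ^ p).1 = 1 + ρ lam • B := by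
      ext i j
      fin_cases i <;> fin_cases j <;> simp [B, h1, h2', h3, he]
    have hB2 : (((mp ρ g) ^ p).1) ^ (p ^ m) = 1 := by
      rw [hB]
      have hc : Commute (1 : Matrix (Fin 2) (Fin 2) R0) (ρ lam • B) := Commute.one_left _
      rw [add_pow_char_pow_of_commute (p := p) (n := m) hc, one_pow, smul_pow]
      have hle : m ≤ p ^ m := (Nat.lt_pow_self hpp.one_lt).le
      have : ρ lam ^ (p ^ m) = 0 := by
        rw [← Nat.add_sub_cancel' hle, pow_add, hm, zero_mul]
      rw [this, zero_smul, add_zero]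
    rw [pow_mul]
    apply Subtype.ext
    rw [Matrix.SpecialLinearGroup.coe_pow]
    exact hB2
  -- the subgroup `L`
  let L : Subgroup (SpecialLinearGroup (Fin 2) R) := HS k lam ⊓ (mp ρ).ker
  have hX1 : X2 (1 : R) ∈ HS k lam := by
    have := X2_mem_HS (k := k) lam 1
    rwa [map_one] at this
  obtain ⟨d, hd0, hd2⟩ : ∃ d : K, d ≠ 0 ∧ d ^ 2 ≠ 1 := by
    by_contra hcon
    push Not at hcon
    haveI := Fintype.ofFinite k
    have hsub : (Set.univ : Set k) ⊆ {0, 1, -1} := by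
      intro x _
      by_cases hx : x = 0
      · left; exact hx
      right
      have h3 := hcon (algebraMap k K x) ((map_ne_zero _).mpr hx)
      rw [← map_pow, ← map_one (algebraMap k K)] at h3
      have h4 : x ^ 2 = 1 := (algebraMap k K).injective h3
      have h5 : (x - 1) * (x + 1) = 0 := by linear_combination h4
      rcases mul_eq_zero.mp h5 with h5 | h5
      · left; linear_combination h5
      · right; change x = -1; linear_combination h5
    have h6 := Set.ncard_le_ncard hsub (Set.toFinite _)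
    rw [Set.ncard_univ] at h6
    have h7 : ({0, 1, -1} : Set k).ncard ≤ 3 := by
      refine (Set.ncard_insert_le _ _).trans ?_
      have := Set.ncard_insert_le (1 : k) {-1}
      rw [Set.ncard_singleton] at this
      omega
    omega
  obtain ⟨g, hg, hgd⟩ : ∃ g ∈ HS k lam, mp π g = ⟨!![d, 0; 0, d⁻¹], by
      rw [Matrix.det_fin_two_of, mul_inv_cancel₀ hd0]; ring⟩ := by
    have : (⟨!![d, 0; 0, d⁻¹], by
      rw [Matrix.det_fin_two_of, mul_inv_cancel₀ hd0]; ring⟩ : SpecialLinearGroup (Fin 2) K) ∈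
      (HS k lam).map (mp π) := by rw [htop]; trivial
    exact this
  set n := p * p ^ m with hn
  have hLmem : ∀ x, x ∈ L ↔ x ∈ HS k lam ∧ mp ρ x = 1 := fun x => by
    rw [← MonoidHom.mem_ker]; exact Subgroup.mem_inf
  have hgn : g ^ n ∈ L := (hLmem _).mpr ⟨pow_mem hg n, by rw [map_pow]; exact hpow g hg⟩
  have hgpow : ∀ j : ℕ, ((mp π g) ^ j).1 0 0 = d ^ j ∧ ((mp π g) ^ j).1 0 1 = 0 ∧ ((mp π g) ^ j).1 1 0 = 0 ∧
      ((mp π g) ^ j).1 1 1 = d⁻¹ ^ j := by
    intro j
    induction j with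
    | zero => rw [pow_zero]; exact ⟨by rw [one_00, pow_zero], one_01, one_10, by rw [one_11, pow_zero]⟩
    | succ j ih =>
      obtain ⟨i1, i2, i3, i4⟩ := ih
      have j1 : (mp π g).1 0 0 = d := by rw [hgd]; rfl
      have j2 : (mp π g).1 0 1 = 0 := by rw [hgd]; rfl
      have j3 : (mp π g).1 1 0 = 0 := by rw [hgd]; rfl
      have j4 : (mp π g).1 1 1 = d⁻¹ := by rw [hgd]; rfl
      rw [pow_succ]
      refine ⟨?_, ?_, ?_, ?_⟩
      · rw [mul00, i1, i2, j1, j3, pow_succ]; ring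
      · rw [mul01, i1, i2, j2, j4]; ring
      · rw [mul10, i3, i4, j1, j3]; ring
      · rw [mul11, i3, i4, j2, j4, pow_succ]; ring
  obtain ⟨gn, hgn'⟩ : ∃ gn, gn = g ^ n := ⟨_, rfl⟩
  have hgnπ : ∃ e : K, e ≠ 0 ∧ (mp π gn).1 0 0 = e ∧ (mp π gn).1 0 1 = 0 ∧ (mp π gn).1 1 0 = 0 ∧
      (mp π gn).1 1 1 = e⁻¹ ∧ e ^ 2 ≠ 1 := by
    obtain ⟨i1, i2, i3, i4⟩ := hgpow n
    refine ⟨d ^ n, pow_ne_zero _ hd0, ?_, ?_, ?_, ?_, ?_⟩
    · rw [hgn', map_pow]; exact i1
    · rw [hgn', map_pow]; exact i2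
    · rw [hgn', map_pow]; exact i3
    · rw [hgn', map_pow, i4, inv_pow]
    · intro h1
      apply hd2
      have h3 : (d ^ 2) ^ n = 1 := by rw [← pow_mul, mul_comm, pow_mul]; exact h1
      have h4 : n = p ^ (m + 1) := by rw [hn, pow_succ, mul_comm]
      rw [h4] at h3
      have h5 : (d ^ 2 - 1) ^ (p ^ (m + 1)) = 0 := by
        rw [sub_pow_char_pow, h3, one_pow, sub_self]
      have h6 := eq_zero_of_pow_eq_zero h5
      linear_combination h6
  rw [← hgn'] at hgn
  obtain ⟨e, he0, i1, i2, i3, i4, he2⟩ := hgnπ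
  obtain ⟨l, hl⟩ : ∃ l, l = gn * X2 1 * gn⁻¹ * (X2 (1 : R))⁻¹ := ⟨_, rfl⟩
  obtain ⟨hgnH, hgnρ⟩ := (hLmem _).mp hgn
  have hlL : l ∈ L := by
    rw [hLmem]
    refine ⟨?_, ?_⟩
    · rw [hl]; exact mul_mem (mul_mem (mul_mem hgnH hX1) (inv_mem hgnH)) (inv_mem hX1)
    · rw [hl, map_mul, map_mul, map_mul, map_inv, map_inv, hgnρ, inv_one, mul_one, one_mul, mul_inv_cancel]
  have hlπ : mp π l = X2 (e ^ 2 - 1) := by
    rw [hl, map_mul, map_mul, map_mul, map_inv, map_inv, mp_X2, map_one]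
    have hee : e * e⁻¹ = 1 := mul_inv_cancel₀ he0
    apply sl2_ext <;> sl2_simp <;> simp only [i1, i2, i3, i4]
    · linear_combination hee
    · linear_combination -hee
    · ring
    · linear_combination hee
  have hord : p ∣ Nat.card L := by
    have h1 : orderOf (mp π l) = p := by
      rw [hlπ]
      apply orderOf_eq_prime
      · rw [X2_pow, CharP.cast_eq_zero, zero_mul, X2_zero]
      · intro h0
        rw [← X2_zero] at h0
        exact he2 (by linear_combination X2_inj h0)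
    have h3 : orderOf (⟨l, hlL⟩ : L) = orderOf l := Subgroup.orderOf_mk _ _
    calc p = orderOf (mp π l) := h1.symm
      _ ∣ orderOf l := orderOf_map_dvd _ _
      _ = orderOf (⟨l, hlL⟩ : L) := h3.symm
      _ ∣ Nat.card L := orderOf_dvd_natCard _
  obtain ⟨s, hs0, hsL⟩ := exists_X2_mem p hp2 L (by
    intro x hx
    rw [hLmem] at hx ⊢
    refine ⟨mul_mem (mul_mem hX1 hx.1) (inv_mem hX1), ?_⟩
    rw [map_mul, map_mul, map_inv, hx.2, mul_one, mul_inv_cancel]) hord
  rw [hLmem] at hsL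
  refine ⟨s, hsL.1, hs0, ?_⟩
  have := hsL.2
  rw [mp_X2, ← X2_zero] at this
  exact X2_inj this

end claims

end Cfsg.Agent.H11.QP
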