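import Cfsg.Agent.H11.QpBlk

set_option autoImplicit false
set_option linter.unusedSectionVars false
set_option linter.unusedSimpArgs false

/-! the unipotent pairs: group level -/

namespace Cfsg.Agent.H11.QP

open Cfsg Polynomial

section gen

theorem comm_sup_le {Γ : Type*} [Group Γ] {E F D : Subgroup Γ} (hEE : ∀ a ∈ E, ∀ b ∈ E, a * b = b * a)
    (hFF : ∀ a ∈ F, ∀ b ∈ F, a * b = b * a) (hEF : ∀ a ∈ E, ∀ b ∈ F, a * b * a⁻¹ * b⁻¹ ∈ D)
    (hc : ∀ d ∈ D, ∀ x ∈ E ⊔ F, d * x = x * d) : ⁅E ⊔ F, E ⊔ F⁆ ≤ D := by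
  have hgen : E ⊔ F = Subgroup.closure ((E : Set Γ) ∪ F) := by
    rw [Subgroup.closure_union, Subgroup.closure_eq, Subgroup.closure_eq]
  have hFE : ∀ b ∈ F, ∀ a ∈ E, b * a * b⁻¹ * a⁻¹ ∈ D := by
    intro b hb a ha
    have h1 := inv_mem (hEF a ha b hb)
    have e : (a * b * a⁻¹ * b⁻¹)⁻¹ = b * a * b⁻¹ * a⁻¹ := by group
    rwa [e] at h1
  have base : ∀ g ∈ (E : Set Γ) ∪ F, ∀ h ∈ (E : Set Γ) ∪ F, g * h * g⁻¹ * h⁻¹ ∈ D := by
    rintro g (hg | hg) h (hh | hh)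
    · rw [hEE g hg h hh]; simp
    · exact hEF g hg h hh
    · exact hFE g hg h hh
    · rw [hFF g hg h hh]; simp
  have s1 : ∀ g ∈ (E : Set Γ) ∪ F, ∀ h ∈ E ⊔ F, g * h * g⁻¹ * h⁻¹ ∈ D := by
    intro g hg h hh
    rw [hgen] at hh
    refine Subgroup.closure_induction (p := fun h _ => g * h * g⁻¹ * h⁻¹ ∈ D) ?_ ?_ ?_ ?_ hh
    · intro h hh; exact base g hg h hh
    · simp
    · intro h h' hh1 hh1' h1 h2
      have e : g * (h * h') * g⁻¹ * (h * h')⁻¹ = (g * h * g⁻¹ * h⁻¹) * (h * (g * h' * g⁻¹ * h'⁻¹) * h⁻¹) := by group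
      rw [e]
      apply mul_mem h1
      rw [← hc _ h2 h (by rw [hgen]; exact hh1), mul_inv_cancel_right]; exact h2
    · intro h hh1 h1
      have e : g * h⁻¹ * g⁻¹ * h⁻¹⁻¹ = h⁻¹ * (g * h * g⁻¹ * h⁻¹)⁻¹ * h := by group
      rw [e, ← hc _ (inv_mem h1) h⁻¹ (by rw [hgen]; exact inv_mem hh1), inv_mul_cancel_right]
      exact inv_mem h1
  rw [Subgroup.commutator_le]
  intro g hg h hh
  change g * h * g⁻¹ * h⁻¹ ∈ D
  rw [hgen] at hg
  refine Subgroup.closure_induction (p := fun g _ => g * h * g⁻¹ * h⁻¹ ∈ D) ?_ ?_ ?_ ?_ hg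
  · intro g hg; exact s1 g hg h hh
  · simp
  · intro g g' hg1 hg1' h1 h2
    have e : g * g' * h * (g * g')⁻¹ * h⁻¹ = (g * (g' * h * g'⁻¹ * h⁻¹) * g⁻¹) * (g * h * g⁻¹ * h⁻¹) := by group
    rw [e]
    apply mul_mem _ h1
    rw [← hc _ h2 g (by rw [hgen]; exact hg1), mul_inv_cancel_right]; exact h2
  · intro g hg1 h1
    have e : g⁻¹ * h * g⁻¹⁻¹ * h⁻¹ = g⁻¹ * (g * h * g⁻¹ * h⁻¹)⁻¹ * g := by group
    rw [e, ← hc _ (inv_mem h1) g⁻¹ (by rw [hgen]; exact inv_mem hg1), inv_mul_cancel_right]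
    exact inv_mem h1

end gen

section grp
variable {k : Type*} [Field k] {M : Type*} [AddCommGroup M] [Module k M] [FiniteDimensional k M]
variable {G : Subgroup (LinearMap.GeneralLinearGroup k M)}

theorem IsE.eq {A B : Subgroup (LinearMap.GeneralLinearGroup k M)} {x : M →ₗ[k] M} (hA : IsE G A x) (hB : IsE G B x) :
    A = B := by
  ext g
  rw [hA, hB]

theorem commElt_val {g h : LinearMap.GeneralLinearGroup k M} {a b : M →ₗ[k] M} (hg : (g : M →ₗ[k] M) - 1 = a)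
    (hh : (h : M →ₗ[k] M) - 1 = b) (ha : a * a = 0) (hb : b * b = 0) (haba : a * b * a = 0) (hbab : b * a * b = 0) :
    ((g * h * g⁻¹ * h⁻¹ : LinearMap.GeneralLinearGroup k M) : M →ₗ[k] M) - 1 = a * b - b * a := by
  have eg : (g : M →ₗ[k] M) = 1 + a := by rw [← hg]; abel
  have eh : (h : M →ₗ[k] M) = 1 + b := by rw [← hh]; abel
  have ig := inv_val_of_sq (g := g) (by rw [hg]; exact ha)
  have ih := inv_val_of_sq (g := h) (by rw [hh]; exact hb)
  rw [hg] at ig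
  rw [hh] at ih
  rw [Units.val_mul, Units.val_mul, Units.val_mul, eg, eh, ig, ih, comm_formula ha hb, hbab, haba, zero_mul]
  abel

theorem exists_isE {γ : M →ₗ[k] M} (hγ : Mn G γ) : ∃ D ∈ quadraticRootSubgroups G, IsE G D γ := by
  have h1 : un γ hγ.inn.sq ∈ minimalQuadraticElements G := by
    rw [min_iff, un_val, add_sub_cancel_left]; exact hγ
  have h3 := isE_of_min h1
  rw [un_val, add_sub_cancel_left] at h3
  exact ⟨_, ⟨_, h1, rfl⟩, h3⟩

theorem un_ne_one {z : M →ₗ[k] M} (hz : z * z = 0) (h0 : z ≠ 0) : un z hz ≠ 1 := by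
  intro h
  apply h0
  have : ((un z hz : LinearMap.GeneralLinearGroup k M) : M →ₗ[k] M) - 1 = z := by
    rw [un_val, add_sub_cancel_left]
  rw [← this, h, Units.val_one, sub_self]

theorem eq_un {g : LinearMap.GeneralLinearGroup k M} {z : M →ₗ[k] M} (h : (g : M →ₗ[k] M) - 1 = z) (hz : z * z = 0) :
    g = un z hz := by
  apply Units.ext
  rw [un_val, ← h]; abel

theorem not_comm_exists (h2 : (2 : k) ≠ 0) (hk3 : Nat.card k ≠ 3) {E F : Subgroup (LinearMap.GeneralLinearGroup k M)}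
    {x y : M →ₗ[k] M} (hx : Mn G x) (hy : Mn G y)
    (hE : IsE G E x) (hF : IsE G F y) (hn : ¬ NN x y) (hc : ⁅E, F⁆ ≠ ⊥) :
    ∃ a b, InE G x a ∧ InE G y b ∧ CP G a b := by
  by_contra hcon
  push Not at hcon
  apply hc
  rw [Subgroup.commutator_eq_bot_iff_le_centralizer]
  intro g hg
  rw [Subgroup.mem_centralizer_iff]
  intro h hh
  have ha := (hE g).mp hg
  have hb := (hF h).mp hh
  have h1 := core_nn h2 hk3 hx hy hn ha hb
  have h3 := core_nn h2 hk3 hy hx (fun h => hn h.symm) hb ha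
  have h4 := hcon _ _ ha hb
  by_cases ha0 : (g : M →ₗ[k] M) - 1 = 0
  · have : g = 1 := Units.ext (sub_eq_zero.mp ha0)
    rw [this, one_mul, mul_one]
  by_cases hb0 : (h : M →ₗ[k] M) - 1 = 0
  · have : h = 1 := Units.ext (sub_eq_zero.mp hb0)
    rw [this, one_mul, mul_one]
  have h5 : ((g : M →ₗ[k] M) - 1) * ((h : M →ₗ[k] M) - 1) - ((h : M →ₗ[k] M) - 1) * ((g : M →ₗ[k] M) - 1) = 0 := by
    by_contra h6
    exact h4 ⟨ha.mn hx ha0, hb.mn hy hb0, h1, h3, h6⟩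
  apply Units.ext
  rw [Units.val_mul, Units.val_mul, ← sub_eq_zero]
  have : (h : M →ₗ[k] M) * (g : M →ₗ[k] M) - (g : M →ₗ[k] M) * (h : M →ₗ[k] M) =
    -(((g : M →ₗ[k] M) - 1) * ((h : M →ₗ[k] M) - 1) - ((h : M →ₗ[k] M) - 1) * ((g : M →ₗ[k] M) - 1)) := by
    noncomm_ring
  rw [this, h5, neg_zero]

theorem comm_in (h2 : (2 : k) ≠ 0) (hk3 : Nat.card k ≠ 3) {E F D : Subgroup (LinearMap.GeneralLinearGroup k M)}
    {x y : M →ₗ[k] M} (hcp : CP G x y) (hn : ¬ NN x y) (hE : IsE G E x) (hF : IsE G F y)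
    (hD : IsE G D (x * y - y * x)) {g h : LinearMap.GeneralLinearGroup k M} (hg : g ∈ E) (hh : h ∈ F) :
    g * h * g⁻¹ * h⁻¹ ∈ D := by
  have ha := (hE g).mp hg
  have hb := (hF h).mp hh
  by_cases ha0 : (g : M →ₗ[k] M) - 1 = 0
  · have : g = 1 := Units.ext (sub_eq_zero.mp ha0)
    rw [this]; simp
  by_cases hb0 : (h : M →ₗ[k] M) - 1 = 0
  · have : h = 1 := Units.ext (sub_eq_zero.mp hb0)
    rw [this]; simp
  obtain ⟨h1, h3⟩ := hcp.other h2 hk3 hn ha ha0 hb hb0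
  rw [hD, commElt_val rfl rfl ha.1.sq hb.1.sq h1.xyx h1.yxy]
  exact h3

theorem closure_left (h2 : (2 : k) ≠ 0) (hk3 : Nat.card k ≠ 3) (hirr : IsIrreducibleFor G)
    {E F D : Subgroup (LinearMap.GeneralLinearGroup k M)}
    {x y : M →ₗ[k] M} (hcp : CP G x y) (hn : ¬ NN x y) (hE : IsE G E x) (hF : IsE G F y)
    (hD : IsE G D (x * y - y * x)) {g : LinearMap.GeneralLinearGroup k M} (hg : g ∈ E) (hg1 : g ≠ 1) :
    Subgroup.closure ((fun f : LinearMap.GeneralLinearGroup k M => g * f * g⁻¹ * f⁻¹) ''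
      (F : Set (LinearMap.GeneralLinearGroup k M))) = D := by
  apply le_antisymm
  · rw [Subgroup.closure_le]
    rintro _ ⟨f, hf, rfl⟩
    exact comm_in h2 hk3 hcp hn hE hF hD hg hf
  · intro d hd
    apply Subgroup.subset_closure
    have hη := (hD d).mp hd
    have ha := (hE g).mp hg
    have ha0 := sub_one_ne hg1
    obtain ⟨h1, h3⟩ := hcp.other h2 hk3 hn ha ha0 (InE.refl hcp.hy.inn) hcp.hy.2.1
    have h4 : InE G (((g : M →ₗ[k] M) - 1) * y - y * ((g : M →ₗ[k] M) - 1)) ((d : M →ₗ[k] M) - 1) :=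
      (h3.symm hcp.mn h1.ne).trans hη
    obtain ⟨z, hz, hzc⟩ := h1.surj h2 hk3 hirr h4
    refine ⟨un z hz.1.sq, hF.un_mem hz, ?_⟩
    have hv : ((un z hz.1.sq : LinearMap.GeneralLinearGroup k M) : M →ₗ[k] M) - 1 = z := by
      rw [un_val, add_sub_cancel_left]
    have h5 := core_nn h2 hk3 hcp.hx hcp.hy hn ha hz
    have h6 := core_nn h2 hk3 hcp.hy hcp.hx (fun h => hn h.symm) hz ha
    have h7 := commElt_val (g := g) (h := un z hz.1.sq) rfl hv ha.1.sq hz.1.sq h5 h6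
    rw [hzc] at h7
    apply Units.ext
    exact sub_left_injective h7

theorem closure_right (h2 : (2 : k) ≠ 0) (hk3 : Nat.card k ≠ 3) (hirr : IsIrreducibleFor G)
    {E F D : Subgroup (LinearMap.GeneralLinearGroup k M)}
    {x y : M →ₗ[k] M} (hcp : CP G x y) (hn : ¬ NN x y) (hE : IsE G E x) (hF : IsE G F y)
    (hD : IsE G D (x * y - y * x)) {f : LinearMap.GeneralLinearGroup k M} (hf : f ∈ F) (hf1 : f ≠ 1) :
    Subgroup.closure ((fun g : LinearMap.GeneralLinearGroup k M => g * f * g⁻¹ * f⁻¹) ''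
      (E : Set (LinearMap.GeneralLinearGroup k M))) = D := by
  have hD' : IsE G D (y * x - x * y) := by
    intro g
    rw [hD]
    constructor
    · intro h
      have : x * y - y * x = -(y * x - x * y) := by abel
      rw [this] at h
      exact h.neg_left
    · intro h
      have : y * x - x * y = -(x * y - y * x) := by abel
      rw [this] at h
      exact h.neg_left
  have h1 := closure_left h2 hk3 hirr hcp.symm (fun h => hn h.symm) hF hE hD' hf hf1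
  rw [← h1]
  apply le_antisymm
  · rw [Subgroup.closure_le]
    rintro _ ⟨g, hg, rfl⟩
    have : g * f * g⁻¹ * f⁻¹ = (f * g * f⁻¹ * g⁻¹)⁻¹ := by group
    change g * f * g⁻¹ * f⁻¹ ∈ _
    rw [this]
    exact inv_mem (Subgroup.subset_closure ⟨g, hg, rfl⟩)
  · rw [Subgroup.closure_le]
    rintro _ ⟨g, hg, rfl⟩
    have : f * g * f⁻¹ * g⁻¹ = (g * f * g⁻¹ * f⁻¹)⁻¹ := by group
    change f * g * f⁻¹ * g⁻¹ ∈ _
    rw [this]
    exact inv_mem (Subgroup.subset_closure ⟨g, hg, rfl⟩)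

theorem comm_eq (h2 : (2 : k) ≠ 0) (hk3 : Nat.card k ≠ 3) (hirr : IsIrreducibleFor G)
    {E F D : Subgroup (LinearMap.GeneralLinearGroup k M)}
    {x y : M →ₗ[k] M} (hcp : CP G x y) (hn : ¬ NN x y) (hE : IsE G E x) (hF : IsE G F y)
    (hD : IsE G D (x * y - y * x)) : ⁅E, F⁆ = D := by
  apply le_antisymm
  · rw [Subgroup.commutator_le]
    intro g hg h hh
    exact comm_in h2 hk3 hcp hn hE hF hD hg hh
  · rw [← closure_left h2 hk3 hirr hcp hn hE hF hD (hE.un_mem (InE.refl hcp.hx.inn))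
      (un_ne_one hcp.hx.inn.sq hcp.hx.2.1), Subgroup.closure_le]
    rintro _ ⟨f, hf, rfl⟩
    exact Subgroup.commutator_mem_commutator (hE.un_mem (InE.refl hcp.hx.inn)) hf

/-- the endomorphisms of weight at least one -/
def wtD (γ : M →ₗ[k] M) : Submodule k (M →ₗ[k] M) where
  carrier := {f | γ * f = 0 ∧ (∀ v ∈ LinearMap.ker γ, f v ∈ LinearMap.range γ) ∧ f * γ = 0}
  zero_mem' := ⟨mul_zero _, fun v _ => Submodule.zero_mem _, zero_mul _⟩
  add_mem' := by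
    rintro a b ⟨h1, h2, h3⟩ ⟨h4, h5, h6⟩
    exact ⟨by rw [mul_add, h1, h4, add_zero], fun v hv => Submodule.add_mem _ (h2 v hv) (h5 v hv),
      by rw [add_mul, h3, h6, add_zero]⟩
  smul_mem' := by
    rintro c a ⟨h1, h2, h3⟩
    exact ⟨by rw [mul_smul_comm, h1, smul_zero], fun v hv => Submodule.smul_mem _ _ (h2 v hv),
      by rw [smul_mul_assoc, h3, smul_zero]⟩

theorem mem_wtD {γ f : M →ₗ[k] M} : f ∈ wtD γ ↔ γ * f = 0 ∧ (∀ v ∈ LinearMap.ker γ, f v ∈ LinearMap.range γ) ∧ f * γ = 0 :=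
  Iff.rfl

theorem wtD_mul (γ : M →ₗ[k] M) : wtD γ * wtD γ ≤ wtD γ := by
  rw [Submodule.mul_le]
  rintro a ⟨h1, h2, h3⟩ b ⟨h4, h5, h6⟩
  refine ⟨by rw [← mul_assoc, h1, zero_mul], fun v hv => ?_, by rw [mul_assoc, h6, mul_zero]⟩
  obtain ⟨w, hw⟩ := h5 v hv
  rw [Module.End.mul_apply, ← hw, ← Module.End.mul_apply, h3, LinearMap.zero_apply]
  exact Submodule.zero_mem _

theorem E_le_wtD (h2 : (2 : k) ≠ 0) (hk3 : Nat.card k ≠ 3) {x y a : M →ₗ[k] M} (hcp : CP G x y) (hn : ¬ NN x y)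
    (ha : InE G x a) : a ∈ wtD (x * y - y * x) := by
  refine ⟨?_, ?_, ?_⟩
  · exact mul_eq_zero_of_le (ha.2.2.trans (le_of_mul_eq_zero hcp.gx))
  · intro v hv
    by_cases ha0 : a = 0
    · rw [ha0, LinearMap.zero_apply]; exact Submodule.zero_mem _
    obtain ⟨h1, h3⟩ := hcp.other h2 hk3 hn ha ha0 (InE.refl hcp.hy.inn) hcp.hy.2.1
    rw [← h3.ker_eq hcp.mn h1.ne] at hv
    rw [← h3.range_eq hcp.mn h1.ne]
    exact h1.map_ker hv
  · exact mul_eq_zero_of_le ((le_of_mul_eq_zero hcp.xg).trans ha.2.1)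

theorem wtD_neg (γ : M →ₗ[k] M) : wtD (-γ) = wtD γ := by
  ext f
  rw [mem_wtD, mem_wtD, neg_mul, mul_neg, neg_eq_zero, neg_eq_zero, LinearMap.ker_neg, LinearMap.range_neg]

theorem sup_le_wtD (h2 : (2 : k) ≠ 0) (hk3 : Nat.card k ≠ 3) {E F : Subgroup (LinearMap.GeneralLinearGroup k M)}
    {x y : M →ₗ[k] M} (hcp : CP G x y) (hn : ¬ NN x y) (hE : IsE G E x) (hF : IsE G F y)
    {g : LinearMap.GeneralLinearGroup k M} (hg : g ∈ E ⊔ F) : (g : M →ₗ[k] M) - 1 ∈ wtD (x * y - y * x) := by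
  have h1 : Dh E ≤ wtD (x * y - y * x) := by
    unfold Dh
    rw [Submodule.span_le]
    rintro _ ⟨g, hg, rfl⟩
    exact E_le_wtD h2 hk3 hcp hn ((hE g).mp hg)
  have h3 : Dh F ≤ wtD (x * y - y * x) := by
    unfold Dh
    rw [Submodule.span_le]
    rintro _ ⟨g, hg, rfl⟩
    have h4 := E_le_wtD h2 hk3 hcp.symm (fun h => hn h.symm) ((hF g).mp hg)
    rw [← neg_sub, wtD_neg] at h4
    exact h4
  exact Dh_sup_le (wtD_mul _) h1 h3 (sub_mem_Dh hg)

theorem fixed_of_isE {D : Subgroup (LinearMap.GeneralLinearGroup k M)} {γ : M →ₗ[k] M} (hγ : Mn G γ) (hD : IsE G D γ) :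
    fixedSubmodule D = LinearMap.ker γ := by
  apply le_antisymm
  · refine iInf_le_of_le (un γ hγ.inn.sq) (iInf_le_of_le (hD.un_mem (InE.refl hγ.inn)) ?_)
    rw [un_val, add_sub_cancel_left]
  · refine le_iInf (fun g => le_iInf (fun hg => ?_))
    exact ((hD g).mp hg).2.1

theorem commutator_of_isE {D : Subgroup (LinearMap.GeneralLinearGroup k M)} {γ : M →ₗ[k] M} (hγ : Mn G γ)
    (hD : IsE G D γ) : commutatorSubmodule D = LinearMap.range γ := by
  apply le_antisymm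
  · refine iSup_le (fun g => iSup_le (fun hg => ?_))
    exact ((hD g).mp hg).2.2
  · refine le_iSup_of_le (un γ hγ.inn.sq) (le_iSup_of_le (hD.un_mem (InE.refl hγ.inn)) ?_)
    rw [un_val, add_sub_cancel_left]

theorem wt_comm {D : Subgroup (LinearMap.GeneralLinearGroup k M)} {γ : M →ₗ[k] M} (hD : IsE G D γ)
    {g d : LinearMap.GeneralLinearGroup k M} (hg : (g : M →ₗ[k] M) - 1 ∈ wtD γ) (hd : d ∈ D) : d * g = g * d := by
  have hη := (hD d).mp hd
  have e1 : ((g : M →ₗ[k] M) - 1) * ((d : M →ₗ[k] M) - 1) = 0 :=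
    mul_eq_zero_of_le (hη.2.2.trans (le_of_mul_eq_zero hg.2.2))
  have e2 : ((d : M →ₗ[k] M) - 1) * ((g : M →ₗ[k] M) - 1) = 0 :=
    mul_eq_zero_of_le ((le_of_mul_eq_zero hg.1).trans hη.2.1)
  apply Units.ext
  rw [Units.val_mul, Units.val_mul, ← sub_eq_zero]
  have : (d : M →ₗ[k] M) * (g : M →ₗ[k] M) - (g : M →ₗ[k] M) * (d : M →ₗ[k] M) =
    ((d : M →ₗ[k] M) - 1) * ((g : M →ₗ[k] M) - 1) - ((g : M →ₗ[k] M) - 1) * ((d : M →ₗ[k] M) - 1) := by
    noncomm_ring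
  rw [this, e1, e2, sub_zero]

theorem core_of_wt {D : Subgroup (LinearMap.GeneralLinearGroup k M)} {γ : M →ₗ[k] M} (hγ : Mn G γ) (hD : IsE G D γ)
    {g : LinearMap.GeneralLinearGroup k M} (hgG : g ∈ G) (hg : (g : M →ₗ[k] M) - 1 ∈ wtD γ) :
    g ∈ quadraticUnipotentCore G D := by
  refine ⟨hgG, ?_, ?_, ?_, ?_⟩
  · rw [Subgroup.mem_normalizer_iff]
    intro h
    constructor
    · intro hh
      have h1 := wt_comm hD hg hh
      have : g * h * g⁻¹ = h := by rw [← h1]; group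
      rw [this]; exact hh
    · intro hh
      have h1 := wt_comm hD hg hh
      have : h = g * h * g⁻¹ := by
        have h3 : g * h = g * (g * h * g⁻¹) := by rw [← h1]; group
        exact mul_left_cancel h3
      rw [this]; exact hh
  · intro m
    rw [fixed_of_isE hγ hD]
    exact LinearMap.congr_fun hg.1 m
  · intro m hm
    rw [fixed_of_isE hγ hD] at hm
    rw [commutator_of_isE hγ hD]
    exact hg.2.1 m hm
  · intro m hm
    rw [commutator_of_isE hγ hD] at hm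
    obtain ⟨w, rfl⟩ := hm
    have h1 := LinearMap.congr_fun hg.2.2 w
    rw [Module.End.mul_apply, LinearMap.sub_apply, Module.End.one_apply, LinearMap.zero_apply, sub_eq_zero] at h1
    exact h1

/-- everything about a noncommuting unipotent pair -/
theorem grp_main (h2 : (2 : k) ≠ 0) (hk3 : Nat.card k ≠ 3) (hirr : IsIrreducibleFor G)
    {E F : Subgroup (LinearMap.GeneralLinearGroup k M)} {x y : M →ₗ[k] M} (hx : Mn G x) (hy : Mn G y)
    (hE : IsE G E x) (hF : IsE G F y) (hn : ¬ NN x y) (hc : ⁅E, F⁆ ≠ ⊥) :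
    ⁅E, F⁆ ∈ quadraticRootSubgroups G ∧
      (∀ e ∈ E, e ≠ 1 → Subgroup.closure ((fun f : LinearMap.GeneralLinearGroup k M => e * f * e⁻¹ * f⁻¹) '' (F : Set (LinearMap.GeneralLinearGroup k M))) = ⁅E, F⁆) ∧
      (∀ f ∈ F, f ≠ 1 → Subgroup.closure ((fun e : LinearMap.GeneralLinearGroup k M => e * f * e⁻¹ * f⁻¹) '' (E : Set (LinearMap.GeneralLinearGroup k M))) = ⁅E, F⁆) ∧
      ⁅E ⊔ F, E ⊔ F⁆ ≠ ⊥ ∧ ⁅⁅E ⊔ F, E ⊔ F⁆, E ⊔ F⁆ = ⊥ ∧
      ((E ⊔ F : Subgroup (LinearMap.GeneralLinearGroup k M)) : Set (LinearMap.GeneralLinearGroup k M)) ⊆ quadraticUnipotentCore G ⁅E, F⁆ := by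
  obtain ⟨a, b, ha, hb, hcp⟩ := not_comm_exists h2 hk3 hx hy hE hF hn hc
  have hE' := hE.congr hx ha hcp.hx.2.1
  have hF' := hF.congr hy hb hcp.hy.2.1
  have hn' : ¬ NN a b := fun h => hn (h.congr (ha.ker_eq hx hcp.hx.2.1).symm (ha.range_eq hx hcp.hx.2.1).symm
    (hb.ker_eq hy hcp.hy.2.1).symm (hb.range_eq hy hcp.hy.2.1).symm)
  obtain ⟨D, hDS, hD⟩ := exists_isE hcp.mn
  have hEF := comm_eq h2 hk3 hirr hcp hn' hE' hF' hD
  have hcent : ∀ d ∈ D, ∀ z ∈ E ⊔ F, d * z = z * d := fun d hd z hz =>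
    wt_comm hD (sup_le_wtD h2 hk3 hcp hn' hE' hF' hz) hd
  have hXX : ⁅E ⊔ F, E ⊔ F⁆ = D := by
    apply le_antisymm
    · exact comm_sup_le (fun a ha b hb => hE.comm hx.inn.sq ha hb) (fun a ha b hb => hF.comm hy.inn.sq ha hb)
        (fun a ha b hb => comm_in h2 hk3 hcp hn' hE' hF' hD ha hb) hcent
    · rw [← hEF]
      exact Subgroup.commutator_mono le_sup_left le_sup_right
  rw [hXX, hEF]
  refine ⟨hDS, ?_, ?_, ?_, ?_, ?_⟩
  · intro e he he1
    exact closure_left h2 hk3 hirr hcp hn' hE' hF' hD he he1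
  · intro f hf hf1
    exact closure_right h2 hk3 hirr hcp hn' hE' hF' hD hf hf1
  · rw [← hEF]; exact hc
  · rw [Subgroup.commutator_eq_bot_iff_le_centralizer]
    intro d hd
    rw [Subgroup.mem_centralizer_iff]
    intro z hz
    exact (hcent d hd z hz).symm
  · intro g hg
    exact core_of_wt hcp.mn hD ((sup_le hE.le hF.le) hg) (sup_le_wtD h2 hk3 hcp hn' hE' hF' hg)

theorem not_nn_of_unip (h2 : (2 : k) ≠ 0) (hk3 : Nat.card k ≠ 3)
    {E F : Subgroup (LinearMap.GeneralLinearGroup k M)} {x y : M →ₗ[k] M} (hx : Mn G x) (hy : Mn G y)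
    (hE : IsE G E x) (hF : IsE G F y) (hu : IsUnipotentOn (E ⊔ F)) : ¬ NN x y := by
  intro hn
  rw [← nn_iff h2 hk3 hx hy] at hn
  apply hn
  rw [isUnipotentOn_iff] at hu
  obtain ⟨n, hn⟩ := hu
  have h1 : x ∈ Dh (E ⊔ F) := by
    have := sub_mem_Dh (H := E ⊔ F) (Subgroup.mem_sup_left (hE.un_mem (InE.refl hx.inn)))
    rwa [un_val, add_sub_cancel_left] at this
  have h3 : y ∈ Dh (E ⊔ F) := by
    have := sub_mem_Dh (H := E ⊔ F) (Subgroup.mem_sup_right (hF.un_mem (InE.refl hy.inn)))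
    rwa [un_val, add_sub_cancel_left] at this
  refine ⟨n, ?_⟩
  have h4 : (x * y) ^ n ∈ (Dh (E ⊔ F) * Dh (E ⊔ F)) ^ n := Submodule.pow_mem_pow _ (Submodule.mul_mem_mul h1 h3) n
  rw [← pow_two, ← pow_mul, mul_comm 2 n, pow_mul, hn, pow_two, Submodule.mul_bot, Submodule.mem_bot] at h4
  exact h4

theorem not_nn_of_class_two (h2 : (2 : k) ≠ 0) (hk3 : Nat.card k ≠ 3)
    {E F : Subgroup (LinearMap.GeneralLinearGroup k M)} {x y : M →ₗ[k] M} (hx : Mn G x) (hy : Mn G y)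
    (hE : IsE G E x) (hF : IsE G F y) (hc : ⁅⁅E ⊔ F, E ⊔ F⁆, E ⊔ F⁆ = ⊥) : ¬ NN x y := by
  intro hn
  rw [← nn_iff h2 hk3 hx hy] at hn
  apply hn
  have he : un x hx.inn.sq ∈ E ⊔ F := Subgroup.mem_sup_left (hE.un_mem (InE.refl hx.inn))
  have hf : un y hy.inn.sq ∈ E ⊔ F := Subgroup.mem_sup_right (hF.un_mem (InE.refl hy.inn))
  have h1 := Subgroup.commutator_mem_commutator he hf
  have h3 := Subgroup.commutator_mem_commutator h1 he
  rw [hc, Subgroup.mem_bot, commutatorElement_eq_one_iff_mul_comm] at h3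
  have h4 := congrArg (fun g : LinearMap.GeneralLinearGroup k M => (g : M →ₗ[k] M)) h3
  simp only [Units.val_mul, commutatorElement_def] at h4
  have ix : (((un x hx.inn.sq)⁻¹ : LinearMap.GeneralLinearGroup k M) : M →ₗ[k] M) = 1 - x := by
    have := inv_val_of_sq (g := un x hx.inn.sq) (by rw [un_val, add_sub_cancel_left]; exact hx.inn.sq)
    rwa [un_val, add_sub_cancel_left] at this
  have iy : (((un y hy.inn.sq)⁻¹ : LinearMap.GeneralLinearGroup k M) : M →ₗ[k] M) = 1 - y := by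
    have := inv_val_of_sq (g := un y hy.inn.sq) (by rw [un_val, add_sub_cancel_left]; exact hy.inn.sq)
    rwa [un_val, add_sub_cancel_left] at this
  rw [un_val, un_val, ix, iy, comm_formula hx.inn.sq hy.inn.sq] at h4
  have xx := hx.inn.sq
  have yy := hy.inn.sq
  have xxz : ∀ z, x * (x * z) = 0 := fun z => by rw [← mul_assoc, xx, zero_mul]
  have yyz : ∀ z, y * (y * z) = 0 := fun z => by rw [← mul_assoc, yy, zero_mul]
  have h5 := congrArg (fun z => z * x) h4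
  simp only [mul_add, add_mul, mul_sub, sub_mul, mul_assoc, xx, yy, xxz, yyz, mul_zero, zero_mul, one_mul, mul_one,
    add_zero, zero_add, sub_zero, zero_sub] at h5
  have h6 : x * (y * (x * (y * x))) = 0 := by
    have e : x * (y * (x * (y * x))) =
      (x + x * (y * x) + (y * (x * (y * x)) + x * (y * (x * (y * x)))) + x * (y * (x * (y * x)))) -
        (x + x * (y * x) + y * (x * (y * x)) + x * (y * (x * (y * x)))) := by abel
    rw [← h5, sub_self] at e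
    exact e
  refine ⟨3, ?_⟩
  have : (x * y) ^ 3 = x * (y * (x * (y * x))) * y := by
    rw [pow_succ, pow_two]; simp only [mul_assoc]
  rw [this, h6, zero_mul]

end grp

end Cfsg.Agent.H11.QP
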