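import Cfsg.Agent.H11.QpBasic

set_option autoImplicit false
set_option linter.unusedSectionVars false
set_option linter.unusedSimpArgs false

/-! lifting words from `SL₂(k[t]/F)` to `GL(M)` -/

namespace Cfsg.Agent.H11.QP

open Cfsg Polynomial

section comm
variable {k : Type*} [Field k] {M : Type*} [AddCommGroup M] [Module k M]
variable {G : Subgroup (LinearMap.GeneralLinearGroup k M)}

/-- the central element `xy + yx` -/
def cc (x y : M →ₗ[k] M) : M →ₗ[k] M := x * y + y * x

theorem cc_symm (x y : M →ₗ[k] M) : cc y x = cc x y := add_comm _ _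

theorem cc_comm_left {x y : M →ₗ[k] M} (hx : x * x = 0) : cc x y * x = x * cc x y := by
  rw [cc, add_mul, mul_add, mul_assoc y, hx, mul_zero, add_zero, ← mul_assoc x x, hx, zero_mul, zero_add, mul_assoc]

theorem cc_comm_right {x y : M →ₗ[k] M} (hy : y * y = 0) : cc x y * y = y * cc x y := by
  rw [← cc_symm]; exact cc_comm_left hy

theorem aeval_comm {c z : M →ₗ[k] M} (h : c * z = z * c) (p : k[X]) : aeval c p * z = z * aeval c p := by
  induction p using Polynomial.induction_on' with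
  | add p q hp hq => rw [map_add, add_mul, mul_add, hp, hq]
  | monomial n a =>
    rw [aeval_monomial, Algebra.algebraMap_eq_smul_one, smul_mul_assoc, one_mul, smul_mul_assoc, mul_smul_comm]
    congr 1
    have hc : Commute c z := h
    exact (hc.pow_left n).eq

/-- the general element of the algebra generated by `x, y` -/
noncomputable def WW (x y : M →ₗ[k] M) (A B D E : k[X]) : M →ₗ[k] M :=
  aeval (cc x y) A + aeval (cc x y) B * x + aeval (cc x y) D * y + aeval (cc x y) E * (x * y)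

theorem WW_mul {x y : M →ₗ[k] M} (hx : x * x = 0) (hy : y * y = 0) (A B D E A' B' D' E' : k[X]) :
    WW x y A B D E * WW x y A' B' D' E' = WW x y (A * A' + D * B' * X) (A * B' + B * A' + E * B' * X)
      (A * D' + D * A' + D * E' * X) (A * E' + E * A' + B * D' - D * B' + E * E' * X) := by
  have hcx := cc_comm_left (y := y) hx
  have hcy := cc_comm_right (x := x) hy
  have hX : ∀ p : k[X], x * aeval (cc x y) p = aeval (cc x y) p * x := fun p => (aeval_comm hcx p).symm
  have hY : ∀ p : k[X], y * aeval (cc x y) p = aeval (cc x y) p * y := fun p => (aeval_comm hcy p).symm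
  have hX' : ∀ (p : k[X]) z, x * (aeval (cc x y) p * z) = aeval (cc x y) p * (x * z) := fun p z => by
    rw [← mul_assoc, hX, mul_assoc]
  have hY' : ∀ (p : k[X]) z, y * (aeval (cc x y) p * z) = aeval (cc x y) p * (y * z) := fun p z => by
    rw [← mul_assoc, hY, mul_assoc]
  have hx' : ∀ z, x * (x * z) = 0 := fun z => by rw [← mul_assoc, hx, zero_mul]
  have hy' : ∀ z, y * (y * z) = 0 := fun z => by rw [← mul_assoc, hy, zero_mul]
  have hyx : y * x = cc x y - x * y := by rw [cc]; abel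
  have hyx' : ∀ z, y * (x * z) = cc x y * z - x * (y * z) := fun z => by
    rw [← mul_assoc, hyx, sub_mul, mul_assoc x]
  have hxc : x * cc x y = cc x y * x := hcx.symm
  have hyc : y * cc x y = cc x y * y := hcy.symm
  have hxc' : ∀ z, x * (cc x y * z) = cc x y * (x * z) := fun z => by rw [← mul_assoc, hxc, mul_assoc]
  have hyc' : ∀ z, y * (cc x y * z) = cc x y * (y * z) := fun z => by rw [← mul_assoc, hyc, mul_assoc]
  unfold WW
  simp only [map_add, map_sub, aeval_X, mul_add, add_mul, mul_sub, sub_mul, mul_assoc, hX, hY, hX', hY', hx, hy,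
    hx', hy', hyx, hyx', hxc, hyc, hxc', hyc', mul_zero, sub_zero, map_mul]
  abel

theorem WW_one (x y : M →ₗ[k] M) : WW x y 1 0 0 0 = 1 := by
  simp [WW]

theorem WW_congr {x y : M →ₗ[k] M} {F A A' : k[X]} (hF : aeval (cc x y) F = 0) (h : F ∣ A - A') (B D E : k[X]) :
    WW x y A B D E = WW x y A' B D E := by
  obtain ⟨q, hq⟩ := h
  have : aeval (cc x y) A = aeval (cc x y) A' := by
    rw [← sub_eq_zero, ← map_sub, hq, map_mul, hF, zero_mul]
  rw [WW, WW, this]

open AdjoinRoot in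
theorem word_lift {x y : M →ₗ[k] M} (hx : Inn G x) (hy : Inn G y) {F : k[X]} (hF : aeval (cc x y) F = 0)
    {g : Matrix.SpecialLinearGroup (Fin 2) (AdjoinRoot F)} (hg : g ∈ HS k (root F)) :
    ∃ A B D E : k[X], ∃ γ ∈ G, g.1 0 0 = mk F (A + E * X) ∧ g.1 0 1 = mk F B ∧ g.1 1 0 = mk F (D * X) ∧
      g.1 1 1 = mk F A ∧ (γ : M →ₗ[k] M) = WW x y A B D E := by
  refine Subgroup.closure_induction (p := fun g _ => ∃ A B D E : k[X], ∃ γ ∈ G, g.1 0 0 = mk F (A + E * X) ∧
      g.1 0 1 = mk F B ∧ g.1 1 0 = mk F (D * X) ∧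
      g.1 1 1 = mk F A ∧ (γ : M →ₗ[k] M) = WW x y A B D E) ?_ ?_ ?_ ?_ hg
  · rintro g (⟨c, rfl⟩ | ⟨c, rfl⟩)
    · refine ⟨1, C c, 0, 0, hx.el c, hx.el_mem c, ?_, ?_, ?_, ?_, ?_⟩
      · rw [X2_00]; simp
      · rw [X2_01]; rfl
      · rw [X2_10]; simp
      · rw [X2_11]; simp
      · rw [hx.el_val]; simp [WW, Algebra.algebraMap_eq_smul_one]
    · refine ⟨1, 0, C c, 0, hy.el c, hy.el_mem c, ?_, ?_, ?_, ?_, ?_⟩
      · rw [Y2_00]; simp
      · rw [Y2_01]; simp
      · rw [Y2_10, map_mul, mk_X, mk_C]; rfl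
      · rw [Y2_11]; simp
      · rw [hy.el_val]; simp [WW, Algebra.algebraMap_eq_smul_one]
  · refine ⟨1, 0, 0, 0, 1, one_mem _, ?_, ?_, ?_, ?_, ?_⟩
    · rw [one_00]; simp
    · rw [one_01]; simp
    · rw [one_10]; simp
    · rw [one_11]; simp
    · rw [WW_one]; rfl
  · rintro g h _ _ ⟨A, B, D, E, γ, hγ, g1, g2, g3, g4, g5⟩ ⟨A', B', D', E', γ', hγ', h1, h2, h3, h4, h5⟩
    refine ⟨_, _, _, _, γ * γ', mul_mem hγ hγ', ?_, ?_, ?_, ?_, by rw [Units.val_mul, g5, h5, WW_mul hx.1 hy.1]⟩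
    · rw [mul00, g1, g2, h1, h3, ← map_mul, ← map_mul, ← map_add]
      congr 1; ring
    · rw [mul01, g1, g2, h2, h4, ← map_mul, ← map_mul, ← map_add]
      congr 1; ring
    · rw [mul10, g3, g4, h1, h3, ← map_mul, ← map_mul, ← map_add]
      congr 1; ring
    · rw [mul11, g3, g4, h2, h4, ← map_mul, ← map_mul, ← map_add]
      congr 1; ring
  · rintro g _ ⟨A, B, D, E, γ, hγ, g1, g2, g3, g4, g5⟩
    refine ⟨A + E * X, -B, -D, -E, γ⁻¹, inv_mem hγ, ?_, ?_, ?_, ?_, ?_⟩
    · rw [inv00, g4]; congr 1; ring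
    · rw [inv01, g2, map_neg]
    · rw [inv10, g3, ← map_neg]; congr 1; ring
    · rw [inv11, g1]
    · have hdet := det2 g
      rw [g1, g2, g3, g4, ← map_mul, ← map_mul, ← map_sub] at hdet
      have hdvd : F ∣ ((A + E * X) * A - B * (D * X)) - 1 := by
        rw [← AdjoinRoot.mk_eq_mk, hdet, map_one]
      have hmul : (γ : M →ₗ[k] M) * WW x y (A + E * X) (-B) (-D) (-E) = 1 := by
        rw [g5, WW_mul hx.1 hy.1, ← WW_one x y]
        rw [WW_congr hF (A' := 1) (by
          have e : A * (A + E * X) + D * -B * X - 1 = ((A + E * X) * A - B * (D * X)) - 1 := by ring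
          rw [e]; exact hdvd)]
        congr 1 <;> ring
      exact Units.inv_eq_of_mul_eq_one_right hmul

/-- the conclusion for `x(s)` -/
theorem Inn_of_SS {x y : M →ₗ[k] M} (hx : Inn G x) (hy : Inn G y) {F : k[X]} (hF : aeval (cc x y) F = 0)
    (hD : ∀ D : k[X], F ∣ D * X → aeval (cc x y) D * y = 0)
    (hE : ∀ E : k[X], F ∣ E * X → aeval (cc x y) E * (x * y) = 0)
    {p : k[X]} (hp : AdjoinRoot.mk F p ∈ SS k (AdjoinRoot.root F)) : Inn G (aeval (cc x y) p * x) := by
  have hcx := cc_comm_left (y := y) hx.1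
  apply Inn.of_mem
  · calc aeval (cc x y) p * x * (aeval (cc x y) p * x) = aeval (cc x y) p * (x * aeval (cc x y) p) * x := by
          simp only [mul_assoc]
      _ = aeval (cc x y) p * aeval (cc x y) p * (x * x) := by rw [← aeval_comm hcx]; simp only [mul_assoc]
      _ = 0 := by rw [hx.1, mul_zero]
  · intro c
    have hc : AdjoinRoot.mk F (C c * p) ∈ SS k (AdjoinRoot.root F) := by
      have h1 := (SS k (AdjoinRoot.root F)).smul_mem c hp
      have h2 : c • AdjoinRoot.mk F p = AdjoinRoot.mk F (C c * p) := by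
        rw [map_mul, AdjoinRoot.mk_C, Algebra.smul_def]; rfl
      rwa [h2] at h1
    rw [mem_SS] at hc
    obtain ⟨A, B, D, E, γ, hγ, g1, g2, g3, g4, g5⟩ := word_lift hx hy hF hc
    refine ⟨γ, hγ, ?_⟩
    rw [X2_00] at g1
    rw [X2_01] at g2
    rw [X2_10] at g3
    rw [X2_11] at g4
    have hA : F ∣ A - 1 := by rw [← AdjoinRoot.mk_eq_mk, ← g4, map_one]
    have hE' : F ∣ E * X := by
      have h1 : AdjoinRoot.mk F (E * X) = 0 := by
        have : AdjoinRoot.mk F (A + E * X) = AdjoinRoot.mk F A := by rw [← g1, ← g4]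
        rw [map_add] at this
        exact (add_eq_left).mp this
      exact AdjoinRoot.mk_eq_zero.mp h1
    have hD' : F ∣ D * X := AdjoinRoot.mk_eq_zero.mp g3.symm
    have hB : F ∣ B - C c * p := by rw [← AdjoinRoot.mk_eq_mk, g2]
    have hBe : aeval (cc x y) B = aeval (cc x y) (C c * p) := by
      obtain ⟨q, hq⟩ := hB
      rw [← sub_eq_zero, ← map_sub, hq, map_mul, hF, zero_mul]
    rw [g5, WW_congr hF hA, WW, hD D hD', hE E hE', hBe, map_one, add_zero, add_zero, map_mul, aeval_C,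
      Algebra.algebraMap_eq_smul_one, smul_mul_assoc, one_mul, smul_mul_assoc]

end comm

end Cfsg.Agent.H11.QP
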