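import Cfsg.Agent.H11.QpFin

set_option autoImplicit false

/-! `⟨x(k), y(kλ)⟩ = SL₂(k(λ))`, the general theorem -/

namespace Cfsg.Agent.H11.QP

open Matrix

theorem two_ne_zero_of_ringChar {k : Type*} [Field k] (hk2 : ringChar k ≠ 2) : (2 : k) ≠ 0 :=
  Ring.two_ne_zero hk2

theorem three_lt_card {k : Type*} [Field k] [Finite k] (h2 : (2 : k) ≠ 0) (hk3 : Nat.card k ≠ 3) :
    3 < Nat.card k := by
  have h1 : 1 < Nat.card k := Finite.one_lt_card
  have h4 : Nat.card k ≠ 2 := by
    intro h
    apply h2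
    haveI := Fintype.ofFinite k
    have := Nat.cast_card_eq_zero k
    rw [← Nat.card_eq_fintype_card, h] at this
    exact_mod_cast this
  omega

theorem HS_top {k F : Type*} [Field k] [Field F] [Algebra k F] (h2 : (2 : k) ≠ 0) (hk3 : Nat.card k ≠ 3)
    (pb : PowerBasis k F) (hlam : pb.gen ≠ 0) : HS k pb.gen = ⊤ := by
  apply HS_eq_top hlam
  rcases finite_or_infinite k with hfin | hinf
  · haveI : Module.Finite k F := pb.finite
    haveI : Finite F := Module.finite_of_finite k
    exact SS_eq_top_fin h2 (three_lt_card h2 hk3) hlam pb.adjoin_gen_eq_top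
  · exact SS_eq_top h2 pb

end Cfsg.Agent.H11.QP
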