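import Cfsg.Agent.H11.QpLift
import Cfsg.Agent.H11.QpSL

set_option autoImplicit false
set_option linter.unusedSectionVars false
set_option linter.unusedSimpArgs false

/-! the main theorem on non-nilpotent pairs of minimal quadratic directions -/

namespace Cfsg.Agent.H11.QP

open Cfsg Polynomial

section ann
variable {k : Type*} [Field k] {M : Type*} [AddCommGroup M] [Module k M] [FiniteDimensional k M]
variable {G : Subgroup (LinearMap.GeneralLinearGroup k M)}

theorem cc_pow_mul {x y : M →ₗ[k] M} (hx : x * x = 0) (n : ℕ) : cc x y ^ n * x = (x * y) ^ n * x := by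
  induction n with
  | zero => rw [pow_zero, pow_zero]
  | succ n ih =>
    have h1 : y * x * ((x * y) ^ n * x) = 0 := by
      rcases n with _ | n
      · rw [pow_zero, one_mul, mul_assoc, hx, mul_zero]
      · rw [pow_succ']
        calc y * x * (x * y * (x * y) ^ n * x) = y * (x * x) * (y * (x * y) ^ n * x) := by simp only [mul_assoc]
          _ = 0 := by rw [hx, mul_zero, zero_mul]
    rw [pow_succ', mul_assoc, ih]
    conv_lhs => rw [cc, add_mul, h1, add_zero]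
    rw [pow_succ', mul_assoc (x * y)]

theorem exists_gen (c z : M →ₗ[k] M) : ∃ m₀ : k[X], m₀ ≠ 0 ∧ ∀ p : k[X], aeval c p * z = 0 ↔ m₀ ∣ p := by
  let J : Ideal k[X] :=
    { carrier := {p | aeval c p * z = 0}
      zero_mem' := by change aeval c 0 * z = 0; rw [map_zero, zero_mul]
      add_mem' := fun {a b} ha hb => by
        change aeval c (a + b) * z = 0
        rw [map_add, add_mul, ha, hb, add_zero]
      smul_mem' := fun a {b} hb => by
        change aeval c (a * b) * z = 0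
        rw [map_mul, mul_assoc, hb, mul_zero] }
  have hJ : ∀ p, p ∈ J ↔ aeval c p * z = 0 := fun p => Iff.rfl
  obtain ⟨m₀, hm⟩ := (IsPrincipalIdealRing.principal J).principal
  have hm' : ∀ p : k[X], aeval c p * z = 0 ↔ m₀ ∣ p := by
    intro p
    rw [← hJ, hm]
    exact Ideal.mem_span_singleton
  refine ⟨m₀, ?_, hm'⟩
  intro h0
  have h1 : aeval c (minpoly k c) * z = 0 := by rw [minpoly.aeval, zero_mul]
  rw [hm', h0, zero_dvd_iff] at h1
  exact minpoly.ne_zero (Algebra.IsIntegral.isIntegral c) h1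

theorem aeval_X_mul_zero {x y : M →ₗ[k] M} (hy : y * y = 0) {m₀ : k[X]}
    (hm : aeval (cc x y) m₀ * x = 0) : aeval (cc x y) (X * m₀) = 0 := by
  have hcy := cc_comm_right (x := x) hy
  have h1 : cc x y * aeval (cc x y) m₀ = aeval (cc x y) m₀ * cc x y := (aeval_comm rfl m₀).symm
  rw [map_mul, aeval_X, h1]
  conv_lhs => rw [cc]
  rw [mul_add, ← mul_assoc, ← mul_assoc]
  have h2 : aeval (x * y + y * x) m₀ * x = 0 := hm
  have h3 : aeval (x * y + y * x) m₀ * y = y * aeval (x * y + y * x) m₀ := aeval_comm hcy m₀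
  rw [h2, h3, zero_mul, mul_assoc, h2, mul_zero, add_zero]

/-- F3 -/
theorem ker_eq_of_inn {x y : M →ₗ[k] M} (hx : Mn G x) {p : k[X]} (hp : Inn G (aeval (cc x y) p * x))
    (h0 : aeval (cc x y) p * x ≠ 0) : LinearMap.ker (aeval (cc x y) p * x) = LinearMap.ker x := by
  have h1 : LinearMap.ker x ≤ LinearMap.ker (aeval (cc x y) p * x) := by
    intro v hv
    rw [LinearMap.mem_ker] at hv ⊢
    rw [Module.End.mul_apply, hv, map_zero]
  symm
  apply Submodule.eq_of_le_of_finrank_le h1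
  have h2 := hx.le hp h0
  have e1 := rk_add_ker (aeval (cc x y) p * x)
  have e2 := rk_add_ker x
  omega

theorem cancel_of_inn {x y : M →ₗ[k] M} (hx : Mn G x) {m₀ : k[X]}
    (hm : ∀ p : k[X], aeval (cc x y) p * x = 0 ↔ m₀ ∣ p) {p q : k[X]} (hp : Inn G (aeval (cc x y) p * x))
    (h0 : ¬ m₀ ∣ p) (hpq : m₀ ∣ p * q) : m₀ ∣ q := by
  have hcx := cc_comm_left (y := y) hx.inn.sq
  have h1 := ker_eq_of_inn hx hp (fun h => h0 ((hm p).mp h))
  rw [← hm] at hpq ⊢
  rw [map_mul, mul_assoc, aeval_comm hcx q, ← mul_assoc] at hpq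
  rw [aeval_comm hcx q]
  apply LinearMap.ext
  intro v
  have h2 := LinearMap.congr_fun hpq v
  rw [Module.End.mul_apply] at h2
  have h3 : aeval (cc x y) q v ∈ LinearMap.ker x := by rw [← h1]; exact h2
  rw [Module.End.mul_apply]
  exact h3

theorem prime_of_cancel {m₀ : k[X]} (h0 : m₀ ≠ 0) (h1 : ¬ m₀ ∣ 1)
    (h : ∀ p q : k[X], ¬ m₀ ∣ p → m₀ ∣ p * q → m₀ ∣ q) : Irreducible m₀ := by
  have : Prime m₀ := by
    refine ⟨h0, fun hu => h1 hu.dvd, fun a b hab => ?_⟩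
    by_cases ha : m₀ ∣ a
    · exact Or.inl ha
    · exact Or.inr (h a b ha hab)
  exact this.irreducible

/-- `m₀` kills `y` too -/
theorem aeval_y_zero {x y : M →ₗ[k] M} (hx : Mn G x) (hy : Mn G y) {m₀ : k[X]}
    (hm : ∀ p : k[X], aeval (cc x y) p * x = 0 ↔ m₀ ∣ p) (hcop : IsCoprime (X : k[X]) m₀) :
    aeval (cc x y) m₀ * y = 0 := by
  have hcx := cc_comm_left (y := y) hx.inn.sq
  have hcy := cc_comm_right (x := x) hy.inn.sq
  obtain ⟨u, v, huv⟩ := hcop
  have h1 : aeval (cc x y) u * (x * (y * x)) = x := by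
    have h2 : aeval (cc x y) (u * X + v * m₀) * x = x := by rw [huv, map_one, one_mul]
    rw [map_add, add_mul, map_mul, aeval_X, map_mul, mul_assoc _ _ x, mul_assoc _ _ x, (hm m₀).mpr dvd_rfl, mul_zero,
      add_zero] at h2
    have h3 : cc x y * x = x * (y * x) := by
      rw [cc, add_mul, mul_assoc y, hx.inn.sq, mul_zero, add_zero, mul_assoc]
    rw [h3] at h2
    exact h2
  have hkle : LinearMap.ker (y * x) ≤ LinearMap.ker x := by
    intro w hw
    rw [LinearMap.mem_ker] at hw ⊢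
    have := LinearMap.congr_fun h1 w
    rw [Module.End.mul_apply, Module.End.mul_apply, hw, map_zero, map_zero] at this
    exact this.symm
  have hkle2 := Submodule.finrank_mono hkle
  have hr : rk y ≤ rk (y * x) := by
    have e1 := rk_add_ker (y * x)
    have e2 := rk_add_ker x
    have e3 := hx.rk_eq hy
    omega
  have hrange : LinearMap.range (y * x) = LinearMap.range y :=
    Submodule.eq_of_le_of_finrank_le (LinearMap.range_comp_le_range x y) hr
  apply LinearMap.ext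
  intro w
  have h4 : y w ∈ LinearMap.range (y * x) := by rw [hrange]; exact ⟨w, rfl⟩
  obtain ⟨w', hw'⟩ := h4
  rw [Module.End.mul_apply, ← hw', ← Module.End.mul_apply, ← mul_assoc, aeval_comm hcy m₀, mul_assoc,
    (hm m₀).mpr dvd_rfl, mul_zero, LinearMap.zero_apply, LinearMap.zero_apply]

open AdjoinRoot in
theorem HS_zero_form {R : Type*} [CommRing R] [Algebra k R] {g : Matrix.SpecialLinearGroup (Fin 2) R}
    (hg : g ∈ HS k (0 : R)) : ∃ a, g = X2 a := by
  refine Subgroup.closure_induction (p := fun g _ => ∃ a, g = X2 a) ?_ ?_ ?_ ?_ hg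
  · rintro g (⟨c, rfl⟩ | ⟨c, rfl⟩)
    · exact ⟨_, rfl⟩
    · exact ⟨0, by rw [mul_zero, Y2_zero, X2_zero]⟩
  · exact ⟨0, X2_zero.symm⟩
  · rintro g h _ _ ⟨a, rfl⟩ ⟨b, rfl⟩
    exact ⟨a + b, X2_mul a b⟩
  · rintro g _ ⟨a, rfl⟩
    exact ⟨-a, X2_inv a⟩

open AdjoinRoot in
theorem lift_SS {m₀ : k[X]} (hcop : IsCoprime (X : k[X]) m₀) {p : k[X]} (hp : mk m₀ p ∈ SS k (root m₀)) :
    ∃ p' : k[X], m₀ ∣ p' - p ∧ mk (X * m₀) p' ∈ SS k (root (X * m₀)) := by
  have hd1 : m₀ ∣ X * m₀ := dvd_mul_left _ _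
  have hd2 : (X : k[X]) ∣ X * m₀ := dvd_mul_right _ _
  set π := algHomOfDvd k (X * m₀) m₀ hd1 with hπ
  set ρ := algHomOfDvd k (X * m₀) (X : k[X]) hd2 with hρ
  have hπr : π (root (X * m₀)) = root m₀ := algHomOfDvd_root _ _ _
  have hρr : ρ (root (X * m₀)) = 0 := by
    rw [hρ, algHomOfDvd_root, ← mk_X]
    exact mk_self
  have hπm : ∀ q : k[X], π (mk (X * m₀) q) = mk m₀ q := by
    intro q
    rw [← aeval_eq, ← aeval_eq, ← hπr, Polynomial.aeval_algHom_apply]
  have hρm : ∀ q : k[X], ρ (mk (X * m₀) q) = mk (X : k[X]) q := by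
    intro q
    rw [← aeval_eq, ← aeval_eq, ← Polynomial.aeval_algHom_apply, hρr, ← mk_X, mk_self]
  rw [mem_SS, ← hπr, ← HS_map] at hp
  obtain ⟨g, hg, hgp⟩ := hp
  have hρg : mp ρ g ∈ HS k (ρ (root (X * m₀))) := mem_HS_map ρ hg
  rw [hρr] at hρg
  obtain ⟨a, ha⟩ := HS_zero_form hρg
  have key : ∀ r : AdjoinRoot (X * m₀), π r = 0 → ρ r = 0 → r = 0 := by
    intro r h1 h2
    obtain ⟨q, rfl⟩ := mk_surjective r
    rw [hπm, mk_eq_zero] at h1
    rw [hρm, mk_eq_zero] at h2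
    rw [mk_eq_zero]
    exact hcop.mul_dvd h2 h1
  obtain ⟨p', hp'⟩ := mk_surjective (g.1 0 1)
  have hgX : g = X2 (mk (X * m₀) p') := by
    apply sl2_ext
    · rw [X2_00, ← sub_eq_zero]
      apply key
      · rw [map_sub, ← mp_val, hgp, map_one, X2_00, sub_self]
      · rw [map_sub, ← mp_val, ha, map_one, X2_00, sub_self]
    · rw [X2_01, hp']
    · rw [X2_10]
      apply key
      · rw [← mp_val, hgp, X2_10]
      · rw [← mp_val, ha, X2_10]
    · rw [X2_11, ← sub_eq_zero]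
      apply key
      · rw [map_sub, ← mp_val, hgp, map_one, X2_11, sub_self]
      · rw [map_sub, ← mp_val, ha, map_one, X2_11, sub_self]
  refine ⟨p', ?_, ?_⟩
  · rw [← mk_eq_mk, ← hπm, hp', ← mp_val, hgp, X2_01]
  · rw [mem_SS, ← hgX]; exact hg

end ann

section main
variable {k : Type*} [Field k] {M : Type*} [AddCommGroup M] [Module k M] [FiniteDimensional k M]
variable {G : Subgroup (LinearMap.GeneralLinearGroup k M)}

theorem Inn_big {x y : M →ₗ[k] M} (hx : Inn G x) (hy : Inn G y) {m₀ : k[X]} (hm : aeval (cc x y) m₀ * x = 0)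
    {p : k[X]} (hp : AdjoinRoot.mk (X ^ 2 * m₀) p ∈ SS k (AdjoinRoot.root (X ^ 2 * m₀))) :
    Inn G (aeval (cc x y) p * x) := by
  have h1 := aeval_X_mul_zero hy.sq hm
  have key : ∀ D : k[X], X ^ 2 * m₀ ∣ D * X → aeval (cc x y) D = 0 := by
    rintro D ⟨q, hq⟩
    have h2 : D = X * m₀ * q := by
      have : D * X = X * m₀ * q * X := by rw [hq]; ring
      exact mul_right_cancel₀ X_ne_zero this
    rw [h2, map_mul, h1, zero_mul]
  refine Inn_of_SS hx hy ?_ (fun D hD => by rw [key D hD, zero_mul]) (fun E hE => by rw [key E hE, zero_mul]) hp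
  rw [pow_two, mul_assoc, map_mul, h1, mul_zero]

theorem Inn_small {x y : M →ₗ[k] M} (hx : Inn G x) (hy : Inn G y) {m₀ : k[X]} (hm : aeval (cc x y) m₀ * x = 0)
    (hmy : aeval (cc x y) m₀ * y = 0) (hcop : IsCoprime (X : k[X]) m₀)
    {p : k[X]} (hp : AdjoinRoot.mk m₀ p ∈ SS k (AdjoinRoot.root m₀)) :
    Inn G (aeval (cc x y) p * x) := by
  obtain ⟨p', hpp, hp'⟩ := lift_SS hcop hp
  have h1 := aeval_X_mul_zero hy.sq hm
  have key : ∀ D : k[X], X * m₀ ∣ D * X → ∃ q, D = q * m₀ := by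
    rintro D ⟨q, hq⟩
    refine ⟨q, ?_⟩
    have : D * X = q * m₀ * X := by rw [hq]; ring
    exact mul_right_cancel₀ X_ne_zero this
  have h2 : Inn G (aeval (cc x y) p' * x) := by
    refine Inn_of_SS hx hy h1 (fun D hD => ?_) (fun E hE => ?_) hp'
    · obtain ⟨q, rfl⟩ := key D hD
      rw [map_mul, mul_assoc, hmy, mul_zero]
    · obtain ⟨q, rfl⟩ := key E hE
      rw [map_mul, mul_assoc, ← mul_assoc _ x, hm, zero_mul, mul_zero]
  obtain ⟨q, hq⟩ := hpp
  have h3 : aeval (cc x y) p' * x = aeval (cc x y) p * x := by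
    rw [← sub_eq_zero, ← sub_mul, ← map_sub, hq, mul_comm m₀ q, map_mul, mul_assoc, hm, mul_zero]
  rwa [h3] at h2

theorem adjoinRoot_finite [Finite k] {F : k[X]} (hF : F ≠ 0) : Finite (AdjoinRoot F) := by
  haveI : Module.Finite k (AdjoinRoot F) := (AdjoinRoot.powerBasis hF).finite
  exact Module.finite_of_finite k

theorem main_fin1 [Finite k] (h2 : (2 : k) ≠ 0) (hk : 3 < Nat.card k) {x y : M →ₗ[k] M} (hx : Mn G x) (hy : Mn G y)
    (hnn : ¬ IsNilpotent (x * y)) {m₀ : k[X]} (hm0 : m₀ ≠ 0) (hm : ∀ p : k[X], aeval (cc x y) p * x = 0 ↔ m₀ ∣ p) :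
    ¬ X ∣ m₀ := by
  rintro ⟨q₀, hq₀⟩
  have hF : X ^ 2 * m₀ ≠ 0 := mul_ne_zero (pow_ne_zero _ X_ne_zero) hm0
  have hfm : FiniteMultiplicity (X : k[X]) (X ^ 2 * m₀) :=
    FiniteMultiplicity.of_prime_left prime_X hF
  obtain ⟨m₁, hm₁, hXm₁⟩ := hfm.exists_eq_pow_mul_and_not_dvd
  set j := multiplicity (X : k[X]) (X ^ 2 * m₀) with hj
  have hj3 : 3 ≤ j := by
    rw [hj]
    apply hfm.le_multiplicity_of_pow_dvd
    rw [hq₀]
    exact ⟨q₀, by ring⟩
  have hm₁0 : m₁ ≠ 0 := by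
    rintro rfl
    exact hXm₁ (dvd_zero _)
  have hmm : m₀ = X ^ (j - 2) * m₁ := by
    have h3 : X ^ 2 * m₀ = X ^ 2 * (X ^ (j - 2) * m₁) := by
      rw [hm₁, ← mul_assoc, ← pow_add]
      congr 2; omega
    exact mul_left_cancel₀ (pow_ne_zero _ X_ne_zero) h3
  have hm₁u : ¬ IsUnit m₁ := by
    intro hu
    have h3 : m₀ ∣ X ^ j := by
      have h4 : m₀ ∣ X ^ 2 * m₀ := dvd_mul_left _ _
      rw [hm₁] at h4
      exact (IsUnit.dvd_mul_right hu).mp h4
    rw [← hm, map_pow, aeval_X, cc_pow_mul hx.inn.sq] at h3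
    apply hnn
    refine ⟨j + 1, ?_⟩
    rw [pow_succ, ← mul_assoc, h3, zero_mul]
  obtain ⟨f, hfi, hfd⟩ := WfDvdMonoid.exists_irreducible_factor hm₁u hm₁0
  haveI : Fact (Irreducible f) := ⟨hfi⟩
  have hd1 : f ∣ X ^ 2 * m₀ := by rw [hm₁]; exact hfd.mul_left _
  have hd2 : (X ^ j : k[X]) ∣ X ^ 2 * m₀ := by rw [hm₁]; exact dvd_mul_right _ _
  have hroot : AdjoinRoot.root f ≠ 0 := by
    rw [← AdjoinRoot.mk_X, Ne, AdjoinRoot.mk_eq_zero]
    intro h
    have h3 : Associated f X := hfi.associated_of_dvd irreducible_X h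
    exact hXm₁ (h3.symm.dvd.trans hfd)
  haveI := adjoinRoot_finite (k := k) hF
  haveI := adjoinRoot_finite (k := k) hfi.ne_zero
  have hFu : ¬ IsUnit (X ^ 2 * m₀) := by
    intro hu
    exact hfi.not_isUnit (isUnit_of_dvd_unit hd1 hu)
  haveI : Nontrivial (AdjoinRoot (X ^ 2 * m₀)) := by
    rw [← not_subsingleton_iff_nontrivial]
    intro hs
    have h3 : AdjoinRoot.mk (X ^ 2 * m₀) 1 = 0 := Subsingleton.elim _ _
    rw [AdjoinRoot.mk_eq_zero] at h3
    exact hFu (isUnit_of_dvd_one h3)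
  obtain ⟨s, hs, hs0, hρs⟩ := exists_SS_of_nilpotent h2 hk
    (AdjoinRoot.algHomOfDvd k (X ^ 2 * m₀) f hd1) (AdjoinRoot.algHomOfDvd k (X ^ 2 * m₀) (X ^ j) hd2)
    (lam := AdjoinRoot.root (X ^ 2 * m₀)) (by rw [AdjoinRoot.algHomOfDvd_root]; exact hroot)
    (by rw [AdjoinRoot.algHomOfDvd_root]; exact AdjoinRoot.adjoinRoot_eq_top)
    (by rw [AdjoinRoot.algHomOfDvd_root]; exact ⟨j, by rw [← AdjoinRoot.mk_X, ← map_pow, AdjoinRoot.mk_self]⟩)
  obtain ⟨p, rfl⟩ := AdjoinRoot.mk_surjective s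
  have hXp : X ^ j ∣ p := by
    rw [← AdjoinRoot.mk_eq_zero, ← hρs, ← AdjoinRoot.aeval_eq, ← AdjoinRoot.aeval_eq,
      ← Polynomial.aeval_algHom_apply, AdjoinRoot.algHomOfDvd_root]
  have hinn := Inn_big hx.inn hy.inn ((hm m₀).mpr dvd_rfl) hs
  have hmp : ¬ m₀ ∣ p := by
    intro h
    apply hs0
    rw [AdjoinRoot.mk_eq_zero, hm₁]
    apply IsCoprime.mul_dvd _ hXp ((Dvd.intro_left _ hmm.symm).trans h)
    apply IsCoprime.pow_left
    exact (prime_X.irreducible.coprime_iff_not_dvd).mpr hXm₁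
  obtain ⟨r, hr⟩ := hXp
  have h3 : m₀ ∣ q₀ := by
    apply cancel_of_inn hx hm hinn hmp
    refine ⟨X ^ (j - 1) * r, ?_⟩
    rw [hr]
    conv_rhs => rw [hq₀]
    have : j = (j - 1) + 1 := by omega
    rw [show (X : k[X]) ^ j = X ^ (j - 1) * X by rw [← pow_succ]; congr 1]
    ring
  have h4 : q₀ ≠ 0 := by rintro rfl; rw [mul_zero] at hq₀; exact hm0 hq₀
  obtain ⟨r', hr'⟩ := h3
  have h5 : (X : k[X]) * r' = 1 := by
    have : q₀ * 1 = q₀ * (X * r') := by
      rw [mul_one]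
      conv_lhs => rw [hr', hq₀]
      ring
    exact (mul_left_cancel₀ h4 this).symm
  exact not_isUnit_X (IsUnit.of_mul_eq_one _ h5)

theorem main_A (h2 : (2 : k) ≠ 0) (hk3 : Nat.card k ≠ 3) {x y : M →ₗ[k] M} (hx : Mn G x) (hy : Mn G y)
    (hnn : ¬ IsNilpotent (x * y)) : ∃ m₀ : k[X], Irreducible m₀ ∧ IsCoprime (X : k[X]) m₀ ∧
      (∀ p : k[X], aeval (cc x y) p * x = 0 ↔ m₀ ∣ p) ∧ aeval (cc x y) m₀ * y = 0 ∧
      ∀ p : k[X], Inn G (aeval (cc x y) p * x) := by
  obtain ⟨m₀, hm0, hm⟩ := exists_gen (cc x y) x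
  have hm1 : ¬ m₀ ∣ 1 := by
    rw [← hm, map_one, one_mul]; exact hx.2.1
  have hmX : ¬ m₀ ∣ X := by
    rw [← hm, aeval_X]
    intro h
    apply hnn
    refine ⟨2, ?_⟩
    have h3 := cc_pow_mul (y := y) hx.inn.sq 1
    rw [pow_one, pow_one, h] at h3
    rw [pow_two, ← mul_assoc, ← h3, zero_mul]
  rcases finite_or_infinite k with hfin | hinf
  · have hk := three_lt_card h2 hk3
    have hX : ¬ X ∣ m₀ := main_fin1 h2 hk hx hy hnn hm0 hm
    have hcop : IsCoprime (X : k[X]) m₀ := (prime_X.irreducible.coprime_iff_not_dvd).mpr hX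
    have hmy := aeval_y_zero hx hy hm hcop
    have hmx := (hm m₀).mpr dvd_rfl
    haveI := adjoinRoot_finite (k := k) hm0
    haveI : Nontrivial (AdjoinRoot m₀) := by
      rw [← not_subsingleton_iff_nontrivial]
      intro hs
      have h3 : AdjoinRoot.mk m₀ 1 = 0 := Subsingleton.elim _ _
      rw [AdjoinRoot.mk_eq_zero] at h3
      exact hm1 h3
    have hroot : IsUnit (AdjoinRoot.root m₀) := by
      obtain ⟨u, v, huv⟩ := hcop
      refine IsUnit.of_mul_eq_one (AdjoinRoot.mk m₀ u) ?_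
      have h3 := congrArg (AdjoinRoot.mk m₀) huv
      rw [map_add, map_mul, map_mul, AdjoinRoot.mk_self, mul_zero, add_zero, AdjoinRoot.mk_X, map_one] at h3
      rw [mul_comm]; exact h3
    have hunit := isUnit_of_SS h2 hk hroot (AdjoinRoot.adjoinRoot_eq_top) (by
      intro s hs hs0
      obtain ⟨p, rfl⟩ := AdjoinRoot.mk_surjective s
      have hinn := Inn_small hx.inn hy.inn hmx hmy hcop hs
      rw [isUnit_iff_mem_nonZeroDivisors_of_finite, mem_nonZeroDivisors_iff_right]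
      intro r hr
      obtain ⟨q, rfl⟩ := AdjoinRoot.mk_surjective r
      rw [← map_mul, AdjoinRoot.mk_eq_zero, mul_comm] at hr
      rw [AdjoinRoot.mk_eq_zero]
      exact cancel_of_inn hx hm hinn (fun h => hs0 (AdjoinRoot.mk_eq_zero.mpr h)) hr)
    have hirr : Irreducible m₀ := by
      apply prime_of_cancel hm0 hm1
      intro p q hp hpq
      have h3 := hunit (AdjoinRoot.mk m₀ p) (fun h => hp (AdjoinRoot.mk_eq_zero.mp h))
      rw [← AdjoinRoot.mk_eq_zero] at hpq ⊢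
      rw [map_mul] at hpq
      exact (h3.mul_right_eq_zero).mp hpq
    refine ⟨m₀, hirr, hcop, hm, hmy, fun p => ?_⟩
    apply Inn_small hx.inn hy.inn hmx hmy hcop
    haveI : Fact (Irreducible m₀) := ⟨hirr⟩
    rw [SS_eq_top_fin h2 hk hroot.ne_zero AdjoinRoot.adjoinRoot_eq_top]
    trivial
  · have hall : ∀ p : k[X], Inn G (aeval (cc x y) p * x) := by
      intro p
      apply Inn_big hx.inn hy.inn ((hm m₀).mpr dvd_rfl)
      have hF : X ^ 2 * m₀ ≠ 0 := mul_ne_zero (pow_ne_zero _ X_ne_zero) hm0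
      haveI : Nontrivial (AdjoinRoot (X ^ 2 * m₀)) := by
        rw [← not_subsingleton_iff_nontrivial]
        intro hs
        have h3 : AdjoinRoot.mk (X ^ 2 * m₀) 1 = 0 := Subsingleton.elim _ _
        rw [AdjoinRoot.mk_eq_zero] at h3
        exact hm1 ((dvd_mul_left _ _).trans h3)
      have h3 := SS_eq_top (k := k) h2 (AdjoinRoot.powerBasis hF)
      rw [AdjoinRoot.powerBasis_gen] at h3
      rw [h3]; trivial
    have hirr : Irreducible m₀ := by
      apply prime_of_cancel hm0 hm1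
      intro p q hp hpq
      exact cancel_of_inn hx hm (hall p) hp hpq
    have hcop : IsCoprime (X : k[X]) m₀ := ((hirr.coprime_iff_not_dvd).mpr hmX).symm
    exact ⟨m₀, hirr, hcop, hm, aeval_y_zero hx hy hm hcop, hall⟩

end main

end Cfsg.Agent.H11.QP
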