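import Mathlib
import Cfsg.Prelude.Def_RootSubgroups

set_option autoImplicit false
set_option linter.unusedSectionVars false

/-! Unipotent groups of linear maps; the Baer–Suzuki type theorem S5061. -/

namespace Cfsg.Agent.H11.QP

open Cfsg
open scoped Pointwise

variable {k : Type*} [Field k] {M : Type*} [AddCommGroup M] [Module k M]

theorem sm_right {A B C : Submodule k (M →ₗ[k] M)} (h : B ≤ C) : A * B ≤ A * C := mul_le_mul' le_rfl h
theorem sm_left {A B C : Submodule k (M →ₗ[k] M)} (h : A ≤ B) : A * C ≤ B * C := mul_le_mul' h le_rfl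
theorem sm_both {A B C D : Submodule k (M →ₗ[k] M)} (h : A ≤ B) (h' : C ≤ D) : A * C ≤ B * D := mul_le_mul' h h'
theorem sm_pow {A B : Submodule k (M →ₗ[k] M)} (h : A ≤ B) (n : ℕ) : A ^ n ≤ B ^ n := pow_le_pow_left' h n

/-- the span of `g - 1`, `g ∈ H` -/
def Dh (H : Subgroup (LinearMap.GeneralLinearGroup k M)) : Submodule k (M →ₗ[k] M) :=
  Submodule.span k ((fun g : LinearMap.GeneralLinearGroup k M => (g : M →ₗ[k] M) - 1) '' (H : Set _))

theorem sub_mem_Dh {H : Subgroup (LinearMap.GeneralLinearGroup k M)} {g : LinearMap.GeneralLinearGroup k M}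
    (hg : g ∈ H) : (g : M →ₗ[k] M) - 1 ∈ Dh H := Submodule.subset_span ⟨g, hg, rfl⟩

theorem Dh_mono {H K : Subgroup (LinearMap.GeneralLinearGroup k M)} (h : H ≤ K) : Dh H ≤ Dh K :=
  Submodule.span_mono (Set.image_mono h)

theorem mul_sub_one_eq (g h : LinearMap.GeneralLinearGroup k M) :
    ((g * h : LinearMap.GeneralLinearGroup k M) : M →ₗ[k] M) - 1 =
      ((g : M →ₗ[k] M) - 1) * ((h : M →ₗ[k] M) - 1) + ((g : M →ₗ[k] M) - 1) + ((h : M →ₗ[k] M) - 1) := by
  rw [Units.val_mul]; noncomm_ring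

theorem inv_sub_one_eq (g : LinearMap.GeneralLinearGroup k M) :
    ((g⁻¹ : LinearMap.GeneralLinearGroup k M) : M →ₗ[k] M) - 1 =
      -((((g⁻¹ : LinearMap.GeneralLinearGroup k M) : M →ₗ[k] M) - 1) * ((g : M →ₗ[k] M) - 1)) -
        ((g : M →ₗ[k] M) - 1) := by
  have h : ((g⁻¹ : LinearMap.GeneralLinearGroup k M) : M →ₗ[k] M) * (g : M →ₗ[k] M) = 1 := by
    rw [← Units.val_mul, inv_mul_cancel, Units.val_one]
  rw [sub_mul, mul_sub, h]; noncomm_ring

theorem Dh_mul_le (H : Subgroup (LinearMap.GeneralLinearGroup k M)) : Dh H * Dh H ≤ Dh H := by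
  unfold Dh
  rw [Submodule.span_mul_span, Submodule.span_le]
  rintro _ ⟨_, ⟨g, hg, rfl⟩, _, ⟨h, hh, rfl⟩, rfl⟩
  have h1 : ((g : M →ₗ[k] M) - 1) * ((h : M →ₗ[k] M) - 1) =
      (((g * h : LinearMap.GeneralLinearGroup k M) : M →ₗ[k] M) - 1) - ((g : M →ₗ[k] M) - 1) -
        ((h : M →ₗ[k] M) - 1) := by
    rw [mul_sub_one_eq]; abel
  change ((g : M →ₗ[k] M) - 1) * ((h : M →ₗ[k] M) - 1) ∈ _
  rw [h1]
  exact sub_mem (sub_mem (Submodule.subset_span ⟨g * h, mul_mem hg hh, rfl⟩) (Submodule.subset_span ⟨g, hg, rfl⟩))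
    (Submodule.subset_span ⟨h, hh, rfl⟩)

theorem list_mem_pow {D : Submodule k (M →ₗ[k] M)} (l : List (M →ₗ[k] M)) (hl : ∀ x ∈ l, x ∈ D) :
    l.prod ∈ D ^ l.length := by
  induction l with
  | nil => rw [List.prod_nil, List.length_nil, pow_zero]; exact Submodule.one_le.mp le_rfl
  | cons a l ih =>
    rw [List.prod_cons, List.length_cons, pow_succ']
    exact Submodule.mul_mem_mul (hl a (List.mem_cons_self)) (ih (fun x hx => hl x (List.mem_cons_of_mem _ hx)))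

theorem list_coe (l : List (LinearMap.GeneralLinearGroup k M)) :
    (do let a ← l; pure ((a : LinearMap.GeneralLinearGroup k M) : M →ₗ[k] M) : List (M →ₗ[k] M)) =
      l.map (fun g => ((g : LinearMap.GeneralLinearGroup k M) : M →ₗ[k] M)) := by
  simp only [List.pure_def, List.bind_eq_flatMap]
  induction l with
  | nil => rfl
  | cons a l ih => rw [List.flatMap_cons, ih, List.map_cons]; rfl

theorem isUnipotentOn_iff (H : Subgroup (LinearMap.GeneralLinearGroup k M)) :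
    IsUnipotentOn H ↔ ∃ n, Dh H ^ n = ⊥ := by
  constructor
  · rintro ⟨n, hn⟩
    refine ⟨n, ?_⟩
    unfold Dh
    rw [Submodule.span_pow, Submodule.span_eq_bot]
    intro x hx
    obtain ⟨f, rfl⟩ := Set.mem_pow.mp hx
    choose g hg hgf using fun i => (f i).2
    have h1 := hn (List.ofFn g) (by
      intro y hy
      obtain ⟨i, rfl⟩ := (List.mem_ofFn' _ _).mp hy
      exact hg i) (by simp)
    rw [list_coe, List.map_map, List.map_ofFn] at h1
    rw [← h1]
    congr 2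
    ext i : 1
    exact (hgf i).symm
  · rintro ⟨n, hn⟩
    refine ⟨n, fun l hl hln => ?_⟩
    have h1 := list_mem_pow (D := Dh H) (l.map fun g => ((g : LinearMap.GeneralLinearGroup k M) : M →ₗ[k] M) - 1) (by
      intro x hx
      obtain ⟨g, hg, rfl⟩ := List.mem_map.mp hx
      exact sub_mem_Dh (hl g hg))
    rw [List.length_map, hln, hn, Submodule.mem_bot] at h1
    rw [list_coe, List.map_map]
    exact h1

theorem pow_bot_mono {D D' : Submodule k (M →ₗ[k] M)} (h : D ≤ D') {n : ℕ} (hn : D' ^ n = ⊥) : D ^ n = ⊥ :=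
  le_bot_iff.mp ((sm_pow h n).trans hn.le)

theorem isUnipotentOn_mono {H K : Subgroup (LinearMap.GeneralLinearGroup k M)} (h : H ≤ K) (hK : IsUnipotentOn K) :
    IsUnipotentOn H := by
  rw [isUnipotentOn_iff] at hK ⊢
  obtain ⟨n, hn⟩ := hK
  exact ⟨n, pow_bot_mono (Dh_mono h) hn⟩

/-- generation: if all members of `Δ` have `g - 1 ∈ D` (D closed under products) so does the join -/
theorem Dh_sSup_le {D : Submodule k (M →ₗ[k] M)} (hD : D * D ≤ D)
    {Δ : Set (Subgroup (LinearMap.GeneralLinearGroup k M))} (h : ∀ A ∈ Δ, ∀ g ∈ A, (g : M →ₗ[k] M) - 1 ∈ D) :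
    Dh (sSup Δ) ≤ D := by
  unfold Dh
  rw [Submodule.span_le]
  rintro _ ⟨g, hg, rfl⟩
  change (g : M →ₗ[k] M) - 1 ∈ D
  have hS : (sSup Δ : Subgroup (LinearMap.GeneralLinearGroup k M)) =
      Subgroup.closure {g | ∃ A ∈ Δ, g ∈ A} := by
    apply le_antisymm
    · apply sSup_le
      intro A hA g hg
      exact Subgroup.subset_closure ⟨A, hA, hg⟩
    · rw [Subgroup.closure_le]
      rintro g ⟨A, hA, hg⟩
      exact (le_sSup hA) hg
  rw [SetLike.mem_coe, hS, ← Subgroup.mem_toSubmonoid, Subgroup.closure_toSubmonoid] at hg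
  refine Submonoid.closure_induction (motive := fun (x : LinearMap.GeneralLinearGroup k M) _ => (x : M →ₗ[k] M) - 1 ∈ D) ?_ ?_ ?_ hg
  · rintro x (⟨A, hA, hx⟩ | ⟨A, hA, hx⟩)
    · exact h A hA x hx
    · have hx' : x ∈ A := by
        have := A.inv_mem hx
        rwa [inv_inv] at this
      exact h A hA x hx'
  · change ((1 : LinearMap.GeneralLinearGroup k M) : M →ₗ[k] M) - 1 ∈ D
    rw [Units.val_one, sub_self]; exact zero_mem _
  · intro x y _ _ hx hy
    change ((x * y : LinearMap.GeneralLinearGroup k M) : M →ₗ[k] M) - 1 ∈ D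
    rw [mul_sub_one_eq]
    exact add_mem (add_mem (hD (Submodule.mul_mem_mul hx hy)) hx) hy

theorem Dh_sup_le {D : Submodule k (M →ₗ[k] M)} (hD : D * D ≤ D)
    {A B : Subgroup (LinearMap.GeneralLinearGroup k M)} (hA : Dh A ≤ D) (hB : Dh B ≤ D) : Dh (A ⊔ B) ≤ D := by
  have h := Dh_sSup_le hD (Δ := {A, B}) (by
    rintro C (rfl | rfl) g hg
    · exact hA (sub_mem_Dh hg)
    · exact hB (sub_mem_Dh hg))
  rwa [sSup_pair] at h

/-- a unipotent group normalised by a unipotent group -/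
theorem unip_sup {U B : Subgroup (LinearMap.GeneralLinearGroup k M)} (hU : IsUnipotentOn U) (hB : IsUnipotentOn B)
    (hn : ∀ b ∈ B, ∀ u ∈ U, b * u * b⁻¹ ∈ U) : IsUnipotentOn (U ⊔ B) := by
  rw [isUnipotentOn_iff] at hU hB ⊢
  obtain ⟨a, ha⟩ := hU
  obtain ⟨b, hb⟩ := hB
  set D0 := Dh U with hD0
  set D1 := Dh B with hD1
  set E' : Submodule k (M →ₗ[k] M) := 1 ⊔ D1 with hE'
  set I := D0 * E' with hI
  have h11 : D1 * D1 ≤ D1 := Dh_mul_le B
  have h00 : D0 * D0 ≤ D0 := Dh_mul_le U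
  have hEE : E' * E' ≤ E' := by
    rw [hE', Submodule.sup_mul, Submodule.mul_sup, Submodule.mul_sup, one_mul, mul_one, one_mul]
    exact sup_le le_rfl (sup_le le_sup_right (h11.trans le_sup_right))
  have h10 : D1 * D0 ≤ I := by
    rw [hD1, hD0]
    unfold Dh
    rw [Submodule.span_mul_span, Submodule.span_le]
    rintro _ ⟨_, ⟨g, hg, rfl⟩, _, ⟨u, hu, rfl⟩, rfl⟩
    have e : ((g : M →ₗ[k] M) - 1) * ((u : M →ₗ[k] M) - 1) =
        (((g * u * g⁻¹ : LinearMap.GeneralLinearGroup k M) : M →ₗ[k] M) - 1) * ((g : M →ₗ[k] M) - 1) +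
        ((((g * u * g⁻¹ : LinearMap.GeneralLinearGroup k M) : M →ₗ[k] M) - 1) - ((u : M →ₗ[k] M) - 1)) * 1 := by
      have h1 : ((g * u * g⁻¹ : LinearMap.GeneralLinearGroup k M) : M →ₗ[k] M) * (g : M →ₗ[k] M) =
          (g : M →ₗ[k] M) * (u : M →ₗ[k] M) := by
        rw [← Units.val_mul, inv_mul_cancel_right, Units.val_mul]
      have h2 : (((g * u * g⁻¹ : LinearMap.GeneralLinearGroup k M) : M →ₗ[k] M) - 1) * ((g : M →ₗ[k] M) - 1) =
          ((g * u * g⁻¹ : LinearMap.GeneralLinearGroup k M) : M →ₗ[k] M) * (g : M →ₗ[k] M) -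
          ((g * u * g⁻¹ : LinearMap.GeneralLinearGroup k M) : M →ₗ[k] M) - (g : M →ₗ[k] M) + 1 := by noncomm_ring
      rw [h2, h1]
      noncomm_ring
    change ((g : M →ₗ[k] M) - 1) * ((u : M →ₗ[k] M) - 1) ∈ _
    rw [e]
    refine add_mem (Submodule.mul_mem_mul (sub_mem_Dh (hn g hg u hu)) ?_)
      (Submodule.mul_mem_mul (sub_mem (sub_mem_Dh (hn g hg u hu)) (sub_mem_Dh hu)) ?_)
    · exact Submodule.mem_sup_right (sub_mem_Dh hg)
    · exact Submodule.mem_sup_left (Submodule.one_le.mp le_rfl)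
  have hE0 : E' * D0 ≤ I := by
    rw [hE', Submodule.sup_mul, one_mul]
    refine sup_le ?_ h10
    calc D0 = D0 * 1 := (mul_one _).symm
      _ ≤ D0 * E' := sm_right le_sup_left
  have hIE : I * E' ≤ I := by
    rw [hI, mul_assoc]; exact sm_right hEE
  have h1I : D1 * I ≤ I := by
    rw [hI, ← mul_assoc]
    exact (sm_left h10).trans hIE
  have hII : I * I ≤ I := by
    calc I * I = D0 * (E' * D0) * E' := by rw [hI]; simp only [mul_assoc]
      _ ≤ D0 * I * E' := sm_left (sm_right hE0)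
      _ = (D0 * D0) * (E' * E') := by rw [hI]; simp only [mul_assoc]
      _ ≤ D0 * E' := sm_both h00 hEE
  have hIpow : ∀ n, I ^ (n + 1) ≤ D0 ^ (n + 1) * E' := by
    intro n
    induction n with
    | zero => rw [zero_add, pow_one, pow_one]
    | succ n ih =>
      calc I ^ (n + 1 + 1) = I ^ (n + 1) * I := pow_succ _ _
        _ ≤ (D0 ^ (n + 1) * E') * (D0 * E') := sm_left ih
        _ = D0 ^ (n + 1) * (E' * D0) * E' := by simp only [mul_assoc]
        _ ≤ D0 ^ (n + 1) * (D0 * E') * E' := sm_left (sm_right hE0)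
        _ = D0 ^ (n + 1 + 1) * (E' * E') := by rw [pow_succ D0 (n + 1)]; simp only [mul_assoc]
        _ ≤ D0 ^ (n + 1 + 1) * E' := sm_right hEE
  have hIa : I ^ (a + 1) = ⊥ := by
    rw [← le_bot_iff]
    refine (hIpow a).trans ?_
    rw [pow_succ, ha, Submodule.bot_mul, Submodule.bot_mul]
  set S := I ⊔ D1 with hS
  have hSS : ∀ n, S ^ (n + 1) ≤ I ⊔ D1 ^ (n + 1) := by
    intro n
    induction n with
    | zero => rw [zero_add, pow_one, pow_one]
    | succ n ih =>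
      have hD1n : D1 ^ (n + 1) ≤ D1 := by
        clear ih
        induction n with
        | zero => rw [zero_add, pow_one]
        | succ n ih =>
          rw [pow_succ]
          exact (sm_left ih).trans h11
      calc S ^ (n + 1 + 1) = S ^ (n + 1) * S := pow_succ _ _
        _ ≤ (I ⊔ D1 ^ (n + 1)) * (I ⊔ D1) := sm_left ih
        _ = I * I ⊔ I * D1 ⊔ (D1 ^ (n + 1) * I ⊔ D1 ^ (n + 1) * D1) := by
            rw [Submodule.sup_mul, Submodule.mul_sup, Submodule.mul_sup]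
        _ ≤ I ⊔ D1 ^ (n + 1 + 1) := by
            rw [pow_succ D1 (n + 1)]
            refine sup_le (sup_le (hII.trans le_sup_left) ?_) (sup_le ?_ le_sup_right)
            · exact (sm_right (le_sup_right)).trans (hIE.trans le_sup_left)
            · exact ((sm_left hD1n).trans h1I).trans le_sup_left
  have hSmul : S * S ≤ S := by
    have := hSS 1
    rw [one_add_one_eq_two, pow_two, pow_two] at this
    exact this.trans (sup_le le_sup_left (h11.trans le_sup_right))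
  have hDle : Dh (U ⊔ B) ≤ S := by
    apply Dh_sup_le hSmul
    · refine le_trans ?_ (le_sup_left : I ≤ S)
      calc D0 = D0 * 1 := (mul_one _).symm
        _ ≤ D0 * E' := sm_right le_sup_left
    · exact le_sup_right
  refine ⟨(b + 1) * (a + 1), ?_⟩
  rw [← le_bot_iff]
  calc Dh (U ⊔ B) ^ ((b + 1) * (a + 1)) ≤ S ^ ((b + 1) * (a + 1)) := sm_pow hDle _
    _ = (S ^ (b + 1)) ^ (a + 1) := pow_mul _ _ _
    _ ≤ I ^ (a + 1) := by
        apply sm_pow
        refine (hSS b).trans ?_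
        rw [pow_succ D1 b, hb, Submodule.bot_mul, sup_bot_eq]
    _ = ⊥ := hIa


/-! ### the Baer–Suzuki argument -/

section BS
variable [hfd : FiniteDimensional k M] {G : Subgroup (LinearMap.GeneralLinearGroup k M)}
  {W : Set (Subgroup (LinearMap.GeneralLinearGroup k M))}

/-- the members of `W` inside `1 + Dh U` -/
def clos (W : Set (Subgroup (LinearMap.GeneralLinearGroup k M))) (U : Subgroup (LinearMap.GeneralLinearGroup k M)) :
    Set (Subgroup (LinearMap.GeneralLinearGroup k M)) := {A | A ∈ W ∧ Dh A ≤ Dh U}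

/-- maximal unipotent subsets -/
structure MaxU (W Δ : Set (Subgroup (LinearMap.GeneralLinearGroup k M))) : Prop where
  sub : Δ ⊆ W
  unip : IsUnipotentOn (sSup Δ)
  max : ∀ Δ' ⊆ W, Δ ⊆ Δ' → IsUnipotentOn (sSup Δ') → Δ' = Δ

theorem unip_clos {U : Subgroup (LinearMap.GeneralLinearGroup k M)} (hU : IsUnipotentOn U) :
    IsUnipotentOn (sSup (clos W U)) := by
  rw [isUnipotentOn_iff] at hU ⊢
  obtain ⟨n, hn⟩ := hU
  refine ⟨n, pow_bot_mono ?_ hn⟩
  exact Dh_sSup_le (Dh_mul_le U) (fun A hA g hg => hA.2 (sub_mem_Dh hg))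

theorem MaxU.mem {Δ : Set (Subgroup (LinearMap.GeneralLinearGroup k M))} (h : MaxU W Δ)
    {A : Subgroup (LinearMap.GeneralLinearGroup k M)} (hA : A ∈ W) (hAD : Dh A ≤ Dh (sSup Δ)) : A ∈ Δ := by
  have h1 : clos W (sSup Δ) = Δ := by
    apply h.max _ (fun B hB => hB.1)
    · intro B hB
      exact ⟨h.sub hB, Dh_mono (le_sSup hB)⟩
    · exact unip_clos h.unip
  rw [← h1]
  exact ⟨hA, hAD⟩

theorem exists_maxU (Δ : Set (Subgroup (LinearMap.GeneralLinearGroup k M))) (hΔ : Δ ⊆ W)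
    (hu : IsUnipotentOn (sSup Δ)) : ∃ Δ', Δ ⊆ Δ' ∧ MaxU W Δ' := by
  -- induction on the codimension of `Dh`
  obtain ⟨m, hm⟩ : ∃ m, Module.finrank k (M →ₗ[k] M) - Module.finrank k (Dh (sSup Δ)) = m := ⟨_, rfl⟩
  induction m using Nat.strong_induction_on generalizing Δ with
  | _ m ih =>
    set Δ1 := clos W (sSup Δ) with hΔ1
    have h01 : Δ ⊆ Δ1 := fun B hB => ⟨hΔ hB, Dh_mono (le_sSup hB)⟩
    have hu1 : IsUnipotentOn (sSup Δ1) := unip_clos hu
    by_cases hmax : ∀ Δ' ⊆ W, Δ1 ⊆ Δ' → IsUnipotentOn (sSup Δ') → Δ' = Δ1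
    · exact ⟨Δ1, h01, fun B hB => hB.1, hu1, hmax⟩
    · push Not at hmax
      obtain ⟨Δ', hΔ'W, h1', hu', hne⟩ := hmax
      have hlt : Dh (sSup Δ) < Dh (sSup Δ') := by
        apply lt_of_le_of_ne (Dh_mono (sSup_le_sSup (h01.trans h1')))
        intro heq
        apply hne
        apply Set.Subset.antisymm _ h1'
        intro B hB
        refine ⟨hΔ'W hB, ?_⟩
        rw [heq]; exact Dh_mono (le_sSup hB)
      have hfin := Submodule.finrank_lt_finrank_of_lt hlt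
      have hle : Module.finrank k (Dh (sSup Δ')) ≤ Module.finrank k (M →ₗ[k] M) := Submodule.finrank_le _
      obtain ⟨Δ'', h2, h3⟩ := ih _ (by omega) Δ' hΔ'W hu' rfl
      exact ⟨Δ'', (h01.trans h1').trans h2, h3⟩

/-- the descending chain `{g ∈ U | g - 1 ∈ D^(j+1)}` -/
def Kj (U : Subgroup (LinearMap.GeneralLinearGroup k M)) (j : ℕ) : Subgroup (LinearMap.GeneralLinearGroup k M) where
  carrier := {g | g ∈ U ∧ (g : M →ₗ[k] M) - 1 ∈ Dh U ^ (j + 1)}
  one_mem' := ⟨one_mem _, by rw [Units.val_one, sub_self]; exact zero_mem _⟩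
  mul_mem' := by
    rintro a b ⟨ha, ha'⟩ ⟨hb, hb'⟩
    refine ⟨mul_mem ha hb, ?_⟩
    rw [mul_sub_one_eq]
    refine add_mem (add_mem ?_ ha') hb'
    have hle : Dh U * Dh U ^ (j + 1) ≤ Dh U ^ (j + 1) := by
      rw [pow_succ', ← mul_assoc]; exact sm_left (Dh_mul_le U)
    exact hle (Submodule.mul_mem_mul (sub_mem_Dh ha) hb')
  inv_mem' := by
    rintro a ⟨ha, ha'⟩
    refine ⟨inv_mem ha, ?_⟩
    rw [inv_sub_one_eq]
    have hle : Dh U * Dh U ^ (j + 1) ≤ Dh U ^ (j + 1) := by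
      rw [pow_succ', ← mul_assoc]; exact sm_left (Dh_mul_le U)
    exact sub_mem (neg_mem (hle (Submodule.mul_mem_mul (sub_mem_Dh (inv_mem ha)) ha'))) ha'

theorem Kj_zero (U : Subgroup (LinearMap.GeneralLinearGroup k M)) : Kj U 0 = U := by
  apply le_antisymm
  · intro g hg; exact hg.1
  · intro g hg
    refine ⟨hg, ?_⟩
    rw [zero_add, pow_one]; exact sub_mem_Dh hg

theorem comm_mem_Kj {U : Subgroup (LinearMap.GeneralLinearGroup k M)} {j : ℕ}
    {g u : LinearMap.GeneralLinearGroup k M} (hg : g ∈ Kj U j) (hu : u ∈ U) :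
    g * u * g⁻¹ * u⁻¹ ∈ Kj U (j + 1) := by
  refine ⟨mul_mem (mul_mem (mul_mem hg.1 hu) (inv_mem hg.1)) (inv_mem hu), ?_⟩
  have e : ((g * u * g⁻¹ * u⁻¹ : LinearMap.GeneralLinearGroup k M) : M →ₗ[k] M) - 1 =
      (((g : M →ₗ[k] M) - 1) * ((u : M →ₗ[k] M) - 1) - ((u : M →ₗ[k] M) - 1) * ((g : M →ₗ[k] M) - 1)) *
        (((g⁻¹ * u⁻¹ : LinearMap.GeneralLinearGroup k M) : M →ₗ[k] M) - 1) +
      (((g : M →ₗ[k] M) - 1) * ((u : M →ₗ[k] M) - 1) - ((u : M →ₗ[k] M) - 1) * ((g : M →ₗ[k] M) - 1)) := by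
    have h1 : ((u * g : LinearMap.GeneralLinearGroup k M) : M →ₗ[k] M) *
        ((g⁻¹ * u⁻¹ : LinearMap.GeneralLinearGroup k M) : M →ₗ[k] M) = 1 := by
      rw [← Units.val_mul]
      have : u * g * (g⁻¹ * u⁻¹) = 1 := by group
      rw [this, Units.val_one]
    have h2 : ((g : M →ₗ[k] M) - 1) * ((u : M →ₗ[k] M) - 1) - ((u : M →ₗ[k] M) - 1) * ((g : M →ₗ[k] M) - 1) =
        ((g * u : LinearMap.GeneralLinearGroup k M) : M →ₗ[k] M) - ((u * g : LinearMap.GeneralLinearGroup k M) : M →ₗ[k] M) := by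
      rw [Units.val_mul, Units.val_mul]; noncomm_ring
    have h3 : ((g * u * g⁻¹ * u⁻¹ : LinearMap.GeneralLinearGroup k M) : M →ₗ[k] M) =
        ((g * u : LinearMap.GeneralLinearGroup k M) : M →ₗ[k] M) *
          ((g⁻¹ * u⁻¹ : LinearMap.GeneralLinearGroup k M) : M →ₗ[k] M) := by
      rw [← Units.val_mul, ← mul_assoc]
    rw [h2, h3, mul_sub, sub_mul, h1]
    noncomm_ring
  have hc : ((g : M →ₗ[k] M) - 1) * ((u : M →ₗ[k] M) - 1) - ((u : M →ₗ[k] M) - 1) * ((g : M →ₗ[k] M) - 1) ∈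
      Dh U ^ (j + 1 + 1) := by
    refine sub_mem ?_ ?_
    · rw [pow_succ]; exact Submodule.mul_mem_mul hg.2 (sub_mem_Dh hu)
    · rw [pow_succ']; exact Submodule.mul_mem_mul (sub_mem_Dh hu) hg.2
  rw [e]
  refine add_mem ?_ hc
  have hle : Dh U ^ (j + 1 + 1) * Dh U ≤ Dh U ^ (j + 1 + 1) := by
    rw [pow_succ, mul_assoc]; exact sm_right (Dh_mul_le U)
  exact hle (Submodule.mul_mem_mul hc (sub_mem_Dh (mul_mem (inv_mem hg.1) (inv_mem hu))))

theorem conj_mem_Kj {U : Subgroup (LinearMap.GeneralLinearGroup k M)} {j : ℕ}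
    {g u : LinearMap.GeneralLinearGroup k M} (hg : g ∈ Kj U j) (hu : u ∈ U) :
    u * g * u⁻¹ ∈ Kj U j := by
  have h1 := comm_mem_Kj hg hu
  have h2 : g * u * g⁻¹ * u⁻¹ ∈ Kj U j := by
    refine ⟨h1.1, ?_⟩
    have hle : Dh U ^ (j + 1 + 1) ≤ Dh U ^ (j + 1) := by
      rw [pow_succ' _ (j + 1), pow_succ' _ j, ← mul_assoc]
      exact sm_left (Dh_mul_le U)
    exact hle h1.2
  have e : u * g * u⁻¹ = (g * u * g⁻¹ * u⁻¹)⁻¹ * g := by group
  rw [e]
  exact mul_mem (inv_mem h2) hg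

/-- if `U₀ < U` then some member of `W` in `U`, not in `U₀`, normalises `U₀` -/
theorem exists_normalizer (hWG : ∀ A ∈ W, A ≤ G) (hWconj : ∀ A ∈ W, ∀ g ∈ G, conjBy A g ∈ W)
    {Δ0 : Set (Subgroup (LinearMap.GeneralLinearGroup k M))} (hΔ0 : ∀ A ∈ W, A ≤ sSup Δ0 → A ∈ Δ0) (hΔ0W : Δ0 ⊆ W)
    {U : Subgroup (LinearMap.GeneralLinearGroup k M)} (hU : IsUnipotentOn U) (h0U : sSup Δ0 ≤ U)
    {A : Subgroup (LinearMap.GeneralLinearGroup k M)} (hA : A ∈ W) (hAU : A ≤ U) (hA0 : A ∉ Δ0) :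
    ∃ B ∈ W, B ≤ U ∧ B ∉ Δ0 ∧ ∀ b ∈ B, ∀ u ∈ sSup Δ0, b * u * b⁻¹ ∈ sSup Δ0 := by
  classical
  set U0 := sSup Δ0 with hU0
  obtain ⟨n, hn⟩ := (isUnipotentOn_iff U).mp hU
  have hex : ∃ j, ∀ B ∈ W, B ≤ U0 ⊔ Kj U j → B ∈ Δ0 := by
    refine ⟨n, fun B hB hBle => hΔ0 B hB (hBle.trans ?_)⟩
    refine sup_le le_rfl ?_
    intro g hg
    have h1 := hg.2
    rw [pow_succ, hn, Submodule.bot_mul, Submodule.mem_bot, sub_eq_zero] at h1
    have : g = 1 := Units.ext h1
    rw [this]; exact one_mem _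
  set j := Nat.find hex with hj
  have hjs := Nat.find_spec hex
  rw [← hj] at hjs
  have hj0 : j ≠ 0 := by
    intro h0
    rw [h0, Kj_zero] at hjs
    exact hA0 (hjs A hA (hAU.trans le_sup_right))
  obtain ⟨i, hi⟩ := Nat.exists_eq_succ_of_ne_zero hj0
  have hmin := Nat.find_min hex (m := i) (by omega)
  push Not at hmin
  obtain ⟨B, hB, hBle, hB0⟩ := hmin
  have hKU : ∀ j, Kj U j ≤ U := fun j g hg => hg.1
  refine ⟨B, hB, hBle.trans (sup_le h0U (hKU i)), hB0, ?_⟩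
  -- `U0 ⊔ K i` normalises `U0 ⊔ K (i+1)`
  set N := U0 ⊔ Kj U (i + 1) with hN
  have hnorm : U0 ⊔ Kj U i ≤ Subgroup.normalizer (N : Set (LinearMap.GeneralLinearGroup k M)) := by
    refine sup_le ((le_sup_left : U0 ≤ N).trans Subgroup.le_normalizer) ?_
    have hone : ∀ g ∈ Kj U i, ∀ x ∈ N, g * x * g⁻¹ ∈ N := by
      intro g hg x hx
      have hle : N ≤ N.comap (MulAut.conj g).toMonoidHom := by
        rw [hN]
        refine sup_le ?_ ?_
        · intro u hu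
          rw [Subgroup.mem_comap]
          change g * u * g⁻¹ ∈ _
          have e : g * u * g⁻¹ = (g * u * g⁻¹ * u⁻¹) * u := by group
          rw [e]
          exact mul_mem (Subgroup.mem_sup_right (comm_mem_Kj hg (h0U hu))) (Subgroup.mem_sup_left hu)
        · intro x hx
          rw [Subgroup.mem_comap]
          change g * x * g⁻¹ ∈ _
          exact Subgroup.mem_sup_right (conj_mem_Kj hx hg.1)
      exact hle hx
    intro g hg
    rw [Subgroup.mem_normalizer_iff]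
    intro x
    constructor
    · intro hx; exact hone g hg x hx
    · intro hx
      have := hone g⁻¹ (inv_mem hg) _ hx
      have e : g⁻¹ * (g * x * g⁻¹) * g⁻¹⁻¹ = x := by group
      rw [e] at this
      exact this
  rw [hi] at hjs
  intro b hb u hu
  have hbN := hnorm (hBle hb)
  have hle : U0 ≤ U0.comap (MulAut.conj b).toMonoidHom := by
    conv_lhs => rw [hU0]
    apply sSup_le
    intro C hC
    rw [← Subgroup.map_le_iff_le_comap]
    have hCW : conjBy C b ∈ W := hWconj C (hΔ0W hC) b (hWG B hB hb)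
    have h3 : conjBy C b ≤ N := by
      rw [Subgroup.map_le_iff_le_comap]
      intro x hx
      rw [Subgroup.mem_comap]
      change b * x * b⁻¹ ∈ N
      exact (Subgroup.mem_normalizer_iff.mp hbN x).mp (Subgroup.mem_sup_left ((le_sSup hC : C ≤ U0) hx))
    exact le_sSup (hjs _ hCW h3)
  exact hle hu

theorem maxU_unique (hWG : ∀ A ∈ W, A ≤ G) (hWW : ∀ A ∈ W, ∀ B ∈ W, IsUnipotentOn (A ⊔ B))
    (hWconj : ∀ A ∈ W, ∀ g ∈ G, conjBy A g ∈ W)
    (Δ₁ Δ₂ : Set (Subgroup (LinearMap.GeneralLinearGroup k M))) (h1 : MaxU W Δ₁) (h2 : MaxU W Δ₂) : Δ₁ = Δ₂ := by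
  obtain ⟨m, hm⟩ : ∃ m, Module.finrank k (M →ₗ[k] M) - Module.finrank k (Dh (sSup (Δ₁ ∩ Δ₂))) = m := ⟨_, rfl⟩
  induction m using Nat.strong_induction_on generalizing Δ₁ Δ₂ with
  | _ m ih =>
    by_contra hne
    have hne1 : ¬ Δ₁ ⊆ Δ₂ := fun h => hne (h1.max Δ₂ h2.sub h h2.unip).symm
    have hne2 : ¬ Δ₂ ⊆ Δ₁ := fun h => hne (h2.max Δ₁ h1.sub h h1.unip)
    set Δ0 := Δ₁ ∩ Δ₂ with hΔ0
    have h0W : Δ0 ⊆ W := fun A hA => h1.sub hA.1
    have h01 : sSup Δ0 ≤ sSup Δ₁ := sSup_le_sSup Set.inter_subset_left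
    have h02 : sSup Δ0 ≤ sSup Δ₂ := sSup_le_sSup Set.inter_subset_right
    have h0 : ∀ A ∈ W, A ≤ sSup Δ0 → A ∈ Δ0 := fun A hA hle =>
      ⟨h1.mem hA (Dh_mono (hle.trans h01)), h2.mem hA (Dh_mono (hle.trans h02))⟩
    obtain ⟨A1, hA1, hA1'⟩ := Set.not_subset.mp hne1
    obtain ⟨A2, hA2, hA2'⟩ := Set.not_subset.mp hne2
    obtain ⟨B1, hB1W, hB1U, hB10, hB1n⟩ := exists_normalizer hWG hWconj h0 h0W h1.unip h01 (h1.sub hA1)
      (le_sSup hA1) (fun h => hA1' h.2)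
    obtain ⟨B2, hB2W, hB2U, hB20, hB2n⟩ := exists_normalizer hWG hWconj h0 h0W h2.unip h02 (h2.sub hA2)
      (le_sSup hA2) (fun h => hA2' h.1)
    have hB1 : B1 ∈ Δ₁ := h1.mem hB1W (Dh_mono hB1U)
    have hB2 : B2 ∈ Δ₂ := h2.mem hB2W (Dh_mono hB2U)
    have hu : IsUnipotentOn (sSup (Δ0 ∪ {B1, B2})) := by
      rw [sSup_union, sSup_pair]
      apply unip_sup (isUnipotentOn_mono h01 h1.unip) (hWW B1 hB1W B2 hB2W)
      have hle : B1 ⊔ B2 ≤ Subgroup.normalizer ((sSup Δ0 : Subgroup (LinearMap.GeneralLinearGroup k M)) :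
          Set (LinearMap.GeneralLinearGroup k M)) := by
        have key : ∀ B : Subgroup (LinearMap.GeneralLinearGroup k M), (∀ b ∈ B, ∀ u ∈ sSup Δ0, b * u * b⁻¹ ∈ sSup Δ0) →
            B ≤ Subgroup.normalizer ((sSup Δ0 : Subgroup (LinearMap.GeneralLinearGroup k M)) :
              Set (LinearMap.GeneralLinearGroup k M)) := by
          intro B hB b hb
          rw [Subgroup.mem_normalizer_iff]
          intro x
          constructor
          · intro hx; exact hB b hb x hx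
          · intro hx
            have := hB b⁻¹ (inv_mem hb) _ hx
            have e : b⁻¹ * (b * x * b⁻¹) * b⁻¹⁻¹ = x := by group
            rw [e] at this
            exact this
        exact sup_le (key B1 hB1n) (key B2 hB2n)
      intro b hb u hu
      exact (Subgroup.mem_normalizer_iff.mp (hle hb) u).mp hu
    obtain ⟨Δ3, h3, hmax3⟩ := exists_maxU (W := W) (Δ0 ∪ {B1, B2}) (by
      rintro C (hC | rfl | rfl)
      · exact h0W hC
      · exact hB1W
      · exact hB2W) hu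
    have hstep : ∀ Δ₄ B, MaxU W Δ₄ → B ∈ Δ₄ → B ∈ Δ3 → B ∈ W → Δ0 ⊆ Δ₄ → B ∉ Δ0 → Δ3 = Δ₄ := by
      intro Δ₄ B h4 hB4 hB3 hBW h04 hB0
      have hlt : Dh (sSup Δ0) < Dh (sSup (Δ3 ∩ Δ₄)) := by
        apply lt_of_le_of_ne
        · apply Dh_mono
          apply sSup_le_sSup
          intro C hC
          exact ⟨h3 (Or.inl hC), h04 hC⟩
        · intro heq
          apply hB0
          have hDB : Dh B ≤ Dh (sSup Δ0) := by
            rw [heq]
            exact Dh_mono (le_sSup ⟨hB3, hB4⟩)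
          exact ⟨h1.mem hBW (hDB.trans (Dh_mono h01)), h2.mem hBW (hDB.trans (Dh_mono h02))⟩
      have hfin := Submodule.finrank_lt_finrank_of_lt hlt
      have hle : Module.finrank k (Dh (sSup (Δ3 ∩ Δ₄))) ≤ Module.finrank k (M →ₗ[k] M) := Submodule.finrank_le _
      exact ih _ (by omega) Δ3 Δ₄ hmax3 h4 rfl
    have e1 := hstep Δ₁ B1 h1 hB1 (h3 (Or.inr (Or.inl rfl))) hB1W Set.inter_subset_left hB10
    have e2 := hstep Δ₂ B2 h2 hB2 (h3 (Or.inr (Or.inr rfl))) hB2W Set.inter_subset_right hB20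
    exact hne (e1.symm.trans e2)

/-- the Baer–Suzuki type theorem -/
theorem unip_sSup (hWG : ∀ A ∈ W, A ≤ G) (hWW : ∀ A ∈ W, ∀ B ∈ W, IsUnipotentOn (A ⊔ B))
    (hWconj : ∀ A ∈ W, ∀ g ∈ G, conjBy A g ∈ W) : IsUnipotentOn (sSup W) := by
  obtain ⟨Δ, _, hΔ⟩ := exists_maxU (W := W) ∅ (Set.empty_subset _) (by
    rw [sSup_empty, isUnipotentOn_iff]
    refine ⟨1, ?_⟩
    rw [pow_one, Dh, Submodule.span_eq_bot]
    rintro _ ⟨g, hg, rfl⟩
    have hg' : g = 1 := hg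
    change (g : M →ₗ[k] M) - 1 = 0
    rw [hg', Units.val_one, sub_self])
  have hW : W ⊆ Δ := by
    intro A hA
    obtain ⟨Δ', h1, h2⟩ := exists_maxU (W := W) {A} (Set.singleton_subset_iff.mpr hA) (by
      have := hWW A hA A hA
      rw [sup_idem] at this
      rwa [sSup_singleton])
    rw [maxU_unique hWG hWW hWconj Δ Δ' hΔ h2]
    exact h1 rfl
  exact isUnipotentOn_mono (sSup_le_sSup hW) hΔ.unip

end BS

end Cfsg.Agent.H11.QP
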