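import Cfsg.Agent.H11.QpMain
import Cfsg.Agent.H11.QpUni

set_option autoImplicit false
set_option linter.unusedSectionVars false
set_option linter.unusedSimpArgs false

/-! opposite pairs and the resulting `SL₂` -/

namespace Cfsg.Agent.H11.QP

open Cfsg Polynomial

section opp
variable {k : Type*} [Field k] {M : Type*} [AddCommGroup M] [Module k M]
variable {G : Subgroup (LinearMap.GeneralLinearGroup k M)}

/-- `x` and `y` are opposite -/
structure Opp (x y : M →ₗ[k] M) : Prop where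
  xx : x * x = 0
  yy : y * y = 0
  xyx : x * y * x = x
  yxy : y * x * y = y

theorem Opp.symm {x y : M →ₗ[k] M} (h : Opp x y) : Opp y x := ⟨h.yy, h.xx, h.yxy, h.xyx⟩

theorem Opp.xyx' {x y : M →ₗ[k] M} (h : Opp x y) : x * (y * x) = x := by rw [← mul_assoc, h.xyx]
theorem Opp.yxy' {x y : M →ₗ[k] M} (h : Opp x y) : y * (x * y) = y := by rw [← mul_assoc, h.yxy]
theorem Opp.xxz {x y : M →ₗ[k] M} (h : Opp x y) (z : M →ₗ[k] M) : x * (x * z) = 0 := by
  rw [← mul_assoc, h.xx, zero_mul]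
theorem Opp.yyz {x y : M →ₗ[k] M} (h : Opp x y) (z : M →ₗ[k] M) : y * (y * z) = 0 := by
  rw [← mul_assoc, h.yy, zero_mul]
theorem Opp.xyxz {x y : M →ₗ[k] M} (h : Opp x y) (z : M →ₗ[k] M) : x * (y * (x * z)) = x * z := by
  rw [← mul_assoc, ← mul_assoc, h.xyx]
theorem Opp.yxyz {x y : M →ₗ[k] M} (h : Opp x y) (z : M →ₗ[k] M) : y * (x * (y * z)) = y * z := by
  rw [← mul_assoc, ← mul_assoc, h.yxy]

theorem Opp.smul {x y : M →ₗ[k] M} (h : Opp x y) {c : k} (hc : c ≠ 0) : Opp (c • x) (c⁻¹ • y) := by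
  refine ⟨H84.smul_sq_zero h.xx c, H84.smul_sq_zero h.yy _, ?_, ?_⟩
  · rw [smul_mul_smul_comm, smul_mul_smul_comm, h.xyx, mul_inv_cancel₀ hc, one_mul]
  · rw [smul_mul_smul_comm, smul_mul_smul_comm, h.yxy, inv_mul_cancel₀ hc, one_mul]

theorem Opp.neg {x y : M →ₗ[k] M} (h : Opp x y) : Opp (-x) (-y) := by
  refine ⟨by rw [neg_mul_neg, h.xx], by rw [neg_mul_neg, h.yy], ?_, ?_⟩
  · rw [neg_mul_neg, mul_neg, h.xyx]
  · rw [neg_mul_neg, mul_neg, h.yxy]

/-- the matrix -/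
noncomputable def PsiF {K : Type*} [CommRing K] (x y : M →ₗ[k] M) (φ : K →ₙ+* (M →ₗ[k] M))
    (g : Matrix.SpecialLinearGroup (Fin 2) K) : M →ₗ[k] M :=
  φ (g.1 0 0) * (x * y) + φ (g.1 0 1) * x + φ (g.1 1 0) * y + φ (g.1 1 1) * (y * x) + (1 - (x * y + y * x))

theorem PsiF_mul {K : Type*} [CommRing K] {x y : M →ₗ[k] M} (h : Opp x y) {φ : K →ₙ+* (M →ₗ[k] M)}
    (hφx : ∀ r, φ r * x = x * φ r) (hφy : ∀ r, φ r * y = y * φ r) 
    (g g' : Matrix.SpecialLinearGroup (Fin 2) K) : PsiF x y φ (g * g') = PsiF x y φ g * PsiF x y φ g' := by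
  have hX : ∀ r, x * φ r = φ r * x := fun r => (hφx r).symm
  have hY : ∀ r, y * φ r = φ r * y := fun r => (hφy r).symm
  have hX' : ∀ r z, x * (φ r * z) = φ r * (x * z) := fun r z => by rw [← mul_assoc, hX, mul_assoc]
  have hY' : ∀ r z, y * (φ r * z) = φ r * (y * z) := fun r z => by rw [← mul_assoc, hY, mul_assoc]
  unfold PsiF
  rw [mul00, mul01, mul10, mul11]
  simp only [map_add, map_mul, mul_add, add_mul, mul_sub, sub_mul, mul_assoc, hX, hY, hX', hY', h.xx, h.yy, h.xyx',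
    h.yxy', h.xxz, h.yyz, h.xyxz, h.yxyz, mul_zero, zero_mul, one_mul, mul_one]
  abel

theorem PsiF_one {K : Type*} [CommRing K] {x y : M →ₗ[k] M} (h : Opp x y) {φ : K →ₙ+* (M →ₗ[k] M)}
    (hφ1 : φ 1 = x * y + y * x) : PsiF x y φ (1 : Matrix.SpecialLinearGroup (Fin 2) K) = 1 := by
  unfold PsiF
  rw [one_00, one_01, one_10, one_11, hφ1, map_zero]
  simp only [mul_add, add_mul, mul_assoc, h.xx, h.yy, h.xyx', h.yxy', h.xxz, h.yyz, h.xyxz, h.yxyz, mul_zero, zero_mul]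
  abel

/-- the homomorphism -/
noncomputable def Psi {K : Type*} [CommRing K] {x y : M →ₗ[k] M} (h : Opp x y) (φ : K →ₙ+* (M →ₗ[k] M))
    (hφx : ∀ r, φ r * x = x * φ r) (hφy : ∀ r, φ r * y = y * φ r) (hφ1 : φ 1 = x * y + y * x) :
    Matrix.SpecialLinearGroup (Fin 2) K →* LinearMap.GeneralLinearGroup k M :=
  MonoidHom.toHomUnits
    { toFun := PsiF x y φ
      map_one' := PsiF_one h hφ1
      map_mul' := PsiF_mul h hφx hφy }

theorem Psi_val {K : Type*} [CommRing K] {x y : M →ₗ[k] M} (h : Opp x y) (φ : K →ₙ+* (M →ₗ[k] M))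
    (hφx : ∀ r, φ r * x = x * φ r) (hφy : ∀ r, φ r * y = y * φ r) (hφ1 : φ 1 = x * y + y * x)
    (g : Matrix.SpecialLinearGroup (Fin 2) K) :
    ((Psi h φ hφx hφy hφ1 g : LinearMap.GeneralLinearGroup k M) : M →ₗ[k] M) = PsiF x y φ g := rfl

theorem Psi_X2 {K : Type*} [CommRing K] {x y : M →ₗ[k] M} (h : Opp x y) (φ : K →ₙ+* (M →ₗ[k] M))
    (hφx : ∀ r, φ r * x = x * φ r) (hφy : ∀ r, φ r * y = y * φ r) (hφ1 : φ 1 = x * y + y * x) (r : K) :
    ((Psi h φ hφx hφy hφ1 (X2 r) : LinearMap.GeneralLinearGroup k M) : M →ₗ[k] M) = 1 + φ r * x := by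
  rw [Psi_val, PsiF, X2_00, X2_01, X2_10, X2_11, hφ1, map_zero]
  simp only [mul_add, add_mul, mul_assoc, h.xx, h.yy, h.xyx', h.yxy', h.xxz, h.yyz, h.xyxz, h.yxyz, mul_zero, zero_mul]
  abel

theorem Psi_Y2 {K : Type*} [CommRing K] {x y : M →ₗ[k] M} (h : Opp x y) (φ : K →ₙ+* (M →ₗ[k] M))
    (hφx : ∀ r, φ r * x = x * φ r) (hφy : ∀ r, φ r * y = y * φ r) (hφ1 : φ 1 = x * y + y * x) (r : K) :
    ((Psi h φ hφx hφy hφ1 (Y2 r) : LinearMap.GeneralLinearGroup k M) : M →ₗ[k] M) = 1 + φ r * y := by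
  rw [Psi_val, PsiF, Y2_00, Y2_01, Y2_10, Y2_11, hφ1, map_zero]
  simp only [mul_add, add_mul, mul_assoc, h.xx, h.yy, h.xyx', h.yxy', h.xxz, h.yyz, h.xyxz, h.yxyz, mul_zero, zero_mul]
  abel

/-- the homomorphism is injective over a field -/
theorem Psi_inj {K : Type*} [Field K] {x y : M →ₗ[k] M} (h : Opp x y) (hx0 : x ≠ 0) (φ : K →ₙ+* (M →ₗ[k] M))
    (hφx : ∀ r, φ r * x = x * φ r) (hφy : ∀ r, φ r * y = y * φ r) (hφ1 : φ 1 = x * y + y * x) :
    Function.Injective (Psi h φ hφx hφy hφ1) := by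
  have hinj : ∀ r : K, φ r * x = 0 → r = 0 := by
    intro r hr
    by_contra hr0
    apply hx0
    have h1 : φ (r⁻¹ * r) * x = 0 := by rw [map_mul, mul_assoc, hr, mul_zero]
    rw [inv_mul_cancel₀ hr0, hφ1, add_mul, h.xyx, mul_assoc, h.xx, mul_zero, add_zero] at h1
    exact h1
  have hX : ∀ r, x * φ r = φ r * x := fun r => (hφx r).symm
  have hY : ∀ r, y * φ r = φ r * y := fun r => (hφy r).symm
  have hX' : ∀ r z, x * (φ r * z) = φ r * (x * z) := fun r z => by rw [← mul_assoc, hX, mul_assoc]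
  have hY' : ∀ r z, y * (φ r * z) = φ r * (y * z) := fun r z => by rw [← mul_assoc, hY, mul_assoc]
  rw [injective_iff_map_eq_one]
  intro g hg
  have h0 : PsiF x y φ g = 1 := by rw [← Psi_val h φ hφx hφy hφ1, hg]; rfl
  -- d
  have e1 : φ (g.1 1 0) * x = 0 := by
    have : x * PsiF x y φ g * x = 0 := by rw [h0, mul_one, h.xx]
    rw [← this]
    unfold PsiF
    simp only [map_add, map_mul, mul_add, add_mul, mul_sub, sub_mul, mul_assoc, hX, hY, hX', hY', h.xx, h.yy, h.xyx',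
      h.yxy', h.xxz, h.yyz, h.xyxz, h.yxyz, mul_zero, zero_mul, one_mul, mul_one]
    abel
  have e2 : φ (g.1 0 0 - 1) * x = 0 := by
    have : x * y * (PsiF x y φ g - 1) * x = 0 := by rw [h0, sub_self, mul_zero, zero_mul]
    rw [← this, map_sub, hφ1]
    unfold PsiF
    simp only [map_add, map_mul, mul_add, add_mul, mul_sub, sub_mul, mul_assoc, hX, hY, hX', hY', h.xx, h.yy, h.xyx',
      h.yxy', h.xxz, h.yyz, h.xyxz, h.yxyz, mul_zero, zero_mul, one_mul, mul_one]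
    abel
  have e3 : φ (g.1 0 1) * x = 0 := by
    have : x * y * (PsiF x y φ g - 1) * (y * x) = 0 := by rw [h0, sub_self, mul_zero, zero_mul]
    rw [← this]
    unfold PsiF
    simp only [map_add, map_mul, mul_add, add_mul, mul_sub, sub_mul, mul_assoc, hX, hY, hX', hY', h.xx, h.yy, h.xyx',
      h.yxy', h.xxz, h.yyz, h.xyxz, h.yxyz, mul_zero, zero_mul, one_mul, mul_one]
    abel
  have e4 : φ (g.1 1 1 - 1) * x = 0 := by
    have : x * (PsiF x y φ g - 1) * (y * x) = 0 := by rw [h0, sub_self, mul_zero, zero_mul]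
    rw [← this, map_sub, hφ1]
    unfold PsiF
    simp only [map_add, map_mul, mul_add, add_mul, mul_sub, sub_mul, mul_assoc, hX, hY, hX', hY', h.xx, h.yy, h.xyx',
      h.yxy', h.xxz, h.yyz, h.xyxz, h.yxyz, mul_zero, zero_mul, one_mul, mul_one]
    abel
  apply sl2_ext
  · rw [one_00]; exact sub_eq_zero.mp (hinj _ e2)
  · rw [one_01]; exact hinj _ e3
  · rw [one_10]; exact hinj _ e1
  · rw [one_11]; exact sub_eq_zero.mp (hinj _ e4)

/-! ### unipotency -/

theorem unip_words {A B : Subgroup (LinearMap.GeneralLinearGroup k M)} {a b : Submodule k (M →ₗ[k] M)} (hA : Dh A ≤ a)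
    (hB : Dh B ≤ b) (haa : a * a = ⊥) (hbb : b * b = ⊥) {m : ℕ} (hab : (a * b) ^ m = ⊥) : IsUnipotentOn (A ⊔ B) := by
  have hN : ∀ n : ℕ, (a ⊔ b) ^ (2 * (n + 1)) ≤ (a * b) ^ (n + 1) ⊔ (b * a) ^ (n + 1) := by
    have hN2 : (a ⊔ b) * (a ⊔ b) = a * b ⊔ b * a := by
      rw [Submodule.sup_mul, Submodule.mul_sup, Submodule.mul_sup, haa, hbb, bot_sup_eq, sup_bot_eq]
    intro n
    induction n with
    | zero => rw [zero_add, mul_one, pow_two, hN2, pow_one, pow_one]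
    | succ n ih =>
      have h1 : (a ⊔ b) ^ (2 * (n + 1 + 1)) = (a ⊔ b) ^ (2 * (n + 1)) * (a * b ⊔ b * a) := by
        rw [show 2 * (n + 1 + 1) = 2 * (n + 1) + 2 by ring, pow_add, pow_two (a ⊔ b), hN2]
      rw [h1]
      refine (sm_left ih).trans ?_
      rw [Submodule.sup_mul, Submodule.mul_sup, Submodule.mul_sup]
      have h2 : (a * b) ^ (n + 1) * (b * a) = ⊥ := by
        rw [pow_succ]
        calc (a * b) ^ n * (a * b) * (b * a) = (a * b) ^ n * a * (b * b) * a := by simp only [mul_assoc]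
          _ = ⊥ := by rw [hbb, Submodule.mul_bot, Submodule.bot_mul]
      have h3 : (b * a) ^ (n + 1) * (a * b) = ⊥ := by
        rw [pow_succ]
        calc (b * a) ^ n * (b * a) * (a * b) = (b * a) ^ n * b * (a * a) * b := by simp only [mul_assoc]
          _ = ⊥ := by rw [haa, Submodule.mul_bot, Submodule.bot_mul]
      rw [h2, h3, sup_bot_eq, bot_sup_eq, ← pow_succ, ← pow_succ]
  have hba : (b * a) ^ (m + 1) = ⊥ := by
    have : ∀ n, (b * a) ^ (n + 1) = b * (a * b) ^ n * a := by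
      intro n
      induction n with
      | zero => rw [zero_add, pow_one, pow_zero, mul_one]
      | succ n ih => rw [pow_succ', ih, pow_succ' (a * b)]; simp only [mul_assoc]
    rw [this, hab, Submodule.mul_bot, Submodule.bot_mul]
  have hzero : (a ⊔ b) ^ (2 * (m + 1)) = ⊥ := by
    rw [← le_bot_iff]
    refine (hN m).trans ?_
    rw [hba, pow_succ, hab, Submodule.bot_mul, sup_bot_eq]
  -- the closure
  set N := a ⊔ b with hNdef
  set D : Submodule k (M →ₗ[k] M) := ⨆ i : ℕ, N ^ (i + 1) with hD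
  have hDn : ∀ n, D ^ (n + 1) ≤ ⨆ i : ℕ, N ^ (i + (n + 1)) := by
    intro n
    induction n with
    | zero => rw [zero_add, pow_one]
    | succ n ih =>
      rw [pow_succ]
      refine (sm_left ih).trans ?_
      rw [Submodule.iSup_mul]
      refine iSup_le (fun i => ?_)
      rw [hD, Submodule.mul_iSup]
      refine iSup_le (fun j => ?_)
      rw [← pow_add]
      exact le_iSup_of_le (i + j) (by rw [show i + (n + 1) + (j + 1) = i + j + (n + 1 + 1) by ring])
  have hDD : D * D ≤ D := by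
    have := hDn 1
    rw [show (1 : ℕ) + 1 = 2 by rfl, pow_two] at this
    refine this.trans (iSup_le (fun i => ?_))
    exact le_iSup_of_le (i + 1) le_rfl
  have hND : N ≤ D := le_iSup_of_le 0 (by rw [zero_add, pow_one])
  rw [isUnipotentOn_iff]
  refine ⟨2 * (m + 1), ?_⟩
  apply pow_bot_mono (Dh_sup_le hDD ((hA.trans le_sup_left).trans hND) ((hB.trans le_sup_right).trans hND))
  rw [← le_bot_iff, show 2 * (m + 1) = (2 * m + 1) + 1 by ring]
  refine (hDn _).trans (iSup_le (fun i => ?_))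
  rw [pow_add, show 2 * m + 1 + 1 = 2 * (m + 1) by ring, hzero, Submodule.mul_bot]

end opp

end Cfsg.Agent.H11.QP
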