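import Cfsg.Agent.H11.QpOpp

set_option autoImplicit false
set_option linter.unusedSectionVars false
set_option linter.unusedSimpArgs false

/-! pairs -/

namespace Cfsg.Agent.H11.QP

open Cfsg Polynomial

section pair
variable {k : Type*} [Field k] {M : Type*} [AddCommGroup M] [Module k M] [FiniteDimensional k M]
variable {G : Subgroup (LinearMap.GeneralLinearGroup k M)}

theorem nilp_symm {x y : M →ₗ[k] M} (h : IsNilpotent (x * y)) : IsNilpotent (y * x) := by
  obtain ⟨n, hn⟩ := h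
  refine ⟨n + 1, ?_⟩
  have : ∀ n, (y * x) ^ (n + 1) = y * (x * y) ^ n * x := by
    intro n
    induction n with
    | zero => rw [zero_add, pow_one, pow_zero, mul_one]
    | succ n ih => rw [pow_succ', ih, pow_succ' (x * y)]; simp only [mul_assoc]
  rw [this, hn, mul_zero, zero_mul]

/-- the polynomial data of a non-nilpotent pair -/
structure PairData (G : Subgroup (LinearMap.GeneralLinearGroup k M)) (x y : M →ₗ[k] M) (m₀ u : k[X]) : Prop where
  irr : Irreducible m₀
  cop : IsCoprime (X : k[X]) m₀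
  hx : ∀ p : k[X], aeval (cc x y) p * x = 0 ↔ m₀ ∣ p
  hy : ∀ p : k[X], aeval (cc x y) p * y = 0 ↔ m₀ ∣ p
  ix : ∀ p : k[X], Inn G (aeval (cc x y) p * x)
  iy : ∀ p : k[X], Inn G (aeval (cc x y) p * y)
  hu : m₀ ∣ u * X - 1
  opp : Opp x (aeval (cc x y) u * y)

theorem main_B (h2 : (2 : k) ≠ 0) (hk3 : Nat.card k ≠ 3) {x y : M →ₗ[k] M} (hx : Mn G x) (hy : Mn G y)
    (hnn : ¬ IsNilpotent (x * y)) : ∃ m₀ u : k[X], PairData G x y m₀ u := by
  obtain ⟨m₀, hirr, hcop, hm, hmy, hix⟩ := main_A h2 hk3 hx hy hnn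
  obtain ⟨m₁, hirr1, hcop1, hm1, hmy1, hiy⟩ := main_A h2 hk3 hy hx (fun h => hnn (nilp_symm h))
  rw [cc_symm] at hm1 hmy1 hiy
  have hcx := cc_comm_left (y := y) hx.inn.sq
  have hcy := cc_comm_right (x := x) hy.inn.sq
  have hass : Associated m₀ m₁ := by
    have h1 : m₁ ∣ m₀ := (hm1 m₀).mp hmy
    exact (hirr1.associated_of_dvd hirr h1).symm
  obtain ⟨u, v, huv⟩ := hcop
  have hu : m₀ ∣ u * X - 1 := ⟨-v, by linear_combination huv⟩
  refine ⟨m₀, u, hirr, ⟨u, v, huv⟩, hm, fun p => by rw [hm1, hass.dvd_iff_dvd_left], hix, hiy, hu, ?_⟩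
  have hux : aeval (cc x y) u * (x * (y * x)) = x := by
    have h2 : aeval (cc x y) (u * X - 1) * x = 0 := (hm _).mpr hu
    rw [map_sub, sub_mul, map_mul, aeval_X, map_one, one_mul, mul_assoc _ _ x] at h2
    have h3 : cc x y * x = x * (y * x) := by
      rw [cc, add_mul, mul_assoc y, hx.inn.sq, mul_zero, add_zero, mul_assoc]
    rw [h3] at h2
    exact sub_eq_zero.mp h2
  have huy : aeval (cc x y) u * (y * (x * y)) = y := by
    have h2 : aeval (cc x y) (u * X - 1) * y = 0 := by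
      obtain ⟨q, hq⟩ := hu
      rw [hq, mul_comm, map_mul, mul_assoc, hmy, mul_zero]
    rw [map_sub, sub_mul, map_mul, aeval_X, map_one, one_mul, mul_assoc _ _ y] at h2
    have h3 : cc x y * y = y * (x * y) := by
      rw [cc, add_mul, mul_assoc x, hy.inn.sq, mul_zero, zero_add, mul_assoc]
    rw [h3] at h2
    exact sub_eq_zero.mp h2
  refine ⟨hx.inn.sq, (hiy u).sq, ?_, ?_⟩
  · calc x * (aeval (cc x y) u * y) * x = x * aeval (cc x y) u * (y * x) := by simp only [mul_assoc]
      _ = aeval (cc x y) u * (x * (y * x)) := by rw [← aeval_comm hcx]; simp only [mul_assoc]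
      _ = x := hux
  · calc aeval (cc x y) u * y * x * (aeval (cc x y) u * y)
        = aeval (cc x y) u * (y * (x * aeval (cc x y) u)) * y := by simp only [mul_assoc]
      _ = aeval (cc x y) u * (y * aeval (cc x y) u) * (x * y) := by rw [← aeval_comm hcx]; simp only [mul_assoc]
      _ = aeval (cc x y) u * (aeval (cc x y) u * (y * (x * y))) := by rw [← aeval_comm hcy]; simp only [mul_assoc]
      _ = aeval (cc x y) u * y := by rw [huy]

/-- the field homomorphism -/
noncomputable def phiF {x y : M →ₗ[k] M} (m₀ u : k[X]) (r : AdjoinRoot m₀) : M →ₗ[k] M :=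
  aeval (cc x y) (Classical.choose (AdjoinRoot.mk_surjective r)) *
    (x * (aeval (cc x y) u * y) + aeval (cc x y) u * y * x)

theorem phiF_mk {x y : M →ₗ[k] M} {m₀ u : k[X]} (h : PairData G x y m₀ u) (p : k[X]) :
    phiF (x := x) (y := y) m₀ u (AdjoinRoot.mk m₀ p) =
      aeval (cc x y) p * (x * (aeval (cc x y) u * y) + aeval (cc x y) u * y * x) := by
  have hcy := cc_comm_right (x := x) (y := y)
  unfold phiF
  have h1 := Classical.choose_spec (AdjoinRoot.mk_surjective (AdjoinRoot.mk m₀ p))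
  rw [AdjoinRoot.mk_eq_mk] at h1
  obtain ⟨q, hq⟩ := h1
  have hyy : aeval (cc x y) m₀ * y = 0 := (h.hy m₀).mpr dvd_rfl
  have hxx : aeval (cc x y) m₀ * x = 0 := (h.hx m₀).mpr dvd_rfl
  have hcom : aeval (cc x y) m₀ * aeval (cc x y) u = aeval (cc x y) u * aeval (cc x y) m₀ := by
    rw [← map_mul, mul_comm, map_mul]
  have key : aeval (cc x y) m₀ * (x * (aeval (cc x y) u * y) + aeval (cc x y) u * y * x) = 0 := by
    rw [mul_add, ← mul_assoc, hxx, zero_mul, ← mul_assoc, ← mul_assoc, hcom, mul_assoc _ _ y, hyy, mul_zero,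
      zero_mul, add_zero]
  rw [← sub_eq_zero, ← sub_mul, ← map_sub, hq, mul_comm m₀ q, map_mul, mul_assoc, key, mul_zero]

/-- as a non-unital ring homomorphism -/
noncomputable def phi {x y : M →ₗ[k] M} {m₀ u : k[X]} (h : PairData G x y m₀ u) :
    AdjoinRoot m₀ →ₙ+* (M →ₗ[k] M) where
  toFun := phiF (x := x) (y := y) m₀ u
  map_zero' := by
    have := phiF_mk h 0
    rw [map_zero, map_zero, zero_mul] at this
    exact this
  map_add' r s := by
    obtain ⟨p, rfl⟩ := AdjoinRoot.mk_surjective r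
    obtain ⟨q, rfl⟩ := AdjoinRoot.mk_surjective s
    rw [← map_add, phiF_mk h, phiF_mk h, phiF_mk h, map_add, add_mul]
  map_mul' r s := by
    obtain ⟨p, rfl⟩ := AdjoinRoot.mk_surjective r
    obtain ⟨q, rfl⟩ := AdjoinRoot.mk_surjective s
    rw [← map_mul, phiF_mk h, phiF_mk h, phiF_mk h, map_mul]
    have hcx := cc_comm_left (y := y) h.opp.xx
    have hyy : y * y = 0 := by
      have h1 := (h.iy 1).sq
      rw [map_one, one_mul] at h1
      exact h1
    have hcy := cc_comm_right (x := x) hyy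
    set ε := x * (aeval (cc x y) u * y) + aeval (cc x y) u * y * x with hε
    have hcc : cc x y * ε = ε * cc x y := by
      have h1 : aeval (cc x y) u * cc x y = cc x y * aeval (cc x y) u := aeval_comm rfl u
      have e1 : cc x y * (x * (aeval (cc x y) u * y)) = x * (aeval (cc x y) u * y) * cc x y := by
        rw [← mul_assoc, hcx, mul_assoc, ← mul_assoc (cc x y), ← h1]
        simp only [mul_assoc]
        rw [hcy]
      have e2 : cc x y * (aeval (cc x y) u * y * x) = aeval (cc x y) u * y * x * cc x y := by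
        rw [← mul_assoc, ← mul_assoc, ← h1, mul_assoc _ (cc x y) y, hcy]
        simp only [mul_assoc]
        rw [hcx]
      rw [hε, mul_add, add_mul, e1, e2]
    have hee : ε * ε = ε := by
      have ho := h.opp
      rw [hε]
      set z := aeval (cc x y) u * y
      simp only [mul_add, add_mul, mul_assoc, ho.xx, ho.yy, ho.xyx', ho.yxy', ho.xxz, ho.yyz, ho.xyxz, ho.yxyz,
        mul_zero, zero_mul]
      abel
    have hcq : aeval (cc x y) q * ε = ε * aeval (cc x y) q := aeval_comm hcc q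
    calc aeval (cc x y) p * aeval (cc x y) q * ε = aeval (cc x y) p * (aeval (cc x y) q * ε * ε) := by
          rw [mul_assoc _ ε ε, hee, mul_assoc]
      _ = aeval (cc x y) p * (ε * aeval (cc x y) q * ε) := by rw [hcq]
      _ = aeval (cc x y) p * ε * (aeval (cc x y) q * ε) := by simp only [mul_assoc]

theorem phi_mk {x y : M →ₗ[k] M} {m₀ u : k[X]} (h : PairData G x y m₀ u) (p : k[X]) :
    phi h (AdjoinRoot.mk m₀ p) =
      aeval (cc x y) p * (x * (aeval (cc x y) u * y) + aeval (cc x y) u * y * x) := phiF_mk h p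

theorem phi_comm_x {x y : M →ₗ[k] M} {m₀ u : k[X]} (h : PairData G x y m₀ u) (r : AdjoinRoot m₀) :
    phi h r * x = x * phi h r := by
  obtain ⟨p, rfl⟩ := AdjoinRoot.mk_surjective r
  have hcx := cc_comm_left (y := y) h.opp.xx
  have ho := h.opp
  rw [phi_mk]
  have e1 : (x * (aeval (cc x y) u * y) + aeval (cc x y) u * y * x) * x = x := by
    rw [add_mul, ho.xyx, mul_assoc _ x x, ho.xx, mul_zero, add_zero]
  have e2 : x * (x * (aeval (cc x y) u * y) + aeval (cc x y) u * y * x) = x := by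
    rw [mul_add, ← mul_assoc, ho.xx, zero_mul, zero_add, ← mul_assoc, ho.xyx]
  rw [mul_assoc, e1, ← mul_assoc, ← aeval_comm hcx p, mul_assoc, e2]

theorem phi_comm_y {x y : M →ₗ[k] M} {m₀ u : k[X]} (h : PairData G x y m₀ u) (r : AdjoinRoot m₀) :
    phi h r * (aeval (cc x y) u * y) = aeval (cc x y) u * y * phi h r := by
  obtain ⟨p, rfl⟩ := AdjoinRoot.mk_surjective r
  have hyy : y * y = 0 := by
    have h1 := (h.iy 1).sq
    rw [map_one, one_mul] at h1
    exact h1
  have hcy := cc_comm_right (x := x) hyy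
  have ho := h.opp
  have hcu : cc x y * (aeval (cc x y) u * y) = aeval (cc x y) u * y * cc x y := by
    rw [← mul_assoc, show cc x y * aeval (cc x y) u = aeval (cc x y) u * cc x y from (aeval_comm rfl u).symm,
      mul_assoc, hcy, mul_assoc]
  rw [phi_mk]
  generalize aeval (cc x y) u * y = z at *
  have e1 : (x * z + z * x) * z = z := by
    rw [add_mul, ho.yxy, mul_assoc _ z z, ho.yy, mul_zero, zero_add]
  have e2 : z * (x * z + z * x) = z := by
    rw [mul_add, ← mul_assoc, ho.yxy, ← mul_assoc, ho.yy, zero_mul, add_zero]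
  rw [mul_assoc, e1, ← mul_assoc, ← aeval_comm hcu p, mul_assoc, e2]

theorem phi_one {x y : M →ₗ[k] M} {m₀ u : k[X]} (h : PairData G x y m₀ u) :
    phi h 1 = x * (aeval (cc x y) u * y) + aeval (cc x y) u * y * x := by
  rw [← map_one (AdjoinRoot.mk m₀), phi_mk, map_one, one_mul]

/-- the `SL₂` generated by the two one-parameter groups -/
theorem exists_SL2 (h2 : (2 : k) ≠ 0) (hk3 : Nat.card k ≠ 3) {x y : M →ₗ[k] M} (hx0 : x ≠ 0) {m₀ u : k[X]}
    (h : PairData G x y m₀ u) [Fact (Irreducible m₀)] :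
    ∃ Ψ : Matrix.SpecialLinearGroup (Fin 2) (AdjoinRoot m₀) →* LinearMap.GeneralLinearGroup k M,
      Function.Injective Ψ ∧ Ψ.range = Subgroup.closure
        ({g : LinearMap.GeneralLinearGroup k M | ∃ c : k, (g : M →ₗ[k] M) = 1 + c • x} ∪
          {g : LinearMap.GeneralLinearGroup k M | ∃ c : k, (g : M →ₗ[k] M) = 1 + c • y}) := by
  have ho := h.opp
  let Ψ := Psi (K := AdjoinRoot m₀) h.opp (phi h) (phi_comm_x h) (phi_comm_y h) (phi_one h)
  refine ⟨Ψ, Psi_inj h.opp hx0 _ _ _ _, ?_⟩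
  have hroot : AdjoinRoot.root m₀ ≠ 0 := by
    rw [← AdjoinRoot.mk_X, Ne, AdjoinRoot.mk_eq_zero]
    intro h1
    obtain ⟨a, b, hab⟩ := h.cop
    exact h.irr.not_isUnit (isUnit_of_dvd_one (hab ▸ dvd_add (h1.mul_left a) (dvd_mul_left m₀ b)))
  have htop : HS k (AdjoinRoot.root m₀) = ⊤ := by
    have := HS_top h2 hk3 (AdjoinRoot.powerBasis (K := k) h.irr.ne_zero) (by
      rw [AdjoinRoot.powerBasis_gen]; exact hroot)
    rwa [AdjoinRoot.powerBasis_gen] at this
  have hX : ∀ c : k, ((Ψ (X2 (algebraMap k (AdjoinRoot m₀) c)) : LinearMap.GeneralLinearGroup k M) : M →ₗ[k] M) =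
      1 + c • x := by
    intro c
    rw [Psi_X2, AdjoinRoot.algebraMap_eq, ← AdjoinRoot.mk_C, phi_mk, aeval_C, Algebra.algebraMap_eq_smul_one,
      smul_mul_assoc, one_mul, smul_mul_assoc, add_mul, ho.xyx, mul_assoc _ x x, ho.xx, mul_zero, add_zero]
  have hyy : y * y = 0 := by
    have h1 := (h.iy 1).sq
    rw [map_one, one_mul] at h1
    exact h1
  have hY : ∀ c : k, ((Ψ (Y2 (algebraMap k (AdjoinRoot m₀) c * AdjoinRoot.root m₀)) :
      LinearMap.GeneralLinearGroup k M) : M →ₗ[k] M) = 1 + c • y := by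
    intro c
    rw [Psi_Y2, AdjoinRoot.algebraMap_eq, ← AdjoinRoot.mk_C, ← AdjoinRoot.mk_X, ← map_mul, phi_mk]
    have e1 : (x * (aeval (cc x y) u * y) + aeval (cc x y) u * y * x) * (aeval (cc x y) u * y) =
        aeval (cc x y) u * y := by
      rw [add_mul, ho.yxy, mul_assoc _ (aeval (cc x y) u * y) _, ho.yy, mul_zero, zero_add]
    rw [mul_assoc, e1, ← mul_assoc, ← map_mul, mul_assoc, map_mul, aeval_C, Algebra.algebraMap_eq_smul_one,
      smul_mul_assoc, one_mul, smul_mul_assoc]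
    congr 2
    have h1 := (h.hy (u * X - 1)).mpr h.hu
    rw [map_sub, sub_mul, map_one, one_mul, mul_comm u X, sub_eq_zero] at h1
    exact h1
  rw [MonoidHom.range_eq_map, ← htop, HS, MonoidHom.map_closure]
  congr 1
  ext g
  constructor
  · rintro ⟨_, (⟨c, rfl⟩ | ⟨c, rfl⟩), rfl⟩
    · left; exact ⟨c, hX c⟩
    · right; exact ⟨c, hY c⟩
  · rintro (⟨c, hc⟩ | ⟨c, hc⟩)
    · exact ⟨_, Or.inl ⟨c, rfl⟩, Units.ext ((hX c).trans hc.symm)⟩
    · exact ⟨_, Or.inr ⟨c, rfl⟩, Units.ext ((hY c).trans hc.symm)⟩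

/-- the one-parameter subgroup -/
def oneP (x : M →ₗ[k] M) (hx : x * x = 0) : Subgroup (LinearMap.GeneralLinearGroup k M) where
  carrier := {g | ∃ c : k, (g : M →ₗ[k] M) = 1 + c • x}
  one_mem' := ⟨0, by rw [zero_smul, add_zero]; rfl⟩
  mul_mem' := by
    rintro g h ⟨c, hc⟩ ⟨d, hd⟩
    refine ⟨c + d, ?_⟩
    rw [Units.val_mul, hc, hd, mul_add, add_mul, add_mul, one_mul, mul_one, smul_mul_smul_comm, hx, smul_zero,
      add_zero, add_smul]
    simp only [one_mul]; abel
  inv_mem' := by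
    rintro g ⟨c, hc⟩
    refine ⟨-c, ?_⟩
    have h1 : (g : M →ₗ[k] M) * (1 + (-c) • x) = 1 := by
      rw [hc, mul_add, add_mul, add_mul, one_mul, mul_one, smul_mul_smul_comm, hx, smul_zero, add_zero, neg_smul]
      simp
    exact Units.inv_eq_of_mul_eq_one_right h1

theorem mem_oneP {x : M →ₗ[k] M} {hx : x * x = 0} {g : LinearMap.GeneralLinearGroup k M} :
    g ∈ oneP x hx ↔ ∃ c : k, (g : M →ₗ[k] M) = 1 + c • x := Iff.rfl

theorem Dh_oneP {x : M →ₗ[k] M} (hx : x * x = 0) : Dh (oneP x hx) ≤ Submodule.span k {x} := by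
  unfold Dh
  rw [Submodule.span_le]
  rintro _ ⟨g, ⟨c, hc⟩, rfl⟩
  change (g : M →ₗ[k] M) - 1 ∈ _
  rw [hc, add_sub_cancel_left]
  exact Submodule.smul_mem _ _ (Submodule.mem_span_singleton_self x)

theorem unip_oneP {x y : M →ₗ[k] M} (hx : x * x = 0) (hy : y * y = 0) (hn : IsNilpotent (x * y)) :
    IsUnipotentOn (oneP x hx ⊔ oneP y hy) := by
  obtain ⟨n, hn⟩ := hn
  refine unip_words (Dh_oneP hx) (Dh_oneP hy) ?_ ?_ (m := n) ?_
  · rw [Submodule.span_mul_span, Set.singleton_mul_singleton, hx, Submodule.span_zero_singleton]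
  · rw [Submodule.span_mul_span, Set.singleton_mul_singleton, hy, Submodule.span_zero_singleton]
  · rw [Submodule.span_mul_span, Set.singleton_mul_singleton, Submodule.span_pow, Set.singleton_pow, hn,
      Submodule.span_zero_singleton]

end pair

end Cfsg.Agent.H11.QP
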