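import Cfsg.Agent.H11.QpPair

set_option autoImplicit false
set_option linter.unusedSectionVars false
set_option linter.unusedSimpArgs false

/-! the rank one pairs -/

namespace Cfsg.Agent.H11.QP

open Cfsg Polynomial

section ee
variable {k : Type*} [Field k] {M : Type*} [AddCommGroup M] [Module k M] [FiniteDimensional k M]
variable {G : Subgroup (LinearMap.GeneralLinearGroup k M)}

/-- `z` is zero or has the same kernel and range as `x` (when `x` has minimal rank) -/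
def InE (G : Subgroup (LinearMap.GeneralLinearGroup k M)) (x z : M →ₗ[k] M) : Prop :=
  Inn G z ∧ LinearMap.ker x ≤ LinearMap.ker z ∧ LinearMap.range z ≤ LinearMap.range x

theorem range_le_ker {x : M →ₗ[k] M} (hx : x * x = 0) : LinearMap.range x ≤ LinearMap.ker x := by
  rintro _ ⟨v, rfl⟩
  rw [LinearMap.mem_ker, ← Module.End.mul_apply, hx, LinearMap.zero_apply]

theorem mul_eq_zero_of_le {a b : M →ₗ[k] M} (h : LinearMap.range b ≤ LinearMap.ker a) : a * b = 0 := by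
  apply LinearMap.ext
  intro v
  rw [Module.End.mul_apply]
  exact h ⟨v, rfl⟩

theorem le_of_mul_eq_zero {a b : M →ₗ[k] M} (h : a * b = 0) : LinearMap.range b ≤ LinearMap.ker a := by
  rintro _ ⟨v, rfl⟩
  rw [LinearMap.mem_ker, ← Module.End.mul_apply, h, LinearMap.zero_apply]

theorem InE.refl {x : M →ₗ[k] M} (hx : Inn G x) : InE G x x := ⟨hx, le_rfl, le_rfl⟩

theorem InE.zero (x : M →ₗ[k] M) : InE G x 0 := by
  refine ⟨Inn.zero, ?_, ?_⟩
  · rw [LinearMap.ker_zero]; exact le_top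
  · rw [LinearMap.range_zero]; exact bot_le

theorem InE.mul_zero {x z w : M →ₗ[k] M} (hx : x * x = 0) (hz : InE G x z) (hw : InE G x w) : z * w = 0 :=
  mul_eq_zero_of_le (hw.2.2.trans ((range_le_ker hx).trans hz.2.1))

theorem InE.add {x z w : M →ₗ[k] M} (hx : x * x = 0) (hz : InE G x z) (hw : InE G x w) : InE G x (z + w) := by
  refine ⟨hz.1.add hw.1 (InE.mul_zero hx hz hw) (InE.mul_zero hx hw hz), ?_, ?_⟩
  · intro v hv
    have h1 := hz.2.1 hv
    have h2 := hw.2.1 hv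
    rw [LinearMap.mem_ker] at h1 h2 ⊢
    rw [LinearMap.add_apply, h1, h2, add_zero]
  · rintro _ ⟨v, rfl⟩
    exact Submodule.add_mem _ (hz.2.2 ⟨v, rfl⟩) (hw.2.2 ⟨v, rfl⟩)

theorem InE.smul {x z : M →ₗ[k] M} (hz : InE G x z) (c : k) : InE G x (c • z) := by
  refine ⟨hz.1.smul c, ?_, ?_⟩
  · intro v hv
    have h1 := hz.2.1 hv
    rw [LinearMap.mem_ker] at h1 ⊢
    rw [LinearMap.smul_apply, h1, smul_zero]
  · rintro _ ⟨v, rfl⟩
    exact Submodule.smul_mem _ _ (hz.2.2 ⟨v, rfl⟩)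

theorem InE.neg {x z : M →ₗ[k] M} (hz : InE G x z) : InE G x (-z) := by
  have := hz.smul (-1)
  rwa [neg_smul, one_smul] at this

theorem InE.sub {x z w : M →ₗ[k] M} (hx : x * x = 0) (hz : InE G x z) (hw : InE G x w) : InE G x (z - w) := by
  rw [sub_eq_add_neg]
  exact hz.add hx hw.neg

theorem InE.trans {x z w : M →ₗ[k] M} (hz : InE G x z) (hw : InE G z w) : InE G x w :=
  ⟨hw.1, hz.2.1.trans hw.2.1, hw.2.2.trans hz.2.2⟩

theorem InE.mn {x z : M →ₗ[k] M} (hx : Mn G x) (hz : InE G x z) (hz0 : z ≠ 0) : Mn G z :=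
  hx.of_le hz.1 hz0 (Submodule.finrank_mono hz.2.2)

theorem InE.range_eq {x z : M →ₗ[k] M} (hx : Mn G x) (hz : InE G x z) (hz0 : z ≠ 0) :
    LinearMap.range z = LinearMap.range x :=
  Submodule.eq_of_le_of_finrank_le hz.2.2 (hx.le hz.1 hz0)

theorem InE.ker_eq {x z : M →ₗ[k] M} (hx : Mn G x) (hz : InE G x z) (hz0 : z ≠ 0) :
    LinearMap.ker z = LinearMap.ker x := by
  symm
  apply Submodule.eq_of_le_of_finrank_le hz.2.1
  have h2 := hx.le hz.1 hz0
  have e1 := rk_add_ker z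
  have e2 := rk_add_ker x
  omega

theorem InE.symm {x z : M →ₗ[k] M} (hx : Mn G x) (hz : InE G x z) (hz0 : z ≠ 0) : InE G z x :=
  ⟨hx.1, (hz.ker_eq hx hz0).le, (hz.range_eq hx hz0).ge⟩

theorem InE.neg_left {x z : M →ₗ[k] M} (hz : InE G (-x) z) : InE G x z := by
  refine ⟨hz.1, ?_, ?_⟩
  · rw [← LinearMap.ker_neg]; exact hz.2.1
  · rw [← LinearMap.range_neg x]; exact hz.2.2

theorem InE.conj {x z : M →ₗ[k] M} (hz : InE G x z) {g : LinearMap.GeneralLinearGroup k M} (hg : g ∈ G) :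
    InE G ((g : M →ₗ[k] M) * x * ((g⁻¹ : LinearMap.GeneralLinearGroup k M) : M →ₗ[k] M))
      ((g : M →ₗ[k] M) * z * ((g⁻¹ : LinearMap.GeneralLinearGroup k M) : M →ₗ[k] M)) := by
  have h1 : ((g⁻¹ : LinearMap.GeneralLinearGroup k M) : M →ₗ[k] M) * (g : M →ₗ[k] M) = 1 := by
    rw [← Units.val_mul, inv_mul_cancel, Units.val_one]
  refine ⟨hz.1.conj hg, ?_, ?_⟩
  · intro v hv
    rw [LinearMap.mem_ker] at hv ⊢
    rw [Module.End.mul_apply, Module.End.mul_apply] at hv ⊢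
    have h2 := congrArg ((g⁻¹ : LinearMap.GeneralLinearGroup k M) : M →ₗ[k] M) hv
    rw [map_zero, ← Module.End.mul_apply, h1, Module.End.one_apply] at h2
    have h3 : z (((g⁻¹ : LinearMap.GeneralLinearGroup k M) : M →ₗ[k] M) v) = 0 := hz.2.1 h2
    rw [h3, map_zero]
  · rintro _ ⟨v, rfl⟩
    obtain ⟨w, hw⟩ := hz.2.2 ⟨((g⁻¹ : LinearMap.GeneralLinearGroup k M) : M →ₗ[k] M) v, rfl⟩
    refine ⟨(g : M →ₗ[k] M) w, ?_⟩
    rw [Module.End.mul_apply, Module.End.mul_apply, ← Module.End.mul_apply _ (g : M →ₗ[k] M) w, h1,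
      Module.End.one_apply, hw, Module.End.mul_apply, Module.End.mul_apply]

/-! ### non-nilpotent pairs -/

/-- the two subspaces meet trivially -/
def NN (x y : M →ₗ[k] M) : Prop :=
  LinearMap.ker y ⊓ LinearMap.range x = ⊥ ∧ LinearMap.ker x ⊓ LinearMap.range y = ⊥

theorem NN.symm {x y : M →ₗ[k] M} (h : NN x y) : NN y x := ⟨h.2, h.1⟩

theorem NN.not_nilpotent {x y : M →ₗ[k] M} (h : NN x y) (hx0 : x ≠ 0) : ¬ IsNilpotent (x * y) := by
  rintro ⟨n, hn⟩
  obtain ⟨v, hv⟩ : ∃ v, x v ≠ 0 := by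
    by_contra hcon
    push Not at hcon
    exact hx0 (LinearMap.ext hcon)
  have key : ∀ n : ℕ, ((x * y) ^ n) (x v) ∈ LinearMap.range x ∧ ((x * y) ^ n) (x v) ≠ 0 := by
    intro n
    induction n with
    | zero => exact ⟨⟨v, rfl⟩, hv⟩
    | succ n ih =>
      rw [pow_succ', Module.End.mul_apply, Module.End.mul_apply]
      refine ⟨⟨_, rfl⟩, fun h0 => ?_⟩
      have h1 : y (((x * y) ^ n) (x v)) = 0 := by
        have : y (((x * y) ^ n) (x v)) ∈ LinearMap.ker x ⊓ LinearMap.range y := ⟨h0, ⟨_, rfl⟩⟩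
        rwa [h.2, Submodule.mem_bot] at this
      have h2 : ((x * y) ^ n) (x v) ∈ LinearMap.ker y ⊓ LinearMap.range x := ⟨h1, ih.1⟩
      rw [h.1, Submodule.mem_bot] at h2
      exact ih.2 h2
  apply (key n).2
  rw [hn, LinearMap.zero_apply]

theorem Opp.nn {x y : M →ₗ[k] M} (h : Opp x y) : NN x y := by
  constructor
  · rw [eq_bot_iff]
    rintro _ ⟨h1, ⟨w, rfl⟩⟩
    have := LinearMap.congr_fun h.xyx w
    rw [Module.End.mul_apply, Module.End.mul_apply] at this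
    have h1' : y (x w) = 0 := h1
    rw [h1', map_zero] at this
    exact this.symm
  · rw [eq_bot_iff]
    rintro _ ⟨h1, ⟨w, rfl⟩⟩
    have := LinearMap.congr_fun h.yxy w
    rw [Module.End.mul_apply, Module.End.mul_apply] at this
    have h1' : x (y w) = 0 := h1
    rw [h1', map_zero] at this
    exact this.symm

theorem NN.congr {x y x' y' : M →ₗ[k] M} (h : NN x y) (h1 : LinearMap.ker x' = LinearMap.ker x)
    (h2 : LinearMap.range x' = LinearMap.range x) (h3 : LinearMap.ker y' = LinearMap.ker y)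
    (h4 : LinearMap.range y' = LinearMap.range y) : NN x' y' := by
  unfold NN
  rw [h1, h2, h3, h4]; exact h

theorem exists_opp (h2 : (2 : k) ≠ 0) (hk3 : Nat.card k ≠ 3) {x y : M →ₗ[k] M} (hx : Mn G x) (hy : Mn G y)
    (hnn : ¬ IsNilpotent (x * y)) : ∃ z, InE G y z ∧ Opp x z := by
  obtain ⟨m₀, u, h⟩ := main_B h2 hk3 hx hy hnn
  have hcy := cc_comm_right (x := x) hy.inn.sq
  refine ⟨aeval (cc x y) u * y, ⟨h.iy u, ?_, ?_⟩, h.opp⟩
  · intro v hv
    rw [LinearMap.mem_ker] at hv ⊢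
    rw [Module.End.mul_apply, hv, map_zero]
  · rw [aeval_comm hcy]
    exact LinearMap.range_comp_le_range _ _

theorem nn_iff (h2 : (2 : k) ≠ 0) (hk3 : Nat.card k ≠ 3) {x y : M →ₗ[k] M} (hx : Mn G x) (hy : Mn G y) :
    ¬ IsNilpotent (x * y) ↔ NN x y := by
  constructor
  · intro h
    obtain ⟨z, hz, ho⟩ := exists_opp h2 hk3 hx hy h
    have hz0 : z ≠ 0 := by
      rintro rfl
      apply hx.2.1
      rw [← ho.xyx]; simp
    exact ho.nn.congr rfl rfl (hz.ker_eq hy hz0).symm (hz.range_eq hy hz0).symm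
  · intro h
    exact h.not_nilpotent hx.2.1

theorem NN.of_InE {x y a b : M →ₗ[k] M} (h : NN x y) (hx : Mn G x) (hy : Mn G y) (ha : InE G x a) (ha0 : a ≠ 0)
    (hb : InE G y b) (hb0 : b ≠ 0) : NN a b :=
  h.congr (ha.ker_eq hx ha0) (ha.range_eq hx ha0) (hb.ker_eq hy hb0) (hb.range_eq hy hb0)

/-- every nonzero element has an opposite -/
theorem NN.exists_opp (h2 : (2 : k) ≠ 0) (hk3 : Nat.card k ≠ 3) {x y a : M →ₗ[k] M} (h : NN x y) (hx : Mn G x)
    (hy : Mn G y) (ha : InE G x a) (ha0 : a ≠ 0) : ∃ b, InE G y b ∧ Opp a b := by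
  have h1 := h.of_InE hx hy ha ha0 (InE.refl hy.inn) hy.2.1
  exact QP.exists_opp h2 hk3 (ha.mn hx ha0) hy (h1.not_nilpotent ha0)

/-! ### the Weyl element -/

/-- the Weyl element -/
def wW (a b : M →ₗ[k] M) : M →ₗ[k] M := 1 + a - b - a * b - b * a

theorem Opp.w_mul {a b : M →ₗ[k] M} (h : Opp a b) : wW a b * wW (-a) (-b) = 1 := by
  unfold wW
  simp only [mul_add, add_mul, mul_sub, sub_mul, mul_assoc, h.xx, h.yy, h.xyx', h.yxy', h.xxz, h.yyz, h.xyxz, h.yxyz,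
    mul_zero, zero_mul, one_mul, mul_one, mul_neg, neg_mul, neg_neg]
  abel

theorem Opp.w_mul' {a b : M →ₗ[k] M} (h : Opp a b) : wW (-a) (-b) * wW a b = 1 := by
  have := h.neg.w_mul
  rwa [neg_neg, neg_neg] at this

theorem Opp.w_a {a b : M →ₗ[k] M} (h : Opp a b) : wW a b * a * wW (-a) (-b) = -b := by
  unfold wW
  simp only [mul_add, add_mul, mul_sub, sub_mul, mul_assoc, h.xx, h.yy, h.xyx', h.yxy', h.xxz, h.yyz, h.xyxz, h.yxyz,
    mul_zero, zero_mul, one_mul, mul_one, mul_neg, neg_mul, neg_neg]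
  abel

theorem Opp.w_b {a b : M →ₗ[k] M} (h : Opp a b) : wW a b * b * wW (-a) (-b) = -a := by
  unfold wW
  simp only [mul_add, add_mul, mul_sub, sub_mul, mul_assoc, h.xx, h.yy, h.xyx', h.yxy', h.xxz, h.yyz, h.xyxz, h.yxyz,
    mul_zero, zero_mul, one_mul, mul_one, mul_neg, neg_mul, neg_neg]
  abel

theorem Opp.w_eq {a b : M →ₗ[k] M} (h : Opp a b) : (1 + a) * (1 - b) * (1 + a) = wW a b := by
  unfold wW
  simp only [mul_add, add_mul, mul_sub, sub_mul, mul_assoc, h.xx, h.yy, h.xyx', h.yxy', h.xxz, h.yyz, h.xyxz, h.yxyz,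
    mul_zero, zero_mul, one_mul, mul_one, mul_neg, neg_mul, neg_neg]
  abel

theorem Opp.w_sq {a b : M →ₗ[k] M} (h : Opp a b) : wW a b * wW a b = 1 - (2 : k) • (a * b + b * a) := by
  unfold wW
  simp only [mul_add, add_mul, mul_sub, sub_mul, mul_assoc, h.xx, h.yy, h.xyx', h.yxy', h.xxz, h.yyz, h.xyxz, h.yxyz,
    mul_zero, zero_mul, one_mul, mul_one, mul_neg, neg_mul, neg_neg, two_smul]
  abel

/-- the Weyl element as a unit -/
noncomputable def wU {a b : M →ₗ[k] M} (h : Opp a b) : LinearMap.GeneralLinearGroup k M :=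
  ⟨wW a b, wW (-a) (-b), h.w_mul, h.w_mul'⟩

theorem wU_val {a b : M →ₗ[k] M} (h : Opp a b) : ((wU h : LinearMap.GeneralLinearGroup k M) : M →ₗ[k] M) = wW a b :=
  rfl

theorem wU_inv {a b : M →ₗ[k] M} (h : Opp a b) :
    (((wU h)⁻¹ : LinearMap.GeneralLinearGroup k M) : M →ₗ[k] M) = wW (-a) (-b) := rfl

theorem wU_mem {a b : M →ₗ[k] M} (h : Opp a b) {H : Subgroup (LinearMap.GeneralLinearGroup k M)}
    {ga gb : LinearMap.GeneralLinearGroup k M} (hga : ga ∈ H) (hgb : gb ∈ H) (ea : (ga : M →ₗ[k] M) = 1 + a)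
    (eb : (gb : M →ₗ[k] M) = 1 + b) : wU h ∈ H := by
  have h1 : ((gb⁻¹ : LinearMap.GeneralLinearGroup k M) : M →ₗ[k] M) = 1 - b := by
    have h2 : (gb : M →ₗ[k] M) * (1 - b) = 1 := by
      rw [eb, mul_sub, mul_one, add_mul, one_mul, h.yy]; simp
    exact Units.inv_eq_of_mul_eq_one_right h2
  have : wU h = ga * gb⁻¹ * ga := by
    apply Units.ext
    rw [wU_val, Units.val_mul, Units.val_mul, h1, ea, h.w_eq]
  rw [this]
  exact mul_mem (mul_mem hga (inv_mem hgb)) hga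

theorem wU_mem_G {a b : M →ₗ[k] M} (h : Opp a b) (ha : Inn G a) (hb : Inn G b) : wU h ∈ G :=
  wU_mem h (ha.el_mem 1) (hb.el_mem 1) (by rw [ha.el_val, one_smul]) (by rw [hb.el_val, one_smul])

/-- the Weyl element interchanges the two root groups -/
theorem wU_conj {a b z : M →ₗ[k] M} (h : Opp a b) (ha : Inn G a) (hb : Inn G b) (hz : InE G a z) :
    InE G b (((wU h : LinearMap.GeneralLinearGroup k M) : M →ₗ[k] M) * z *
      (((wU h)⁻¹ : LinearMap.GeneralLinearGroup k M) : M →ₗ[k] M)) := by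
  have h1 := hz.conj (wU_mem_G h ha hb)
  have h2 : ((wU h : LinearMap.GeneralLinearGroup k M) : M →ₗ[k] M) * a *
      (((wU h)⁻¹ : LinearMap.GeneralLinearGroup k M) : M →ₗ[k] M) = -b := h.w_a
  rw [h2] at h1
  exact h1.neg_left

theorem wU_conj' {a b z : M →ₗ[k] M} (h : Opp a b) (ha : Inn G a) (hb : Inn G b) (hz : InE G b z) :
    InE G a ((((wU h)⁻¹ : LinearMap.GeneralLinearGroup k M) : M →ₗ[k] M) * z *
      ((wU h : LinearMap.GeneralLinearGroup k M) : M →ₗ[k] M)) := by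
  have h1 := hz.conj (inv_mem (wU_mem_G h ha hb))
  rw [inv_inv] at h1
  have h2 : (((wU h)⁻¹ : LinearMap.GeneralLinearGroup k M) : M →ₗ[k] M) * b *
      ((wU h : LinearMap.GeneralLinearGroup k M) : M →ₗ[k] M) = -a := by
    have h3 := h.neg.w_b
    rw [neg_neg, neg_neg, mul_neg, neg_mul, neg_eq_iff_eq_neg] at h3
    exact h3
  rw [h2] at h1
  exact h1.neg_left

end ee

end Cfsg.Agent.H11.QP
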