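import Cfsg.Agent.H11.QpRank1

set_option autoImplicit false
set_option linter.unusedSectionVars false
set_option linter.unusedSimpArgs false

/-! the rank one pairs: group level -/

namespace Cfsg.Agent.H11.QP

open Cfsg Polynomial

section grp
variable {k : Type*} [Field k] {M : Type*} [AddCommGroup M] [Module k M] [FiniteDimensional k M]
variable {G : Subgroup (LinearMap.GeneralLinearGroup k M)}

/-- `A` is the root group `1 + InE x` -/
def IsE (G A : Subgroup (LinearMap.GeneralLinearGroup k M)) (x : M →ₗ[k] M) : Prop :=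
  ∀ g : LinearMap.GeneralLinearGroup k M, g ∈ A ↔ InE G x ((g : M →ₗ[k] M) - 1)

theorem isE_of_min {σ : LinearMap.GeneralLinearGroup k M} (hσ : σ ∈ minimalQuadraticElements G) :
    IsE G (sameActionSubgroup G σ) ((σ : M →ₗ[k] M) - 1) := fun _ => mem_E_iff (min_iff.mp hσ)

/-- the unit `1 + z` -/
noncomputable def un (z : M →ₗ[k] M) (hz : z * z = 0) : LinearMap.GeneralLinearGroup k M := H84.unip z hz

theorem un_val (z : M →ₗ[k] M) (hz : z * z = 0) : ((un z hz : LinearMap.GeneralLinearGroup k M) : M →ₗ[k] M) = 1 + z :=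
  rfl

theorem IsE.un_mem {A : Subgroup (LinearMap.GeneralLinearGroup k M)} {x z : M →ₗ[k] M} (hA : IsE G A x)
    (hz : InE G x z) : un z hz.1.sq ∈ A := by
  rw [hA, un_val, add_sub_cancel_left]; exact hz

theorem one_add_sub_one (g : LinearMap.GeneralLinearGroup k M) : (g : M →ₗ[k] M) = 1 + ((g : M →ₗ[k] M) - 1) := by
  abel

theorem sub_one_ne {g : LinearMap.GeneralLinearGroup k M} (hg : g ≠ 1) : (g : M →ₗ[k] M) - 1 ≠ 0 := by
  intro h
  exact hg (Units.ext (sub_eq_zero.mp h))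

theorem inv_val_of_sq {g : LinearMap.GeneralLinearGroup k M}
    (h : ((g : M →ₗ[k] M) - 1) * ((g : M →ₗ[k] M) - 1) = 0) :
    ((g⁻¹ : LinearMap.GeneralLinearGroup k M) : M →ₗ[k] M) = 1 - ((g : M →ₗ[k] M) - 1) := by
  have h1 : (g : M →ₗ[k] M) * (1 - ((g : M →ₗ[k] M) - 1)) = 1 := by
    conv_lhs => rw [one_add_sub_one g]
    rw [mul_sub, mul_one, add_mul, one_mul]
    simp only [add_sub_cancel, h]
    simp
  exact Units.inv_eq_of_mul_eq_one_right h1

theorem IsE.comm {A : Subgroup (LinearMap.GeneralLinearGroup k M)} {x : M →ₗ[k] M} (hx : x * x = 0) (hA : IsE G A x)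
    {g h : LinearMap.GeneralLinearGroup k M} (hg : g ∈ A) (hh : h ∈ A) : g * h = h * g := by
  rw [hA] at hg hh
  have h1 := InE.mul_zero hx hg hh
  have h2 := InE.mul_zero hx hh hg
  apply Units.ext
  rw [Units.val_mul, Units.val_mul]
  set a := (g : M →ₗ[k] M) - 1 with ha
  set b := (h : M →ₗ[k] M) - 1 with hb
  have ea : (g : M →ₗ[k] M) = 1 + a := one_add_sub_one g
  have eb : (h : M →ₗ[k] M) = 1 + b := one_add_sub_one h
  rw [ea, eb]
  simp only [mul_add, add_mul, one_mul, mul_one, h1, h2, add_zero]; abel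

theorem IsE.isMulCommutative {A : Subgroup (LinearMap.GeneralLinearGroup k M)} {x : M →ₗ[k] M} (hx : x * x = 0)
    (hA : IsE G A x) : IsMulCommutative A :=
  ⟨⟨fun a b => Subtype.ext (hA.comm hx a.2 b.2)⟩⟩

theorem nilpotent_of_comm {Γ : Type*} [Group Γ] (A : Subgroup Γ) (h : IsMulCommutative A) : Group.IsNilpotent A := by
  letI : CommGroup A := { (inferInstance : Group A) with mul_comm := h.1.1 }
  exact CommGroup.isNilpotent

theorem IsE.congr {A : Subgroup (LinearMap.GeneralLinearGroup k M)} {x a : M →ₗ[k] M} (hx : Mn G x) (hA : IsE G A x)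
    (ha : InE G x a) (ha0 : a ≠ 0) : IsE G A a := by
  intro g
  rw [hA]
  exact ⟨fun h => (ha.symm hx ha0).trans h, fun h => ha.trans h⟩

theorem mem_conjBy {Γ : Type*} [Group Γ] {A : Subgroup Γ} {g h : Γ} : h ∈ conjBy A g ↔ g⁻¹ * h * g ∈ A := by
  constructor
  · rintro ⟨a, ha, rfl⟩
    have : g⁻¹ * ((MulAut.conj g).toMonoidHom a) * g = a := by
      change g⁻¹ * (g * a * g⁻¹) * g = a
      group
    rw [this]; exact ha
  · intro h1
    refine ⟨g⁻¹ * h * g, h1, ?_⟩
    change g * (g⁻¹ * h * g) * g⁻¹ = h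
    group

theorem IsE.mem_wU {A B : Subgroup (LinearMap.GeneralLinearGroup k M)} {a b : M →ₗ[k] M} (hA : IsE G A a)
    (hB : IsE G B b) (ha : Inn G a) (hb : Inn G b) (ho : Opp a b) (h : LinearMap.GeneralLinearGroup k M) :
    h ∈ A ↔ wU ho * h * (wU ho)⁻¹ ∈ B := by
  have key : ∀ (u g : LinearMap.GeneralLinearGroup k M), ((u * g * u⁻¹ : LinearMap.GeneralLinearGroup k M) : M →ₗ[k] M) - 1 =
      (u : M →ₗ[k] M) * ((g : M →ₗ[k] M) - 1) * ((u⁻¹ : LinearMap.GeneralLinearGroup k M) : M →ₗ[k] M) := by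
    intro u g
    rw [Units.val_mul, Units.val_mul, mul_sub, sub_mul, mul_one, ← Units.val_mul u u⁻¹, mul_inv_cancel, Units.val_one]
  constructor
  · intro hh
    rw [hA] at hh
    rw [hB, key]
    exact wU_conj ho ha hb hh
  · intro hh
    rw [hB] at hh
    have h1 := wU_conj' ho ha hb hh
    have h2 := key (wU ho)⁻¹ (wU ho * h * (wU ho)⁻¹)
    rw [inv_inv] at h2
    rw [← h2] at h1
    have h3 : (wU ho)⁻¹ * (wU ho * h * (wU ho)⁻¹) * wU ho = h := by group
    rw [h3] at h1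
    rw [hA]; exact h1

/-- the conjugation condition -/
theorem conj_eq {A B : Subgroup (LinearMap.GeneralLinearGroup k M)} {x y : M →ₗ[k] M} (hx : Mn G x) (hy : Mn G y)
    (hA : IsE G A x) (hB : IsE G B y) {g h : LinearMap.GeneralLinearGroup k M} (hg : g ∈ A) (hh : h ∈ B)
    (hg1 : g ≠ 1) (hh1 : h ≠ 1)
    (ho : Opp ((g : M →ₗ[k] M) - 1) ((h : M →ₗ[k] M) - 1)) : conjBy A h⁻¹ = conjBy B g⁻¹ := by
  have hga := (hA g).mp hg
  have hhb := (hB h).mp hh
  have hA' := hA.congr hx hga (sub_one_ne hg1)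
  have hB' := hB.congr hy hhb (sub_one_ne hh1)
  have hw : wU ho = g * h⁻¹ * g := by
    apply Units.ext
    rw [wU_val, Units.val_mul, Units.val_mul, inv_val_of_sq ho.yy, ← ho.w_eq, ← one_add_sub_one]
  ext z
  rw [mem_conjBy, mem_conjBy, inv_inv, inv_inv]
  have h1 : h * z * h⁻¹ ∈ A ↔ g⁻¹ * (h * z * h⁻¹) * g ∈ A := by
    constructor
    · intro h2; exact mul_mem (mul_mem (inv_mem hg) h2) hg
    · intro h2
      have h3 := mul_mem (mul_mem hg h2) (inv_mem hg)
      have e : g * (g⁻¹ * (h * z * h⁻¹) * g) * g⁻¹ = h * z * h⁻¹ := by group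
      rwa [e] at h3
  rw [h1, hA'.mem_wU hB' hga.1 hhb.1 ho, hw]
  have e : g * h⁻¹ * g * (g⁻¹ * (h * z * h⁻¹) * g) * (g * h⁻¹ * g)⁻¹ = g * z * g⁻¹ := by group
  rw [e]

theorem special_eq {g h : LinearMap.GeneralLinearGroup k M}
    (ho : Opp ((g : M →ₗ[k] M) - 1) ((h : M →ₗ[k] M) - 1)) : h⁻¹ * g * h = g⁻¹ * h⁻¹ * g := by
  apply Units.ext
  rw [Units.val_mul, Units.val_mul, Units.val_mul, Units.val_mul, inv_val_of_sq ho.xx, inv_val_of_sq ho.yy]
  conv_lhs => rw [one_add_sub_one g, one_add_sub_one h]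
  conv_rhs => rw [one_add_sub_one g, one_add_sub_one h]
  simp only [add_sub_cancel_left]
  generalize (g : M →ₗ[k] M) - 1 = a at *
  generalize (h : M →ₗ[k] M) - 1 = b at *
  simp only [mul_add, add_mul, mul_sub, sub_mul, mul_assoc, ho.xx, ho.yy, ho.xyx', ho.yxy', ho.xxz, ho.yyz, ho.xyxz,
    ho.yxyz, mul_zero, zero_mul, one_mul, mul_one, mul_neg, neg_mul, neg_neg]
  abel

/-- a nontrivial element of `B` does not normalize `A` -/
theorem not_normalize {A B : Subgroup (LinearMap.GeneralLinearGroup k M)} {x y : M →ₗ[k] M} (hx : Mn G x)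
    (hy : Mn G y) (hA : IsE G A x) (hB : IsE G B y) (hn : NN x y) {h : LinearMap.GeneralLinearGroup k M} (hh : h ∈ B)
    (hh1 : h ≠ 1) (hN : ∀ g ∈ A, h * g * h⁻¹ ∈ A) : False := by
  have hb := (hB h).mp hh
  have hb0 := sub_one_ne hh1
  have h1 := hN _ (hA.un_mem (InE.refl hx.inn))
  rw [hA] at h1
  -- ranges
  obtain ⟨v, hv⟩ : ∃ v, x v ≠ 0 := by
    by_contra hcon
    push Not at hcon
    exact hx.2.1 (LinearMap.ext hcon)
  have hmem : (h : M →ₗ[k] M) (x v) ∈ LinearMap.range x := by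
    apply h1.2.2
    refine ⟨(h : M →ₗ[k] M) v, ?_⟩
    rw [Units.val_mul, Units.val_mul, un_val, LinearMap.sub_apply, Module.End.mul_apply, Module.End.mul_apply,
      ← Module.End.mul_apply _ (h : M →ₗ[k] M) v, ← Units.val_mul, inv_mul_cancel, Units.val_one,
      Module.End.one_apply, LinearMap.add_apply, Module.End.one_apply, Module.End.one_apply, map_add,
      add_sub_cancel_left]
  have h2 : ((h : M →ₗ[k] M) - 1) (x v) ∈ LinearMap.range x ⊓ LinearMap.range y := by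
    refine ⟨?_, hb.2.2 ⟨_, rfl⟩⟩
    rw [LinearMap.sub_apply, Module.End.one_apply]
    exact Submodule.sub_mem _ hmem ⟨v, rfl⟩
  have h3 : ((h : M →ₗ[k] M) - 1) (x v) = 0 := by
    have h4 : ((h : M →ₗ[k] M) - 1) (x v) ∈ LinearMap.ker x ⊓ LinearMap.range y :=
      ⟨range_le_ker hx.inn.sq h2.1, h2.2⟩
    rwa [hn.2, Submodule.mem_bot] at h4
  have h5 : x v ∈ LinearMap.ker y ⊓ LinearMap.range x := by
    refine ⟨?_, ⟨v, rfl⟩⟩
    have h6 := hb.ker_eq hy hb0
    change x v ∈ LinearMap.ker y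
    rw [← h6]; exact h3
  rw [hn.1, Submodule.mem_bot] at h5
  exact hv h5

theorem rank_one_cond (h2 : (2 : k) ≠ 0) (hk3 : Nat.card k ≠ 3)
    {A B : Subgroup (LinearMap.GeneralLinearGroup k M)} {x y : M →ₗ[k] M} (hx : Mn G x) (hy : Mn G y)
    (hA : IsE G A x) (hB : IsE G B y) (hn : NN x y) : RankOneCondition A B := by
  intro g hg hg1
  obtain ⟨b, hb, ho⟩ := hn.exists_opp h2 hk3 hx hy ((hA g).mp hg) (sub_one_ne hg1)
  have hb0 : b ≠ 0 := by
    rintro rfl
    apply sub_one_ne hg1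
    rw [← ho.xyx]; simp
  have hv : ((un b hb.1.sq : LinearMap.GeneralLinearGroup k M) : M →ₗ[k] M) - 1 = b := by
    rw [un_val, add_sub_cancel_left]
  have hu1 : un b hb.1.sq ≠ 1 := by
    intro h
    apply hb0
    rw [← hv, h, Units.val_one, sub_self]
  refine ⟨un b hb.1.sq, hB.un_mem hb, hu1, ?_⟩
  exact conj_eq hx hy hA hB hg (hB.un_mem hb) hg1 hu1 (by rw [hv]; exact ho)

theorem rank_one_pair (h2 : (2 : k) ≠ 0) (hk3 : Nat.card k ≠ 3)
    {A B : Subgroup (LinearMap.GeneralLinearGroup k M)} {x y : M →ₗ[k] M} (hx : Mn G x) (hy : Mn G y)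
    (hA : IsE G A x) (hB : IsE G B y) (hn : NN x y) : IsRankOnePair A B where
  ne := by
    rintro rfl
    obtain ⟨v, hv⟩ : ∃ v, x v ≠ 0 := by
      by_contra hcon
      push Not at hcon
      exact hx.2.1 (LinearMap.ext hcon)
    have h1 := (hB _).mp (hA.un_mem (InE.refl hx.inn))
    rw [un_val, add_sub_cancel_left] at h1
    have h3 : x v ∈ LinearMap.ker x ⊓ LinearMap.range y := ⟨range_le_ker hx.inn.sq ⟨v, rfl⟩, h1.2.2 ⟨v, rfl⟩⟩
    rw [hn.2, Submodule.mem_bot] at h3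
    exact hv h3
  nilpotent_left := nilpotent_of_comm A (hA.isMulCommutative hx.inn.sq)
  nilpotent_right := nilpotent_of_comm B (hB.isMulCommutative hy.inn.sq)
  cond_left := rank_one_cond h2 hk3 hx hy hA hB hn
  cond_right := rank_one_cond h2 hk3 hy hx hB hA hn.symm

theorem special_pair (h2 : (2 : k) ≠ 0) (hk3 : Nat.card k ≠ 3)
    {A B : Subgroup (LinearMap.GeneralLinearGroup k M)} {x y : M →ₗ[k] M} (hx : Mn G x) (hy : Mn G y)
    (hA : IsE G A x) (hB : IsE G B y) (hn : NN x y) : IsSpecialRankOnePair A B := by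
  refine ⟨rank_one_pair h2 hk3 hx hy hA hB hn, ?_⟩
  intro g hg hg1 h hh hh1 hconj
  obtain ⟨b, hb, ho⟩ := hn.exists_opp h2 hk3 hx hy ((hA g).mp hg) (sub_one_ne hg1)
  have hb0 : b ≠ 0 := by
    rintro rfl
    apply sub_one_ne hg1
    rw [← ho.xyx]; simp
  have hv : ((un b hb.1.sq : LinearMap.GeneralLinearGroup k M) : M →ₗ[k] M) - 1 = b := by
    rw [un_val, add_sub_cancel_left]
  have hu1 : un b hb.1.sq ≠ 1 := by
    intro h
    apply hb0
    rw [← hv, h, Units.val_one, sub_self]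
  have huB := hB.un_mem hb
  set h₀ := un b hb.1.sq with hh₀
  have ho' : Opp ((g : M →ₗ[k] M) - 1) ((h₀ : M →ₗ[k] M) - 1) := by rw [hv]; exact ho
  have hc0 := conj_eq hx hy hA hB hg huB hg1 hu1 ho'
  have heq : h = h₀ := by
    by_contra hne
    have h3 : h * h₀⁻¹ ≠ 1 := by
      intro h4
      exact hne (mul_inv_eq_one.mp h4)
    apply not_normalize hx hy hA hB hn (mul_mem hh (inv_mem huB)) h3
    intro z hz
    have h4 : h₀⁻¹ * z * h₀ ∈ conjBy A h₀⁻¹ := by
      rw [mem_conjBy, inv_inv]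
      have : h₀ * (h₀⁻¹ * z * h₀) * h₀⁻¹ = z := by group
      rw [this]; exact hz
    rw [hc0, ← hconj, mem_conjBy, inv_inv] at h4
    have : h * (h₀⁻¹ * z * h₀) * h⁻¹ = h * h₀⁻¹ * z * (h * h₀⁻¹)⁻¹ := by group
    rwa [this] at h4
  rw [heq]
  exact special_eq ho'

/-! ### the commutator space -/

/-- endomorphisms with range in `S` and kernel containing `C` -/
def rkD (S C : Submodule k M) : Submodule k (M →ₗ[k] M) where
  carrier := {f | LinearMap.range f ≤ S ∧ C ≤ LinearMap.ker f}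
  zero_mem' := by
    constructor
    · rw [LinearMap.range_zero]; exact bot_le
    · rw [LinearMap.ker_zero]; exact le_top
  add_mem' := by
    rintro a b ⟨h1, h2⟩ ⟨h3, h4⟩
    constructor
    · rintro _ ⟨v, rfl⟩
      exact Submodule.add_mem _ (h1 ⟨v, rfl⟩) (h3 ⟨v, rfl⟩)
    · intro v hv
      have e1 := h2 hv
      have e2 := h4 hv
      rw [LinearMap.mem_ker] at e1 e2 ⊢
      rw [LinearMap.add_apply, e1, e2, add_zero]
  smul_mem' := by
    rintro c a ⟨h1, h2⟩
    constructor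
    · rintro _ ⟨v, rfl⟩
      exact Submodule.smul_mem _ _ (h1 ⟨v, rfl⟩)
    · intro v hv
      have e1 := h2 hv
      rw [LinearMap.mem_ker] at e1 ⊢
      rw [LinearMap.smul_apply, e1, smul_zero]

theorem mem_rkD {S C : Submodule k M} {f : M →ₗ[k] M} :
    f ∈ rkD S C ↔ LinearMap.range f ≤ S ∧ C ≤ LinearMap.ker f := Iff.rfl

theorem rkD_mul (S C : Submodule k M) : rkD S C * rkD S C ≤ rkD S C := by
  rw [Submodule.mul_le]
  rintro a ⟨h1, h2⟩ b ⟨h3, h4⟩
  constructor
  · exact (LinearMap.range_comp_le_range _ _).trans h1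
  · intro v hv
    have e1 := h4 hv
    rw [LinearMap.mem_ker] at e1 ⊢
    rw [Module.End.mul_apply, e1, map_zero]

theorem IsE.Dh_le {A : Subgroup (LinearMap.GeneralLinearGroup k M)} {x : M →ₗ[k] M} (hA : IsE G A x)
    {S C : Submodule k M} (hS : LinearMap.range x ≤ S) (hC : C ≤ LinearMap.ker x) : Dh A ≤ rkD S C := by
  unfold Dh
  rw [Submodule.span_le]
  rintro _ ⟨g, hg, rfl⟩
  have h1 := (hA g).mp hg
  exact ⟨h1.2.2.trans hS, hC.trans h1.2.1⟩

theorem sup_mem_rkD {A B : Subgroup (LinearMap.GeneralLinearGroup k M)} {x y : M →ₗ[k] M}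
    (hA : IsE G A x) (hB : IsE G B y) {g : LinearMap.GeneralLinearGroup k M} (hg : g ∈ A ⊔ B) :
    (g : M →ₗ[k] M) - 1 ∈ rkD (LinearMap.range x ⊔ LinearMap.range y) (LinearMap.ker x ⊓ LinearMap.ker y) := by
  have h1 := Dh_sup_le (rkD_mul (LinearMap.range x ⊔ LinearMap.range y) (LinearMap.ker x ⊓ LinearMap.ker y))
    (hA.Dh_le le_sup_left inf_le_left) (hB.Dh_le le_sup_right inf_le_right)
  exact h1 (sub_mem_Dh hg)

/-- dimension count -/
theorem key_dim {x y z w : M →ₗ[k] M} (hx : Mn G x) (hy : Mn G y) (hz : Mn G z) (hw : Mn G w) (hn : NN z w)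
    (hzS : z ∈ rkD (LinearMap.range x ⊔ LinearMap.range y) (LinearMap.ker x ⊓ LinearMap.ker y))
    (hwS : w ∈ rkD (LinearMap.range x ⊔ LinearMap.range y) (LinearMap.ker x ⊓ LinearMap.ker y)) : NN x y := by
  have s2 := Submodule.finrank_sup_add_finrank_inf_eq (LinearMap.range x) (LinearMap.range y)
  have s3 := Submodule.finrank_sup_add_finrank_inf_eq (LinearMap.ker x) (LinearMap.ker y)
  set S := LinearMap.range x ⊔ LinearMap.range y with hS
  set C := LinearMap.ker x ⊓ LinearMap.ker y with hC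
  have d1 := hx.rk_eq hy
  have d2 := hx.rk_eq hz
  have d3 := hx.rk_eq hw
  have k1 := rk_add_ker x
  have k2 := rk_add_ker y
  have k3 := rk_add_ker z
  have k4 := rk_add_ker w
  have hzz := range_le_ker hz.inn.sq
  have hww := range_le_ker hw.inn.sq
  have s1 := Submodule.finrank_sup_add_finrank_inf_eq (LinearMap.range z) (LinearMap.range w)
  have hint : LinearMap.range z ⊓ LinearMap.range w = ⊥ := by
    rw [eq_bot_iff, ← hn.2]
    exact le_inf (inf_le_left.trans hzz) inf_le_right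
  rw [hint, finrank_bot] at s1
  have hle : LinearMap.range z ⊔ LinearMap.range w ≤ S := sup_le hzS.1 hwS.1
  have hSeq : LinearMap.range z ⊔ LinearMap.range w = S := by
    apply Submodule.eq_of_le_of_finrank_le hle
    unfold rk at d1 d2 d3
    omega
  have hint2 : (LinearMap.range z ⊔ LinearMap.range w) ⊓ (LinearMap.ker z ⊓ LinearMap.ker w) = ⊥ := by
    rw [eq_bot_iff]
    rintro v ⟨h1, h2, h3⟩
    obtain ⟨_, ⟨a, rfl⟩, _, ⟨b, rfl⟩, rfl⟩ := Submodule.mem_sup.mp h1
    have e1 : z (w b) = 0 := by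
      have h4 : z (z a + w b) = 0 := h2
      rw [map_add, ← Module.End.mul_apply z z, hz.inn.sq, LinearMap.zero_apply, zero_add] at h4
      exact h4
    have e2 : w (z a) = 0 := by
      have h4 : w (z a + w b) = 0 := h3
      rw [map_add, ← Module.End.mul_apply w w, hw.inn.sq, LinearMap.zero_apply, add_zero] at h4
      exact h4
    have f1 : w b ∈ LinearMap.ker z ⊓ LinearMap.range w := ⟨e1, ⟨b, rfl⟩⟩
    have f2 : z a ∈ LinearMap.ker w ⊓ LinearMap.range z := ⟨e2, ⟨a, rfl⟩⟩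
    rw [hn.2, Submodule.mem_bot] at f1
    rw [hn.1, Submodule.mem_bot] at f2
    rw [f1, f2, add_zero]
    exact Submodule.zero_mem _
  have s4 := Submodule.finrank_sup_add_finrank_inf_eq (LinearMap.range z ⊔ LinearMap.range w)
    (LinearMap.ker z ⊓ LinearMap.ker w)
  rw [hint2, finrank_bot] at s4
  have s5 : Module.finrank k ((LinearMap.range z ⊔ LinearMap.range w) ⊔ (LinearMap.ker z ⊓ LinearMap.ker w) :
    Submodule k M) ≤ Module.finrank k M := Submodule.finrank_le _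
  have s6 : Module.finrank k (LinearMap.ker x ⊔ LinearMap.ker y : Submodule k M) ≤ Module.finrank k M :=
    Submodule.finrank_le _
  have hCeq : C = LinearMap.ker z ⊓ LinearMap.ker w := by
    apply Submodule.eq_of_le_of_finrank_le (le_inf hzS.2 hwS.2)
    unfold rk at d1 d2 d3 k1 k2 k3 k4
    omega
  rw [hSeq, ← hCeq] at hint2
  constructor
  · rw [eq_bot_iff, ← hint2]
    exact le_inf (inf_le_right.trans le_sup_left)
      (le_inf (inf_le_right.trans (range_le_ker hx.inn.sq)) inf_le_left)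
  · rw [eq_bot_iff, ← hint2]
    exact le_inf (inf_le_right.trans le_sup_right)
      (le_inf inf_le_left (inf_le_right.trans (range_le_ker hy.inn.sq)))

theorem conj_sub_one (u g : LinearMap.GeneralLinearGroup k M) :
    ((u * g * u⁻¹ : LinearMap.GeneralLinearGroup k M) : M →ₗ[k] M) - 1 =
      (u : M →ₗ[k] M) * ((g : M →ₗ[k] M) - 1) * ((u⁻¹ : LinearMap.GeneralLinearGroup k M) : M →ₗ[k] M) := by
  rw [Units.val_mul, Units.val_mul, mul_sub, sub_mul, mul_one, ← Units.val_mul u u⁻¹, mul_inv_cancel, Units.val_one]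

theorem unip_of_nilp (h2 : (2 : k) ≠ 0) (hk3 : Nat.card k ≠ 3)
    {A B : Subgroup (LinearMap.GeneralLinearGroup k M)} {x y : M →ₗ[k] M} (hx : Mn G x) (hy : Mn G y)
    (hA : IsE G A x) (hB : IsE G B y) (hAG : A ≤ G) (hBG : B ≤ G) (hn : ¬ NN x y) : IsUnipotentOn (A ⊔ B) := by
  -- the set of conjugates
  let Z : Set (M →ₗ[k] M) := {z | ∃ g ∈ A ⊔ B, ∃ z₀, (InE G x z₀ ∨ InE G y z₀) ∧
    z = (g : M →ₗ[k] M) * z₀ * ((g⁻¹ : LinearMap.GeneralLinearGroup k M) : M →ₗ[k] M)}
  have hABG : A ⊔ B ≤ G := sup_le hAG hBG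
  have hZinn : ∀ z ∈ Z, Inn (A ⊔ B) z := by
    rintro _ ⟨g, hg, z₀, hz₀, rfl⟩
    have h1 : Inn (A ⊔ B) z₀ := by
      rcases hz₀ with h | h
      · refine ⟨h.1.1, fun c g hg => ?_⟩
        apply Subgroup.mem_sup_left
        rw [hA, hg, add_sub_cancel_left]
        exact h.smul c
      · refine ⟨h.1.1, fun c g hg => ?_⟩
        apply Subgroup.mem_sup_right
        rw [hB, hg, add_sub_cancel_left]
        exact h.smul c
    exact h1.conj hg
  have hZS : ∀ z ∈ Z, z ∈ rkD (LinearMap.range x ⊔ LinearMap.range y) (LinearMap.ker x ⊓ LinearMap.ker y) := by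
    intro z hz
    have h1 := (hZinn z hz).el_mem 1
    have h3 := sup_mem_rkD hA hB h1
    rwa [(hZinn z hz).el_val, one_smul, add_sub_cancel_left] at h3
  have hZm : ∀ z ∈ Z, z ≠ 0 → Mn G z := by
    rintro _ ⟨g, hg, z₀, hz₀, rfl⟩ hne
    have h0 : z₀ ≠ 0 := by
      rintro rfl
      apply hne
      rw [mul_zero, zero_mul]
    rcases hz₀ with h | h
    · exact (h.mn hx h0).conj (hABG hg)
    · exact (h.mn hy h0).conj (hABG hg)
  have hZnil : ∀ z ∈ Z, ∀ w ∈ Z, IsNilpotent (z * w) := by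
    intro z hz w hw
    by_contra hcon
    have hz0 : z ≠ 0 := by
      rintro rfl
      apply hcon; rw [zero_mul]; exact IsNilpotent.zero
    have hw0 : w ≠ 0 := by
      rintro rfl
      apply hcon; rw [mul_zero]; exact IsNilpotent.zero
    have hzm := hZm z hz hz0
    have hwm := hZm w hw hw0
    exact hn (key_dim hx hy hzm hwm ((nn_iff h2 hk3 hzm hwm).mp hcon) (hZS z hz) (hZS w hw))
  let W : Set (Subgroup (LinearMap.GeneralLinearGroup k M)) := {H | ∃ z, ∃ hz : z * z = 0, z ∈ Z ∧ H = oneP z hz}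
  have hW := unip_sSup (G := A ⊔ B) (W := W)
    (by
      rintro _ ⟨z, hz, hzZ, rfl⟩ g ⟨c, hc⟩
      exact (hZinn z hzZ).2 c g hc)
    (by
      rintro _ ⟨z, hz, hzZ, rfl⟩ _ ⟨w, hw, hwZ, rfl⟩
      exact unip_oneP hz hw (hZnil z hzZ w hwZ))
    (by
      rintro _ ⟨z, hz, hzZ, rfl⟩ g hg
      have h1 := (hZinn z hzZ).conj hg
      refine ⟨_, h1.sq, ?_, ?_⟩
      · obtain ⟨g', hg', z₀, hz₀, rfl⟩ := hzZ
        refine ⟨g * g', mul_mem hg hg', z₀, hz₀, ?_⟩
        rw [Units.val_mul, mul_inv_rev, Units.val_mul]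
        simp only [mul_assoc]
      · ext h
        rw [mem_conjBy]
        constructor
        · rintro ⟨c, hc⟩
          refine ⟨c, ?_⟩
          have e : h = g * (g⁻¹ * h * g) * g⁻¹ := by group
          have e2 := conj_sub_one g (g⁻¹ * h * g)
          rw [← e, hc, add_sub_cancel_left, mul_smul_comm, smul_mul_assoc] at e2
          rw [← e2]; abel
        · rintro ⟨c, hc⟩
          refine ⟨c, ?_⟩
          have e2 := conj_sub_one g⁻¹ h
          rw [inv_inv, hc, add_sub_cancel_left, mul_smul_comm, smul_mul_assoc] at e2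
          have e3 : ((g⁻¹ : LinearMap.GeneralLinearGroup k M) : M →ₗ[k] M) *
              ((g : M →ₗ[k] M) * z * ((g⁻¹ : LinearMap.GeneralLinearGroup k M) : M →ₗ[k] M)) * (g : M →ₗ[k] M) = z := by
            have h1 : ((g⁻¹ : LinearMap.GeneralLinearGroup k M) : M →ₗ[k] M) * (g : M →ₗ[k] M) = 1 := by
              rw [← Units.val_mul, inv_mul_cancel, Units.val_one]
            calc _ = (((g⁻¹ : LinearMap.GeneralLinearGroup k M) : M →ₗ[k] M) * (g : M →ₗ[k] M)) * z *
                  (((g⁻¹ : LinearMap.GeneralLinearGroup k M) : M →ₗ[k] M) * (g : M →ₗ[k] M)) := by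
                    simp only [mul_assoc]
              _ = z := by rw [h1, one_mul, mul_one]
          rw [e3] at e2
          rw [← e2]; abel)
  apply isUnipotentOn_mono _ hW
  apply sup_le
  · intro g hg
    have h1 := (hA g).mp hg
    have h3 : oneP _ h1.1.sq ∈ W := ⟨(g : M →ₗ[k] M) - 1, h1.1.sq, ⟨1, one_mem _, _, Or.inl h1, by
      rw [inv_one, Units.val_one, one_mul, mul_one]⟩, rfl⟩
    exact (le_sSup h3) ⟨1, by rw [one_smul]; exact one_add_sub_one g⟩
  · intro g hg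
    have h1 := (hB g).mp hg
    have h3 : oneP _ h1.1.sq ∈ W := ⟨(g : M →ₗ[k] M) - 1, h1.1.sq, ⟨1, one_mem _, _, Or.inr h1, by
      rw [inv_one, Units.val_one, one_mul, mul_one]⟩, rfl⟩
    exact (le_sSup h3) ⟨1, by rw [one_smul]; exact one_add_sub_one g⟩

end grp

end Cfsg.Agent.H11.QP
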