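import Cfsg.Agent.H11.QpRank2

set_option autoImplicit false
set_option linter.unusedSectionVars false
set_option linter.unusedSimpArgs false

/-! the rank one pairs: the central involution -/

namespace Cfsg.Agent.H11.QP

open Cfsg Polynomial

section inv
variable {k : Type*} [Field k] {M : Type*} [AddCommGroup M] [Module k M] [FiniteDimensional k M]
variable {G : Subgroup (LinearMap.GeneralLinearGroup k M)}

theorem IsE.le {A : Subgroup (LinearMap.GeneralLinearGroup k M)} {x : M →ₗ[k] M} (hA : IsE G A x) : A ≤ G := by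
  intro g hg
  have h1 := (hA g).mp hg
  exact h1.1.2 1 g (by rw [one_smul]; exact one_add_sub_one g)

theorem Opp.eps_on {a b : M →ₗ[k] M} (h : Opp a b) {v : M} (hv : v ∈ LinearMap.range a ⊔ LinearMap.range b) :
    (a * b + b * a) v = v := by
  obtain ⟨_, ⟨s, rfl⟩, _, ⟨t, rfl⟩, rfl⟩ := Submodule.mem_sup.mp hv
  have e1 : (a * b + b * a) * a = a := by rw [add_mul, h.xyx, mul_assoc, h.xx, mul_zero, add_zero]
  have e2 : (a * b + b * a) * b = b := by rw [add_mul, h.yxy, mul_assoc, h.yy, mul_zero, zero_add]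
  rw [map_add, ← Module.End.mul_apply _ a, ← Module.End.mul_apply _ b, e1, e2]

theorem Opp.eps_mem {a b : M →ₗ[k] M} (v : M) :
    (a * b + b * a) v ∈ LinearMap.range a ⊔ LinearMap.range b := by
  rw [LinearMap.add_apply]
  exact Submodule.add_mem_sup ⟨b v, rfl⟩ ⟨a v, rfl⟩

theorem Opp.sub_eps_mem {a b : M →ₗ[k] M} (h : Opp a b) (v : M) :
    v - (a * b + b * a) v ∈ LinearMap.ker a ⊓ LinearMap.ker b := by
  have e1 : a * (1 - (a * b + b * a)) = 0 := by
    rw [mul_sub, mul_add, mul_one, ← mul_assoc, h.xx, zero_mul, ← mul_assoc, h.xyx, zero_add, sub_self]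
  have e2 : b * (1 - (a * b + b * a)) = 0 := by
    rw [mul_sub, mul_add, mul_one, ← mul_assoc, h.yxy, ← mul_assoc, h.yy, zero_mul, add_zero, sub_self]
  constructor
  · exact LinearMap.congr_fun e1 v
  · exact LinearMap.congr_fun e2 v

theorem Opp.eps_ker {a b : M →ₗ[k] M} {v : M} (hv : v ∈ LinearMap.ker a ⊓ LinearMap.ker b) :
    (a * b + b * a) v = 0 := by
  have h1 : a v = 0 := hv.1
  have h2 : b v = 0 := hv.2
  rw [LinearMap.add_apply, Module.End.mul_apply, Module.End.mul_apply, h1, h2, map_zero, map_zero, add_zero]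

theorem Opp.isCompl {a b : M →ₗ[k] M} (h : Opp a b) :
    IsCompl (LinearMap.ker a ⊓ LinearMap.ker b) (LinearMap.range a ⊔ LinearMap.range b) := by
  constructor
  · rw [Submodule.disjoint_def]
    intro v hv hv'
    rw [← h.eps_on hv', Opp.eps_ker hv]
  · rw [codisjoint_iff, eq_top_iff]
    intro v _
    have : v = (v - (a * b + b * a) v) + (a * b + b * a) v := by abel
    rw [this]
    exact Submodule.add_mem_sup (h.sub_eps_mem v) (Opp.eps_mem v)

theorem comm_space {A B : Subgroup (LinearMap.GeneralLinearGroup k M)} {x y : M →ₗ[k] M} (hx : Mn G x) (hy : Mn G y)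
    (hA : IsE G A x) (hB : IsE G B y) :
    commutatorSubmodule (A ⊔ B) = LinearMap.range x ⊔ LinearMap.range y := by
  apply le_antisymm
  · refine iSup_le (fun g => iSup_le (fun hg => ?_))
    exact (sup_mem_rkD hA hB hg).1
  · apply sup_le
    · have h1 : un x hx.inn.sq ∈ A ⊔ B := Subgroup.mem_sup_left (hA.un_mem (InE.refl hx.inn))
      refine le_iSup_of_le (un x hx.inn.sq) (le_iSup_of_le h1 ?_)
      rw [un_val, add_sub_cancel_left]
    · have h1 : un y hy.inn.sq ∈ A ⊔ B := Subgroup.mem_sup_right (hB.un_mem (InE.refl hy.inn))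
      refine le_iSup_of_le (un y hy.inn.sq) (le_iSup_of_le h1 ?_)
      rw [un_val, add_sub_cancel_left]

theorem fixed_space {A B : Subgroup (LinearMap.GeneralLinearGroup k M)} {x y : M →ₗ[k] M} (hx : Mn G x) (hy : Mn G y)
    (hA : IsE G A x) (hB : IsE G B y) :
    fixedSubmodule (A ⊔ B) = LinearMap.ker x ⊓ LinearMap.ker y := by
  apply le_antisymm
  · apply le_inf
    · have h1 : un x hx.inn.sq ∈ A ⊔ B := Subgroup.mem_sup_left (hA.un_mem (InE.refl hx.inn))
      refine iInf_le_of_le (un x hx.inn.sq) (iInf_le_of_le h1 ?_)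
      rw [un_val, add_sub_cancel_left]
    · have h1 : un y hy.inn.sq ∈ A ⊔ B := Subgroup.mem_sup_right (hB.un_mem (InE.refl hy.inn))
      refine iInf_le_of_le (un y hy.inn.sq) (iInf_le_of_le h1 ?_)
      rw [un_val, add_sub_cancel_left]
  · refine le_iInf (fun g => le_iInf (fun hg => ?_))
    exact (sup_mem_rkD hA hB hg).2

theorem exists_involution (h2 : (2 : k) ≠ 0) (hk3 : Nat.card k ≠ 3)
    {A B : Subgroup (LinearMap.GeneralLinearGroup k M)} {x y : M →ₗ[k] M} (hx : Mn G x) (hy : Mn G y)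
    (hA : IsE G A x) (hB : IsE G B y) (hn : NN x y) :
    (∃! i : LinearMap.GeneralLinearGroup k M, i ∈ A ⊔ B ∧ i ≠ 1 ∧ i * i = 1 ∧
        (∀ x ∈ A ⊔ B, i * x = x * i) ∧
        (∀ m ∈ commutatorSubmodule (A ⊔ B), (i : M →ₗ[k] M) m = -m) ∧
        (∀ m ∈ fixedSubmodule (A ⊔ B), (i : M →ₗ[k] M) m = m)) ∧
      IsCompl (fixedSubmodule (A ⊔ B)) (commutatorSubmodule (A ⊔ B)) := by
  obtain ⟨b, hb, ho⟩ := hn.exists_opp h2 hk3 hx hy (InE.refl hx.inn) hx.2.1
  have hb0 : b ≠ 0 := by
    rintro rfl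
    apply hx.2.1
    rw [← ho.xyx]; simp
  have hkb := hb.ker_eq hy hb0
  have hrb := hb.range_eq hy hb0
  have hB' := hB.congr hy hb hb0
  have hcs : commutatorSubmodule (A ⊔ B) = LinearMap.range x ⊔ LinearMap.range b := by
    rw [comm_space hx hy hA hB, hrb]
  have hfs : fixedSubmodule (A ⊔ B) = LinearMap.ker x ⊓ LinearMap.ker b := by
    rw [fixed_space hx hy hA hB, hkb]
  rw [hcs, hfs]
  refine ⟨?_, ho.isCompl⟩
  set ε := x * b + b * x with hε
  have hwX : wU ho ∈ A ⊔ B :=
    wU_mem ho (Subgroup.mem_sup_left (hA.un_mem (InE.refl hx.inn))) (Subgroup.mem_sup_right (hB.un_mem hb))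
      (un_val _ _) (un_val _ _)
  have hival : ((wU ho * wU ho : LinearMap.GeneralLinearGroup k M) : M →ₗ[k] M) = 1 - (2 : k) • ε := by
    rw [Units.val_mul, wU_val, ho.w_sq]
  have hee : ε * ε = ε := by
    rw [hε]
    simp only [mul_add, add_mul, mul_assoc, ho.xx, ho.yy, ho.xyx', ho.yxy', ho.xxz, ho.yyz, ho.xyxz, ho.yxyz,
      mul_zero, zero_mul]
    abel
  refine ⟨wU ho * wU ho, ⟨mul_mem hwX hwX, ?_, ?_, ?_, ?_, ?_⟩, ?_⟩
  · intro h
    have h1 : (1 : M →ₗ[k] M) - (2 : k) • ε = 1 := by rw [← hival, h]; rfl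
    have h3 : (2 : k) • ε = 0 := by
      have : (2 : k) • ε = 1 - (1 - (2 : k) • ε) := by abel
      rw [this, h1, sub_self]
    have h4 : ε = 0 := (smul_eq_zero.mp h3).resolve_left h2
    apply hx.2.1
    have : ε * x = x := by rw [hε, add_mul, ho.xyx, mul_assoc, ho.xx, mul_zero, add_zero]
    rw [← this, h4, zero_mul]
  · apply Units.ext
    rw [Units.val_mul, hival, Units.val_one, sub_mul, mul_sub, mul_sub, one_mul, one_mul, mul_one,
      smul_mul_smul_comm, hee]
    have : ((2 : k) * 2) • ε = (2 : k) • ε + (2 : k) • ε := by rw [← add_smul]; norm_num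
    rw [this]; abel
  · intro g hg
    have hg1 := sup_mem_rkD hA hB' (g := g) hg
    set f := (g : M →ₗ[k] M) - 1 with hf
    have e1 : ε * f = f := by
      apply LinearMap.ext
      intro v
      rw [Module.End.mul_apply]
      exact ho.eps_on (hg1.1 ⟨v, rfl⟩)
    have e2 : f * ε = f := by
      apply LinearMap.ext
      intro v
      have h3 : f (v - ε v) = 0 := hg1.2 (ho.sub_eps_mem v)
      rw [map_sub, sub_eq_zero] at h3
      rw [Module.End.mul_apply, ← h3]
    apply Units.ext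
    have hgf : (g : M →ₗ[k] M) = 1 + f := one_add_sub_one g
    rw [Units.val_mul _ g, Units.val_mul g, hival, hgf]
    simp only [mul_add, add_mul, mul_sub, sub_mul, one_mul, mul_one, smul_mul_assoc, mul_smul_comm, e1, e2, smul_add]
    abel
  · intro m hm
    rw [hival, LinearMap.sub_apply, LinearMap.smul_apply, Module.End.one_apply, ho.eps_on hm, two_smul]
    abel
  · intro m hm
    rw [hival, LinearMap.sub_apply, LinearMap.smul_apply, Module.End.one_apply, Opp.eps_ker hm, smul_zero, sub_zero]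
  · rintro j ⟨_, _, _, _, hj1, hj2⟩
    apply Units.ext
    rw [hival]
    apply LinearMap.ext
    intro v
    have h3 : (j : M →ₗ[k] M) v = (j : M →ₗ[k] M) ((v - ε v) + ε v) := by rw [sub_add_cancel]
    rw [h3, map_add, hj2 _ (ho.sub_eps_mem v), hj1 _ (Opp.eps_mem v), LinearMap.sub_apply, LinearMap.smul_apply,
      Module.End.one_apply, two_smul]
    abel

end inv

end Cfsg.Agent.H11.QP
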