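import Cfsg.Agent.H11.QpGrp

set_option autoImplicit false
set_option linter.unusedSectionVars false
set_option linter.unusedSimpArgs false

/-! transfer to a subgroup -/

namespace Cfsg.Agent.H11.QP

open Cfsg Polynomial

section transfer
variable {Γ : Type*} [Group Γ] {K : Subgroup Γ}

theorem map_subOf {A : Subgroup Γ} (hA : A ≤ K) : (A.subgroupOf K).map K.subtype = A :=
  Subgroup.map_subgroupOf_eq_of_le hA

theorem subOf_inj {A B : Subgroup Γ} (hA : A ≤ K) (hB : B ≤ K) (h : A.subgroupOf K = B.subgroupOf K) : A = B := by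
  rw [← map_subOf hA, h, map_subOf hB]

theorem conjBy_subOf {A : Subgroup Γ} (g : K) :
    conjBy (A.subgroupOf K) g = (conjBy A (g : Γ)).subgroupOf K := by
  ext x
  rw [mem_conjBy, Subgroup.mem_subgroupOf, Subgroup.mem_subgroupOf, mem_conjBy]
  rfl

theorem comm_subOf {A B : Subgroup Γ} (hA : A ≤ K) (hB : B ≤ K) :
    ⁅A.subgroupOf K, B.subgroupOf K⁆ = ⁅A, B⁆.subgroupOf K := by
  apply Subgroup.map_injective K.subtype_injective
  rw [Subgroup.map_commutator, map_subOf hA, map_subOf hB, map_subOf]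
  exact (Subgroup.commutator_mono hA hB).trans (Subgroup.commutator_le_self K)

theorem comm_bot_subOf {A B : Subgroup Γ} (hA : A ≤ K) (hB : B ≤ K) (h : ⁅A, B⁆ = ⊥) :
    ⁅A.subgroupOf K, B.subgroupOf K⁆ = ⊥ := by
  rw [comm_subOf hA hB, h, Subgroup.bot_subgroupOf]

theorem nilp_subOf {A : Subgroup Γ} (hA : A ≤ K) (h : Group.IsNilpotent A) : Group.IsNilpotent (A.subgroupOf K) := by
  have := h
  exact Group.nilpotent_of_mulEquiv (Subgroup.subgroupOfEquivOfLe hA).symm

theorem r1_subOf {A B : Subgroup Γ} (hB : B ≤ K) (h : RankOneCondition A B) :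
    RankOneCondition (A.subgroupOf K) (B.subgroupOf K) := by
  intro a ha ha1
  obtain ⟨b, hb, hb1, hab⟩ := h (a : Γ) ha (fun h => ha1 (Subtype.ext h))
  refine ⟨⟨b, hB hb⟩, hb, fun h => hb1 (congrArg Subtype.val h), ?_⟩
  rw [conjBy_subOf, conjBy_subOf]
  congr 1

theorem pair_subOf {A B : Subgroup Γ} (hA : A ≤ K) (hB : B ≤ K) (h : IsRankOnePair A B) :
    IsRankOnePair (A.subgroupOf K) (B.subgroupOf K) where
  ne := fun h' => h.ne (subOf_inj hA hB h')
  nilpotent_left := nilp_subOf hA h.nilpotent_left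
  nilpotent_right := nilp_subOf hB h.nilpotent_right
  cond_left := r1_subOf hB h.cond_left
  cond_right := r1_subOf hA h.cond_right

theorem closure_subOf {B C : Subgroup Γ} (hB : B ≤ K) {F : Γ → Γ} {F' : K → K} (hF : ∀ b : K, ((F' b : K) : Γ) = F b)
    (h : Subgroup.closure (F '' (B : Set Γ)) = C) (hC : C ≤ K) :
    Subgroup.closure (F' '' ((B.subgroupOf K : Subgroup K) : Set K)) = C.subgroupOf K := by
  apply Subgroup.map_injective K.subtype_injective
  rw [MonoidHom.map_closure, map_subOf hC, ← h]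
  congr 1
  ext x
  constructor
  · rintro ⟨_, ⟨b, hb, rfl⟩, rfl⟩
    exact ⟨(b : Γ), hb, (hF b).symm⟩
  · rintro ⟨b, hb, rfl⟩
    exact ⟨F' ⟨b, hB hb⟩, ⟨⟨b, hB hb⟩, hb, rfl⟩, hF _⟩

theorem root_subOf {S : Set (Subgroup Γ)} {A B : Subgroup Γ} (hA : A ≤ K) (hB : B ≤ K) (h : RootCommutatorCase S A B) :
    RootCommutatorCase ((fun C : Subgroup Γ => C.subgroupOf K) '' S) (A.subgroupOf K) (B.subgroupOf K) := by
  obtain ⟨h1, h2, h3, h4⟩ := h
  have hC : ⁅A, B⁆ ≤ K := (Subgroup.commutator_mono hA hB).trans (Subgroup.commutator_le_self K)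
  rw [RootCommutatorCase, comm_subOf hA hB]
  refine ⟨⟨_, h1, rfl⟩, ?_, ?_, ?_⟩
  · intro c hc x hx
    apply Subtype.ext
    refine h2 c hc x ?_
    have h5 : A.subgroupOf K ⊔ B.subgroupOf K ≤ (A ⊔ B).subgroupOf K := by
      apply sup_le
      · exact Subgroup.comap_mono le_sup_left
      · exact Subgroup.comap_mono le_sup_right
    exact h5 hx
  · intro a ha ha1
    exact closure_subOf (F := fun b => (a : Γ) * b * (a : Γ)⁻¹ * b⁻¹) hB (fun b => rfl)
      (h3 a ha (fun h => ha1 (Subtype.ext h))) hC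
  · intro b hb hb1
    exact closure_subOf (F := fun a => a * (b : Γ) * a⁻¹ * (b : Γ)⁻¹) hA (fun b => rfl)
      (h4 b hb (fun h => hb1 (Subtype.ext h))) hC

theorem rootSet_subOf {S : Set (Subgroup Γ)} (hK : K = ⨆ A ∈ S, A) (hcomm : ∀ A ∈ S, IsMulCommutative A)
    (hne : ∀ A ∈ S, A ≠ ⊥) (hconj : ∀ A ∈ S, ∀ g ∈ K, conjBy A g ∈ S)
    (hpair : ∀ A ∈ S, ∀ B ∈ S, ⁅A, B⁆ = ⊥ ∨ IsRankOnePair A B ∨ RootCommutatorCase S A B) :
    IsRootSubgroupSet ((fun A : Subgroup Γ => A.subgroupOf K) '' S) := by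
  have hle : ∀ A ∈ S, A ≤ K := fun A hA => by
    rw [hK]; exact le_iSup_of_le A (le_iSup_of_le hA le_rfl)
  constructor
  · rintro _ ⟨A, hA, rfl⟩
    have h1 := hcomm A hA
    refine ⟨⟨fun a b => ?_⟩⟩
    have h2 := h1.1.1 ⟨(a : K), a.2⟩ ⟨(b : K), b.2⟩
    have h3 := congrArg Subtype.val h2
    exact Subtype.ext (Subtype.ext h3)
  · rintro _ ⟨A, hA, rfl⟩ h
    apply hne A hA
    rw [← map_subOf (hle A hA)]
    change (A.subgroupOf K).map K.subtype = ⊥
    rw [show A.subgroupOf K = ⊥ from h, Subgroup.map_bot]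
  · apply Subgroup.map_injective K.subtype_injective
    rw [Subgroup.map_iSup]
    apply le_antisymm
    · refine iSup_le (fun B => ?_)
      rw [Subgroup.map_iSup]
      refine iSup_le (fun hB => ?_)
      exact Subgroup.map_mono le_top
    · rw [← MonoidHom.range_eq_map, Subgroup.range_subtype]
      conv_lhs => rw [hK]
      refine iSup_le (fun A => iSup_le (fun hA => ?_))
      refine le_iSup_of_le (A.subgroupOf K) ?_
      rw [Subgroup.map_iSup]
      refine le_iSup_of_le ⟨A, hA, rfl⟩ ?_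
      rw [map_subOf (hle A hA)]
  · rintro _ ⟨A, hA, rfl⟩ g
    exact ⟨conjBy A (g : Γ), hconj A hA g g.2, (conjBy_subOf g).symm⟩
  · rintro _ ⟨A, hA, rfl⟩ _ ⟨B, hB, rfl⟩
    rcases hpair A hA B hB with h | h | h
    · exact Or.inl (comm_bot_subOf (hle A hA) (hle B hB) h)
    · exact Or.inr (Or.inl (pair_subOf (hle A hA) (hle B hB) h))
    · exact Or.inr (Or.inr (root_subOf (hle A hA) (hle B hB) h))

end transfer

section psl
variable {k : Type*} [Field k] {M : Type*} [AddCommGroup M] [Module k M] [FiniteDimensional k M]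
variable {G : Subgroup (LinearMap.GeneralLinearGroup k M)}

theorem upper_eq (k : Type*) [Field k] : upperUnipotentSL2 k = Subgroup.closure (Set.range (fun c : k => X2 c)) := by
  unfold upperUnipotentSL2
  congr 1
  ext g
  constructor
  · rintro ⟨h1, h2, h3⟩
    refine ⟨g.1 0 1, ?_⟩
    apply sl2_ext
    · rw [X2_00]; exact h2.symm
    · rw [X2_01]
    · rw [X2_10]; exact h1.symm
    · rw [X2_11]; exact h3.symm
  · rintro ⟨c, rfl⟩
    exact ⟨rfl, rfl, rfl⟩

theorem lower_eq (k : Type*) [Field k] : lowerUnipotentSL2 k = Subgroup.closure (Set.range (fun c : k => Y2 c)) := by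
  unfold lowerUnipotentSL2
  congr 1
  ext g
  constructor
  · rintro ⟨h1, h2, h3⟩
    refine ⟨g.1 1 0, ?_⟩
    apply sl2_ext
    · rw [Y2_00]; exact h2.symm
    · rw [Y2_01]; exact h1.symm
    · rw [Y2_10]
    · rw [Y2_11]; exact h3.symm
  · rintro ⟨c, rfl⟩
    exact ⟨rfl, rfl, rfl⟩

/-- scalar homomorphism -/
noncomputable def phiK {x y : M →ₗ[k] M} (h : Opp x y) : k →ₙ+* (M →ₗ[k] M) where
  toFun c := c • (x * y + y * x)
  map_zero' := zero_smul _ _
  map_add' c d := add_smul _ _ _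
  map_mul' c d := by
    have hee : (x * y + y * x) * (x * y + y * x) = x * y + y * x := by
      simp only [mul_add, add_mul, mul_assoc, h.xx, h.yy, h.xyx', h.yxy', h.xxz, h.yyz, h.xyxz, h.yxyz,
        mul_zero, zero_mul]
      abel
    rw [smul_mul_smul_comm, hee]

theorem psl2_of_opp {x y : M →ₗ[k] M} (h : Opp x y) (hx0 : x ≠ 0) :
    IsPSL2PairOver k (oneP x h.xx) (oneP y h.yy) := by
  have hcx : ∀ r, phiK h r * x = x * phiK h r := by
    intro r
    change (r • (x * y + y * x)) * x = x * (r • (x * y + y * x))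
    rw [smul_mul_assoc, mul_smul_comm, add_mul, mul_add, h.xyx, mul_assoc y x x, h.xx, mul_zero, h.xxz, h.xyx',
      add_zero, zero_add]
  have hcy : ∀ r, phiK h r * y = y * phiK h r := by
    intro r
    change (r • (x * y + y * x)) * y = y * (r • (x * y + y * x))
    rw [smul_mul_assoc, mul_smul_comm, add_mul, mul_add, h.yxy, mul_assoc x y y, h.yy, mul_zero, h.yyz, h.yxy',
      add_zero, zero_add]
  have h1 : phiK h 1 = x * y + y * x := one_smul _ _
  have hX : ∀ c : k, ((Psi h (phiK h) hcx hcy h1 (X2 c) : LinearMap.GeneralLinearGroup k M) : M →ₗ[k] M) = 1 + c • x := by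
    intro c
    rw [Psi_X2]
    change 1 + (c • (x * y + y * x)) * x = _
    rw [smul_mul_assoc, add_mul, h.xyx, mul_assoc y x x, h.xx, mul_zero, add_zero]
  have hY : ∀ c : k, ((Psi h (phiK h) hcx hcy h1 (Y2 c) : LinearMap.GeneralLinearGroup k M) : M →ₗ[k] M) = 1 + c • y := by
    intro c
    rw [Psi_Y2]
    change 1 + (c • (x * y + y * x)) * y = _
    rw [smul_mul_assoc, add_mul, h.yxy, mul_assoc x y y, h.yy, mul_zero, zero_add]
  have hup : (upperUnipotentSL2 k).map (Psi h (phiK h) hcx hcy h1) = oneP x h.xx := by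
    rw [upper_eq, MonoidHom.map_closure]
    apply le_antisymm
    · rw [Subgroup.closure_le]
      rintro _ ⟨_, ⟨c, rfl⟩, rfl⟩
      exact ⟨c, hX c⟩
    · rintro g ⟨c, hc⟩
      exact Subgroup.subset_closure ⟨_, ⟨c, rfl⟩, Units.ext ((hX c).trans hc.symm)⟩
  have hlo : (lowerUnipotentSL2 k).map (Psi h (phiK h) hcx hcy h1) = oneP y h.yy := by
    rw [lower_eq, MonoidHom.map_closure]
    apply le_antisymm
    · rw [Subgroup.closure_le]
      rintro _ ⟨_, ⟨c, rfl⟩, rfl⟩
      exact ⟨c, hY c⟩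
    · rintro g ⟨c, hc⟩
      exact Subgroup.subset_closure ⟨_, ⟨c, rfl⟩, Units.ext ((hY c).trans hc.symm)⟩
  refine ⟨Psi h (phiK h) hcx hcy h1, ?_, ?_, hup, hlo⟩
  · have htop : upperUnipotentSL2 k ⊔ lowerUnipotentSL2 k = ⊤ := by
      have h3 : SS k (1 : k) = ⊤ := by
        rw [eq_top_iff]
        intro s _
        exact X2_mem_HS (k := k) (1 : k) s
      have h4 := HS_eq_top (k := k) (F := k) one_ne_zero h3
      rw [eq_top_iff, ← h4, HS, Subgroup.closure_le]
      rintro _ (⟨c, rfl⟩ | ⟨c, rfl⟩)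
      · exact Subgroup.mem_sup_left (by rw [upper_eq]; exact Subgroup.subset_closure ⟨_, rfl⟩)
      · exact Subgroup.mem_sup_right (by rw [lower_eq]; exact Subgroup.subset_closure ⟨_, rfl⟩)
    rw [MonoidHom.range_eq_map, ← htop, Subgroup.map_sup, hup, hlo]
  · rw [(MonoidHom.ker_eq_bot_iff _).mpr (Psi_inj h hx0 _ _ _ _)]
    exact bot_le

end psl

end Cfsg.Agent.H11.QP

namespace Cfsg.Agent.H11.QP

open Cfsg Polynomial

section fin
variable {k : Type*} [Field k] {M : Type*} [AddCommGroup M] [Module k M] [FiniteDimensional k M]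
variable {G : Subgroup (LinearMap.GeneralLinearGroup k M)}

theorem mem_sigma {A : Subgroup (LinearMap.GeneralLinearGroup k M)} (hA : A ∈ quadraticRootSubgroups G) :
    ∃ x, Mn G x ∧ IsE G A x := by
  obtain ⟨σ, hσ, rfl⟩ := hA
  exact ⟨_, min_iff.mp hσ, isE_of_min hσ⟩

theorem conj_sigma {A : Subgroup (LinearMap.GeneralLinearGroup k M)} (hA : A ∈ quadraticRootSubgroups G)
    {g : LinearMap.GeneralLinearGroup k M} (hg : g ∈ G) : conjBy A g ∈ quadraticRootSubgroups G := by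
  obtain ⟨x, hx, hAx⟩ := mem_sigma hA
  obtain ⟨D, hDS, hD⟩ := exists_isE (hx.conj hg)
  have h1 : ((g⁻¹ : LinearMap.GeneralLinearGroup k M) : M →ₗ[k] M) * (g : M →ₗ[k] M) = 1 := by
    rw [← Units.val_mul, inv_mul_cancel, Units.val_one]
  have key : ∀ z : M →ₗ[k] M, ((g⁻¹ : LinearMap.GeneralLinearGroup k M) : M →ₗ[k] M) * ((g : M →ₗ[k] M) * z *
      ((g⁻¹ : LinearMap.GeneralLinearGroup k M) : M →ₗ[k] M)) * (g : M →ₗ[k] M) = z := by
    intro z
    calc _ = (((g⁻¹ : LinearMap.GeneralLinearGroup k M) : M →ₗ[k] M) * (g : M →ₗ[k] M)) * z *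
          (((g⁻¹ : LinearMap.GeneralLinearGroup k M) : M →ₗ[k] M) * (g : M →ₗ[k] M)) := by
            simp only [mul_assoc]
      _ = z := by rw [h1, one_mul, mul_one]
  have : conjBy A g = D := by
    ext h
    rw [mem_conjBy, hAx, hD]
    constructor
    · intro h3
      have h4 := h3.conj hg
      rw [← conj_sub_one] at h4
      have e : g * (g⁻¹ * h * g) * g⁻¹ = h := by group
      rwa [e] at h4
    · intro h3
      have h4 := h3.conj (inv_mem hg)
      rw [← conj_sub_one, inv_inv, key] at h4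
      exact h4
  rw [this]; exact hDS

theorem pair_sigma (h2 : (2 : k) ≠ 0) (hk3 : Nat.card k ≠ 3) (hirr : IsIrreducibleFor G)
    {A B : Subgroup (LinearMap.GeneralLinearGroup k M)} (hA : A ∈ quadraticRootSubgroups G)
    (hB : B ∈ quadraticRootSubgroups G) :
    ⁅A, B⁆ = ⊥ ∨ IsRankOnePair A B ∨ RootCommutatorCase (quadraticRootSubgroups G) A B := by
  obtain ⟨x, hx, hAx⟩ := mem_sigma hA
  obtain ⟨y, hy, hBy⟩ := mem_sigma hB
  by_cases hn : NN x y
  · exact Or.inr (Or.inl (rank_one_pair h2 hk3 hx hy hAx hBy hn))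
  · by_cases hc : ⁅A, B⁆ = ⊥
    · exact Or.inl hc
    · obtain ⟨h1, h3, h4, h5, h6, h7⟩ := grp_main h2 hk3 hirr hx hy hAx hBy hn hc
      refine Or.inr (Or.inr ⟨h1, ?_, h3, h4⟩)
      intro c hcm z hz
      rw [Subgroup.commutator_eq_bot_iff_le_centralizer] at h6
      have h8 := h6 (Subgroup.commutator_mono le_sup_left le_sup_right hcm)
      exact ((Subgroup.mem_centralizer_iff.mp h8) z hz).symm

theorem comm_of_conj {Γ : Type*} [Group Γ] {A B : Subgroup Γ} (hAA : ∀ a ∈ A, ∀ b ∈ A, a * b = b * a)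
    (hc : ∀ c ∈ ⁅A, B⁆, ∀ z ∈ A ⊔ B, c * z = z * c) {a b : Γ} (ha : a ∈ A) (hb : b ∈ B)
    (h : conjBy A b⁻¹ = conjBy B a⁻¹) : ∀ a' ∈ A, ∀ b' ∈ B, a' * b' = b' * a' := by
  intro a' ha' b' hb'
  have hc' : ∀ c ∈ ⁅B, A⁆, ∀ z ∈ A ⊔ B, c * z = z * c := by rw [Subgroup.commutator_comm]; exact hc
  have m1 : b⁻¹ * a' * b ∈ conjBy A b⁻¹ := by
    rw [mem_conjBy]
    have : b⁻¹⁻¹ * (b⁻¹ * a' * b) * b⁻¹ = a' := by group
    rw [this]; exact ha'
  have m2 : a⁻¹ * b' * a ∈ conjBy A b⁻¹ := by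
    rw [h, mem_conjBy]
    have : a⁻¹⁻¹ * (a⁻¹ * b' * a) * a⁻¹ = b' := by group
    rw [this]; exact hb'
  have m3 : (b⁻¹ * a' * b) * (a⁻¹ * b' * a) = (a⁻¹ * b' * a) * (b⁻¹ * a' * b) := by
    rw [mem_conjBy] at m1 m2
    have h3 := hAA _ m1 _ m2
    have e1 : b⁻¹⁻¹ * (b⁻¹ * a' * b) * b⁻¹ * (b⁻¹⁻¹ * (a⁻¹ * b' * a) * b⁻¹) =
      b * ((b⁻¹ * a' * b) * (a⁻¹ * b' * a)) * b⁻¹ := by group
    have e2 : b⁻¹⁻¹ * (a⁻¹ * b' * a) * b⁻¹ * (b⁻¹⁻¹ * (b⁻¹ * a' * b) * b⁻¹) =
      b * ((a⁻¹ * b' * a) * (b⁻¹ * a' * b)) * b⁻¹ := by group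
    rw [e1, e2] at h3
    exact mul_left_cancel (mul_right_cancel h3)
  -- central corrections
  have c1 : b⁻¹ * a' * b * a'⁻¹ ∈ ⁅B, A⁆ := by
    have := Subgroup.commutator_mem_commutator (inv_mem hb) ha'
    rwa [commutatorElement_def, inv_inv] at this
  have c2 : a⁻¹ * b' * a * b'⁻¹ ∈ ⁅A, B⁆ := by
    have := Subgroup.commutator_mem_commutator (inv_mem ha) hb'
    rwa [commutatorElement_def, inv_inv] at this
  set z := b⁻¹ * a' * b * a'⁻¹ with hz
  set w := a⁻¹ * b' * a * b'⁻¹ with hw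
  have e1 : b⁻¹ * a' * b = z * a' := by rw [hz]; group
  have e2 : a⁻¹ * b' * a = w * b' := by rw [hw]; group
  rw [e1, e2] at m3
  have ha'X : a' ∈ A ⊔ B := Subgroup.mem_sup_left ha'
  have hb'X : b' ∈ A ⊔ B := Subgroup.mem_sup_right hb'
  have hzX : z ∈ A ⊔ B := by
    rw [hz]
    exact mul_mem (mul_mem (mul_mem (inv_mem (Subgroup.mem_sup_right hb)) ha'X) (Subgroup.mem_sup_right hb)) (inv_mem ha'X)
  have f1 : z * a' * (w * b') = z * w * (a' * b') := by
    rw [mul_assoc z a', ← mul_assoc a' w b', ← hc w c2 a' ha'X]; simp only [mul_assoc]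
  have f2 : w * b' * (z * a') = z * w * (b' * a') := by
    rw [mul_assoc w b', ← mul_assoc b' z a', ← hc' z c1 b' hb'X]
    rw [← mul_assoc, ← mul_assoc, hc w c2 z hzX]; simp only [mul_assoc]
  rw [f1, f2] at m3
  exact mul_left_cancel m3

theorem nn_of_rankOne (h2 : (2 : k) ≠ 0) (hk3 : Nat.card k ≠ 3) (hirr : IsIrreducibleFor G)
    {A B : Subgroup (LinearMap.GeneralLinearGroup k M)} {x y : M →ₗ[k] M} (hx : Mn G x) (hy : Mn G y)
    (hA : IsE G A x) (hB : IsE G B y) (hp : IsRankOnePair A B) : NN x y := by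
  by_contra hn
  have hcent : ∀ c ∈ ⁅A, B⁆, ∀ z ∈ A ⊔ B, c * z = z * c := by
    by_cases hc : ⁅A, B⁆ = ⊥
    · intro c hcm z _
      rw [hc, Subgroup.mem_bot] at hcm
      rw [hcm, one_mul, mul_one]
    · obtain ⟨h1, h3, h4, h5, h6, h7⟩ := grp_main h2 hk3 hirr hx hy hA hB hn hc
      intro c hcm z hz
      rw [Subgroup.commutator_eq_bot_iff_le_centralizer] at h6
      have h8 := h6 (Subgroup.commutator_mono le_sup_left le_sup_right hcm)
      exact ((Subgroup.mem_centralizer_iff.mp h8) z hz).symm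
  have ha : un x hx.inn.sq ∈ A := hA.un_mem (InE.refl hx.inn)
  obtain ⟨b, hb, hb1, hab⟩ := hp.cond_left _ ha (un_ne_one hx.inn.sq hx.2.1)
  have hAA : ∀ a ∈ A, ∀ b ∈ A, a * b = b * a := fun a ha b hb => hA.comm hx.inn.sq ha hb
  have hcomm := comm_of_conj hAA hcent ha hb hab
  apply hp.ne
  have e1 : conjBy A b⁻¹ = A := by
    ext g
    rw [mem_conjBy, inv_inv]
    constructor
    · intro h
      have h3 := hcomm _ h b hb
      have : g = b * g * b⁻¹ := by
        have h4 : b * g = b * (b * g * b⁻¹) := by rw [← h3]; group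
        exact mul_left_cancel h4
      rw [this]; exact h
    · intro h
      have h3 := hcomm g h b hb
      rw [← h3, mul_inv_cancel_right]; exact h
  have e2 : conjBy B (un x hx.inn.sq)⁻¹ = B := by
    ext g
    rw [mem_conjBy, inv_inv]
    constructor
    · intro h
      have h3 := hcomm _ ha _ h
      have : g = un x hx.inn.sq * g * (un x hx.inn.sq)⁻¹ := by
        have h4 : un x hx.inn.sq * g = un x hx.inn.sq * (un x hx.inn.sq * g * (un x hx.inn.sq)⁻¹) := by rw [h3]; group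
        exact mul_left_cancel h4
      rw [this]; exact h
    · intro h
      have h3 := hcomm _ ha g h
      rw [h3, mul_inv_cancel_right]; exact h
  rw [← e1, hab, e2]

theorem three_lt_enat {k : Type*} [Field k] (h2 : (2 : k) ≠ 0) (hk3 : Nat.card k ≠ 3) : 3 < ENat.card k := by
  rcases finite_or_infinite k with h | h
  · have h1 := three_lt_card h2 hk3
    rw [ENat.card_eq_coe_natCard]
    exact_mod_cast h1
  · rw [ENat.card_eq_top_of_infinite]
    exact ENat.coe_lt_top 3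

end fin

end Cfsg.Agent.H11.QP
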