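import Cfsg.Agent.H11.Regular

/-!
Regular `p`-groups: the first power condition implies all of them.
-/

set_option autoImplicit false

namespace Cfsg.Agent.H11

open Cfsg
open scoped commutatorElement

theorem powerClosure_powerClosure_le {G : Type*} [Group G] {p n : ℕ} [Fact p.Prime]
    {K : Subgroup G} [Finite K] (hpG : IsPGroup p K) (hc : PowCond p 1 K) :
    powerClosure p n (powerClosure p 1 K) ≤ powerClosure p (n + 1) K := by
  unfold powerClosure
  rw [Subgroup.closure_le]
  rintro _ ⟨x, hx, rfl⟩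
  obtain ⟨d, hd, rfl⟩ := (mem_powerClosure_iff hpG hc x).1 hx
  apply Subgroup.subset_closure
  refine ⟨d, hd, ?_⟩
  rw [← pow_mul, ← pow_add, add_comm]

theorem powCond_of_one {G : Type*} [Group G] [Finite G] {p : ℕ} [Fact p.Prime]
    (hpG : IsPGroup p G) (hc : PowCond p 1 (⊤ : Subgroup G)) :
    ∀ n, PowCond p n (⊤ : Subgroup G) := by
  have key : ∀ K L : Subgroup G, L ≤ powerClosure p 1 K → ∀ n,
      powerClosure p n ⁅L, L⁆ ≤ powerClosure p (n + 1) ⁅K, K⁆ := by
    intro K L hLK n
    have h1 : ⁅L, L⁆ ≤ powerClosure p 1 ⁅K, K⁆ :=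
      (Subgroup.commutator_mono (hLK.trans powerClosure_le) hLK).trans
        (commutator_powerClosure_le (hc.mono le_top))
    exact (powerClosure_mono h1).trans
      (powerClosure_powerClosure_le (hpG.to_subgroup _) (hc.mono le_top))
  intro n
  induction n with
  | zero =>
    intro a _ b _
    exact ⟨1, one_mem _, by simp⟩
  | succ n ih =>
    intro a _ b _
    set K := Subgroup.closure ({a, b} : Set G) with hK
    have haK : a ∈ K := Subgroup.subset_closure (by simp)
    have hbK : b ∈ K := Subgroup.subset_closure (by simp)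
    obtain ⟨c', hc', h1⟩ := hc a (Subgroup.mem_top _) b (Subgroup.mem_top _)
    rw [← hK] at hc'
    obtain ⟨c, hcK, rfl⟩ := (mem_powerClosure_iff (hpG.to_subgroup _) (hc.mono le_top) c').1 hc'
    have hcK' : c ∈ K := Subgroup.commutator_le_self K hcK
    obtain ⟨d, hd, h2⟩ := ih (a ^ p ^ 1) (Subgroup.mem_top _) (b ^ p ^ 1 * c ^ p ^ 1)
      (Subgroup.mem_top _)
    obtain ⟨d', hd', h3⟩ := ih (b ^ p ^ 1) (Subgroup.mem_top _) (c ^ p ^ 1) (Subgroup.mem_top _)
    have hda : d ∈ powerClosure p (n + 1) ⁅K, K⁆ := by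
      refine key K _ ?_ n hd
      rw [Subgroup.closure_le]
      rintro x (rfl | rfl)
      · exact pow_mem_powerClosure haK
      · exact mul_mem (pow_mem_powerClosure hbK) (pow_mem_powerClosure hcK')
    have hda' : d' ∈ powerClosure p (n + 1) ⁅K, K⁆ := by
      refine key K _ ?_ n hd'
      rw [Subgroup.closure_le]
      rintro x (rfl | rfl)
      · exact pow_mem_powerClosure hbK
      · exact pow_mem_powerClosure hcK'
    refine ⟨c ^ p ^ (n + 1) * d' * d, mul_mem (mul_mem (pow_mem_powerClosure hcK) hda') hda, ?_⟩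
    have e : ∀ x : G, x ^ p ^ (n + 1) = (x ^ p ^ 1) ^ p ^ n := by
      intro x
      rw [← pow_mul, ← pow_add, add_comm]
    rw [e (a * b), h1, mul_assoc, h2, h3, e a, e b, e c]
    simp only [mul_assoc]

end Cfsg.Agent.H11
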