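import Cfsg.Agent.H11.PAct
import Cfsg.Agent.H2.Subnormal
import Cfsg.Agent.H49.Core

/-!
Two subnormal subgroups with irreducible commutator modules.
-/

set_option autoImplicit false
set_option linter.unusedSectionVars false

namespace Cfsg.Agent.H11

open Cfsg
open scoped commutatorElement Pointwise

variable {G : Type*} [Group G] [Finite G] {p : ℕ} [hp : Fact p.Prime] {V E E₁ E₂ : Subgroup G}

/-- conjugate -/
abbrev cj (x : G) (A : Subgroup G) : Subgroup G := A.map (MulAut.conj x).toMonoidHom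

theorem mem_cj {x y : G} {A : Subgroup G} : y ∈ cj x A ↔ x⁻¹ * y * x ∈ A := mem_map_conj

theorem cj_mul (x y : G) (A : Subgroup G) : cj (x * y) A = cj x (cj y A) := by
  ext z
  rw [mem_cj, mem_cj, mem_cj]
  have : (x * y)⁻¹ * z * (x * y) = y⁻¹ * (x⁻¹ * z * x) * y := by group
  rw [this]

theorem cj_one (A : Subgroup G) : cj 1 A = A := by
  ext z; rw [mem_cj]; simp

theorem cj_inv_cj (x : G) (A : Subgroup G) : cj x⁻¹ (cj x A) = A := by
  rw [← cj_mul, inv_mul_cancel, cj_one]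

theorem cj_cj_inv (x : G) (A : Subgroup G) : cj x (cj x⁻¹ A) = A := by
  rw [← cj_mul, mul_inv_cancel, cj_one]

theorem cj_mono (x : G) {A B : Subgroup G} (h : A ≤ B) : cj x A ≤ cj x B := Subgroup.map_mono h

theorem cj_inj {x : G} {A B : Subgroup G} (h : cj x A = cj x B) : A = B := by
  rw [← cj_inv_cj x A, h, cj_inv_cj]

theorem cj_inf (x : G) (A B : Subgroup G) : cj x (A ⊓ B) = cj x A ⊓ cj x B :=
  Subgroup.map_inf _ _ _ (MulAut.conj x).injective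

theorem cj_eq_bot {x : G} {A : Subgroup G} : cj x A = ⊥ ↔ A = ⊥ := by
  constructor
  · intro h
    rw [← cj_inv_cj x A, h]
    exact Subgroup.map_bot _
  · rintro rfl
    exact Subgroup.map_bot _

theorem cj_norm {x : G} {A B : Subgroup G} (h : A ≤ Subgroup.normalizer (B : Set G)) :
    cj x A ≤ Subgroup.normalizer ((cj x B : Subgroup G) : Set G) := by
  apply le_normalizer_of_conj
  intro a ha b hb
  rw [mem_cj] at ha hb ⊢
  have h1 := conj_mem_of_normalizer h ha hb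
  have h2 : x⁻¹ * (a * b * a⁻¹) * x = (x⁻¹ * a * x) * (x⁻¹ * b * x) * (x⁻¹ * a * x)⁻¹ := by group
  rwa [h2]

theorem cj_self_iff {x : G} {A : Subgroup G} : cj x A = A ↔ x ∈ Subgroup.normalizer (A : Set G) := by
  constructor
  · intro h
    have h1 : Subgroup.zpowers x ≤ Subgroup.normalizer (A : Set G) := by
      rw [Subgroup.zpowers_le, Subgroup.mem_normalizer_iff]
      intro a
      constructor
      · intro ha
        have : x * a * x⁻¹ ∈ cj x A := ⟨a, ha, rfl⟩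
        rwa [h] at this
      · intro ha
        rw [← h] at ha
        have h2 := mem_cj.1 ha
        have h3 : x⁻¹ * (x * a * x⁻¹) * x = a := by group
        rw [h3] at h2
        exact h2
    exact h1 (Subgroup.mem_zpowers x)
  · exact map_conj_eq_self

/-- no nontrivial normal `p`-subgroups -/
def NoP (p : ℕ) (E : Subgroup G) : Prop :=
  ∀ X : Subgroup G, X ≤ E → E ≤ Subgroup.normalizer (X : Set G) → IsPGroup p X → X = ⊥

/-- `E` is irreducible on `[V, E]`. -/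
def Irr (V E : Subgroup G) : Prop :=
  ∀ U : Subgroup G, U ≤ ⁅V, E⁆ → E ≤ Subgroup.normalizer (U : Set G) → U = ⊥ ∨ U = ⁅V, E⁆

theorem pow_mem_centralizer_of_quadratic (hV : IsElementaryAbelian p V) {x : G}
    (hx : x ∈ Subgroup.normalizer (V : Set G)) (hq : ∀ v ∈ V, Commute x ⁅v, x⁆) :
    x ^ p ∈ Subgroup.centralizer (V : Set G) := by
  rw [mem_centralizer_iff'']
  intro v hv
  set c := ⁅x, v⁆ with hc
  have hxc : Commute x c := by
    have h1 := hq v hv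
    have h2 : c = ⁅v, x⁆⁻¹ := by rw [hc, commutatorElement_inv]
    rw [h2]
    exact h1.inv_right
  have hcV : c ∈ V := by
    rw [hc, commutatorElement_def]
    exact mul_mem ((Subgroup.mem_normalizer_iff.1 hx v).1 hv) (inv_mem hv)
  have key : ∀ n : ℕ, x ^ n * v = c ^ n * v * x ^ n := by
    intro n
    induction n with
    | zero => simp
    | succ n ih =>
      calc x ^ (n + 1) * v = x * (x ^ n * v) := by rw [pow_succ']; group
        _ = x * (c ^ n * v * x ^ n) := by rw [ih]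
        _ = (x * c ^ n) * (v * x ^ n) := by group
        _ = (c ^ n * x) * (v * x ^ n) := by rw [(hxc.pow_right n).eq]
        _ = c ^ n * (⁅x, v⁆ * v * x) * x ^ n := by rw [commutatorElement_def]; group
        _ = c ^ (n + 1) * v * x ^ (n + 1) := by rw [← hc, pow_succ, pow_succ']; group
  have h1 := key p
  rw [hV.2 c hcV, one_mul] at h1
  exact h1

theorem NoP.faithful (hE : NoP p E) (hV : IsElementaryAbelian p V)
    (hEV : E ≤ Subgroup.normalizer (V : Set G)) (hf : E ⊓ Subgroup.centralizer (V : Set G) = ⊥) :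
    E ⊓ Subgroup.centralizer ((⁅V, E⁆ : Subgroup G) : Set G) = ⊥ := by
  apply hE _ inf_le_left
  · exact le_normalizer_inf Subgroup.le_normalizer
      (le_normalizer_centralizer (Subgroup.normalizer_commutator_ge_right V E))
  · rintro ⟨x, hx⟩
    rw [Subgroup.mem_inf] at hx
    refine ⟨1, ?_⟩
    apply Subtype.ext
    rw [pow_one]
    change x ^ p = 1
    have h1 : x ^ p ∈ Subgroup.centralizer (V : Set G) := by
      apply pow_mem_centralizer_of_quadratic hV (hEV hx.1)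
      intro v hv
      exact mem_centralizer_iff''.1 hx.2 _ (Subgroup.commutator_mem_commutator hv hx.1)
    have h2 : x ^ p ∈ E ⊓ Subgroup.centralizer (V : Set G) :=
      Subgroup.mem_inf.2 ⟨pow_mem hx.1 p, h1⟩
    rwa [hf, Subgroup.mem_bot] at h2

theorem NoP.conj (hE : NoP p E) (x : G) : NoP p (cj x E) := by
  intro X hX hn hp
  have h1 : cj x⁻¹ X = ⊥ := by
    apply hE
    · rw [← cj_inv_cj x E]
      exact cj_mono _ hX
    · conv_lhs => rw [← cj_inv_cj x E]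
      exact cj_norm hn
    · exact hp.map _
  rwa [cj_eq_bot] at h1

theorem comm_cj {x : G} (hx : x ∈ Subgroup.normalizer (V : Set G)) :
    ⁅V, cj x E⁆ = cj x ⁅V, E⁆ := (map_conj_commutator hx).symm

theorem Irr.conj (hE : Irr V E) {x : G} (hx : x ∈ Subgroup.normalizer (V : Set G)) :
    Irr V (cj x E) := by
  intro U hU hn
  rw [comm_cj hx] at hU ⊢
  have h1 := hE (cj x⁻¹ U) (by
    rw [← cj_inv_cj x ⁅V, E⁆]
    exact cj_mono _ hU) (by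
    conv_lhs => rw [← cj_inv_cj x E]
    exact cj_norm hn)
  rcases h1 with h | h
  · left; rwa [cj_eq_bot] at h
  · right; rw [← h, cj_cj_inv]

theorem disj_of_irr (h : Irr V E₁) (h12 : ¬ ⁅V, E₁⁆ ≤ ⁅V, E₂⁆)
    (hn : E₁ ≤ Subgroup.normalizer ((⁅V, E₂⁆ : Subgroup G) : Set G)) : ⁅V, E₁⁆ ⊓ ⁅V, E₂⁆ = ⊥ := by
  rcases h _ inf_le_left (le_normalizer_inf (Subgroup.normalizer_commutator_ge_right V E₁) hn)
    with h | h
  · exact h
  · exact absurd (inf_eq_left.1 h) h12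

theorem cent_of_disj (h1V : E₁ ≤ Subgroup.normalizer (V : Set G))
    (h2V : E₂ ≤ Subgroup.normalizer (V : Set G)) (hd : ⁅V, E₁⁆ ⊓ ⁅V, E₂⁆ = ⊥)
    (hn : E₁ ≤ Subgroup.normalizer ((⁅V, E₂⁆ : Subgroup G) : Set G)) :
    E₁ ≤ Subgroup.centralizer ((⁅V, E₂⁆ : Subgroup G) : Set G) := by
  rw [Subgroup.le_centralizer_iff, ← Subgroup.commutator_eq_bot_iff_le_centralizer, eq_bot_iff,
    ← hd]
  exact le_inf (Subgroup.commutator_mono (commutator_le_of_normalizer h2V) le_rfl)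
    (commutator_le_of_normalizer hn)

theorem comm_of_cent (hf : (E₁ ⊔ E₂) ⊓ Subgroup.centralizer (V : Set G) = ⊥)
    (h1 : E₁ ≤ Subgroup.centralizer ((⁅V, E₂⁆ : Subgroup G) : Set G))
    (h2 : E₂ ≤ Subgroup.centralizer ((⁅V, E₁⁆ : Subgroup G) : Set G)) : ⁅E₁, E₂⁆ = ⊥ := by
  have h3 : ⁅⁅E₁, E₂⁆, V⁆ = ⊥ := by
    apply Subgroup.commutator_commutator_eq_bot_of_rotate
    · rw [Subgroup.commutator_comm E₂ V, Subgroup.commutator_comm,
        Subgroup.commutator_eq_bot_iff_le_centralizer]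
      exact h1
    · rw [Subgroup.commutator_comm, Subgroup.commutator_eq_bot_iff_le_centralizer]
      exact h2
  rw [Subgroup.commutator_eq_bot_iff_le_centralizer] at h3
  rw [eq_bot_iff, ← hf]
  refine le_inf ?_ h3
  exact (Subgroup.commutator_mono le_sup_left le_sup_right).trans
    (Subgroup.commutator_le_self (E₁ ⊔ E₂))

/-- conditions on each of the two subgroups -/
structure Half (p : ℕ) (V E₁ : Subgroup G) : Prop where
  norm : E₁ ≤ Subgroup.normalizer (V : Set G)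
  faithful : E₁ ⊓ Subgroup.centralizer (V : Set G) = ⊥
  noP : NoP p E₁
  irr : Irr V E₁
  card : 2 < Nat.card E₁

theorem Half.conj (h : Half p V E₁) {x : G} (hx : x ∈ Subgroup.normalizer (V : Set G)) :
    Half p V (cj x E₁) := by
  have hcV : cj x V = V := cj_self_iff.2 hx
  refine ⟨?_, ?_, h.noP.conj x, h.irr.conj hx, ?_⟩
  · have := cj_norm (x := x) h.norm
    rwa [hcV] at this
  · have h1 : Subgroup.centralizer (V : Set G) = cj x (Subgroup.centralizer (V : Set G)) := by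
      rw [cj, map_conj_centralizer, ← cj, hcV]
    rw [h1, ← cj_inf, h.faithful]
    exact Subgroup.map_bot _
  · rw [cj, card_map_conj]
    exact h.card

theorem Half.not_cent (h : Half p V E₁) (hV : IsElementaryAbelian p V) :
    ¬ E₁ ≤ Subgroup.centralizer ((⁅V, E₁⁆ : Subgroup G) : Set G) := by
  intro hc
  have h1 := h.noP.faithful hV h.norm h.faithful
  rw [inf_eq_left.2 hc] at h1
  have := h.card
  rw [h1, Subgroup.card_bot] at this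
  omega

/-- conclusion -/
def PairConcl (V E₁ E₂ : Subgroup G) : Prop :=
  ⁅V, E₁⁆ ⊓ ⁅V, E₂⁆ = ⊥ ∧ E₁ ≤ Subgroup.centralizer ((⁅V, E₂⁆ : Subgroup G) : Set G) ∧
    E₂ ≤ Subgroup.centralizer ((⁅V, E₁⁆ : Subgroup G) : Set G)

/-- the statement to be proved by induction -/
def PairStmt (p : ℕ) (V : Subgroup G) (n : ℕ) : Prop :=
  ∀ E₁ E₂ : Subgroup G, Nat.card ↥(E₁ ⊔ E₂) ≤ n → Half p V E₁ → Half p V E₂ →
    (E₁.subgroupOf (E₁ ⊔ E₂)).IsSubnormal → (E₂.subgroupOf (E₁ ⊔ E₂)).IsSubnormal →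
    ¬ ⁅V, E₁⁆ ≤ ⁅V, E₂⁆ → ¬ ⁅V, E₂⁆ ≤ ⁅V, E₁⁆ → PairConcl V E₁ E₂

theorem cj_le_of_mem {x : G} (hE : E₁ ≤ E) (hx : x ∈ E) : cj x E₁ ≤ E := by
  rintro _ ⟨a, ha, rfl⟩
  exact mul_mem (mul_mem hx (hE ha)) (inv_mem hx)

theorem star {n : ℕ} (ih : PairStmt p V n) (hE : Nat.card E ≤ n + 1)
    (hEV : E ≤ Subgroup.normalizer (V : Set G)) (hE₁ : E₁ ≤ E) (h : Half p V E₁)
    (hs : (E₁.subgroupOf E).IsSubnormal) (hne : E₁ ≠ E) {x : G} (hx : x ∈ E)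
    (hne' : cj x ⁅V, E₁⁆ ≠ ⁅V, E₁⁆) :
    ⁅V, E₁⁆ ⊓ cj x ⁅V, E₁⁆ = ⊥ ∧ E₁ ≤ Subgroup.centralizer ((cj x ⁅V, E₁⁆ : Subgroup G) : Set G) := by
  have hxV := hEV hx
  -- the normal closure
  obtain ⟨K, hKE, hKn, hK₁, hKlt⟩ : ∃ K : Subgroup G, K ≤ E ∧
      E ≤ Subgroup.normalizer (K : Set G) ∧ E₁ ≤ K ∧ K < E := by
    rcases hs.lt_normal with h1 | ⟨K, hKn, hK₁, hKlt⟩
    · exfalso
      apply hne
      rw [Subgroup.subgroupOf_eq_top] at h1
      exact le_antisymm hE₁ h1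
    · refine ⟨K.map E.subtype, Subgroup.map_subtype_le K, ?_, ?_, ?_⟩
      · apply le_normalizer_of_conj
        rintro a ha _ ⟨b, hb, rfl⟩
        exact ⟨⟨a, ha⟩ * b * ⟨a, ha⟩⁻¹, hKn.conj_mem b hb _, rfl⟩
      · intro y hy
        exact ⟨⟨y, hE₁ hy⟩, hK₁ (Subgroup.mem_subgroupOf.2 hy), rfl⟩
      · refine lt_of_le_of_ne (Subgroup.map_subtype_le K) ?_
        intro h1
        apply hKlt.ne
        rw [eq_top_iff]
        rintro ⟨y, hy⟩ -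
        have h2 : y ∈ K.map E.subtype := by rw [h1]; exact hy
        obtain ⟨z, hz, hzy⟩ := h2
        have : z = ⟨y, hy⟩ := Subtype.ext hzy
        exact this ▸ hz
  have hcjE : cj x E = E := cj_self_iff.2 (Subgroup.le_normalizer hx)
  have hE₂ : cj x E₁ ≤ E := cj_le_of_mem hE₁ hx
  have hK₂ : cj x E₁ ≤ K := by
    have h1 := cj_mono x hK₁
    rwa [cj_self_iff.2 (hKn hx)] at h1
  have hsup : E₁ ⊔ cj x E₁ ≤ K := sup_le hK₁ hK₂
  have hcard : Nat.card ↥(E₁ ⊔ cj x E₁) ≤ n := by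
    have h1 : Nat.card ↥(E₁ ⊔ cj x E₁) ≤ Nat.card K := Subgroup.card_le_of_le hsup
    have h2 : Nat.card K < Nat.card E := by
      by_contra hcon
      push Not at hcon
      exact hKlt.ne (Subgroup.eq_of_le_of_card_ge hKE hcon)
    omega
  have hs₁ : (E₁.subgroupOf (E₁ ⊔ cj x E₁)).IsSubnormal :=
    H2.isSubnormal_subgroupOf_mono (sup_le hE₁ hE₂) hs
  have hs₂ : ((cj x E₁).subgroupOf (E₁ ⊔ cj x E₁)).IsSubnormal := by
    apply H2.isSubnormal_subgroupOf_mono (sup_le hE₁ hE₂)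
    apply H2.isSubnormal_conj_subgroupOf x
    have h1 : (MulAut.conj x⁻¹ • E : Subgroup G) = E := by
      have : cj x⁻¹ E = E := cj_self_iff.2 (Subgroup.le_normalizer (inv_mem hx))
      exact this
    rw [h1]
    exact hs
  have hcc : Nat.card ↥(cj x ⁅V, E₁⁆) = Nat.card ↥(⁅V, E₁⁆) := card_map_conj _ x
  have h12 : ¬ ⁅V, E₁⁆ ≤ ⁅V, cj x E₁⁆ := by
    rw [comm_cj hxV]
    intro h1
    exact hne' (Subgroup.eq_of_le_of_card_ge h1 hcc.le).symm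
  have h21 : ¬ ⁅V, cj x E₁⁆ ≤ ⁅V, E₁⁆ := by
    rw [comm_cj hxV]
    intro h1
    exact hne' (Subgroup.eq_of_le_of_card_ge h1 hcc.ge)
  obtain ⟨h1, h2, h3⟩ := ih E₁ (cj x E₁) hcard h (h.conj hxV) hs₁ hs₂ h12 h21
  rw [comm_cj hxV] at h1 h2
  exact ⟨h1, h2⟩

theorem norm_of_norm (hV : IsElementaryAbelian p V) (h₁ : Half p V E₁) (h₂ : Half p V E₂)
    (h12 : ¬ ⁅V, E₁⁆ ≤ ⁅V, E₂⁆)
    (s1 : ∀ x ∈ E₂, cj x ⁅V, E₁⁆ ≠ ⁅V, E₁⁆ → ⁅V, E₁⁆ ⊓ cj x ⁅V, E₁⁆ = ⊥ ∧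
      E₁ ≤ Subgroup.centralizer ((cj x ⁅V, E₁⁆ : Subgroup G) : Set G))
    (hn : E₁ ≤ Subgroup.normalizer ((⁅V, E₂⁆ : Subgroup G) : Set G)) :
    E₂ ≤ Subgroup.normalizer ((⁅V, E₁⁆ : Subgroup G) : Set G) := by
  intro x hx
  rw [← cj_self_iff]
  by_contra hne
  obtain ⟨hd, hc⟩ := s1 x hx hne
  have hd' := disj_of_irr h₁.irr h12 hn
  have hc' := cent_of_disj h₁.norm h₂.norm hd' hn
  apply h₁.not_cent hV
  rw [Subgroup.le_centralizer_iff]
  intro v hv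
  have hvV : v ∈ V := commutator_le_of_normalizer h₁.norm hv
  rw [mem_centralizer_iff'']
  intro e he
  -- `e` centralizes `[v, x]`
  have h1 : ⁅v, x⁆ ∈ ⁅V, E₂⁆ := Subgroup.commutator_mem_commutator hvV hx
  have h2 := mem_centralizer_iff''.1 (hc' he) _ h1
  have h3 : x * v * x⁻¹ ∈ cj x ⁅V, E₁⁆ := ⟨v, hv, rfl⟩
  have h4 := mem_centralizer_iff''.1 (hc he) _ h3
  have h5 : v = ⁅v, x⁆ * (x * v * x⁻¹) := by rw [commutatorElement_def]; group
  rw [h5]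
  calc ⁅v, x⁆ * (x * v * x⁻¹) * e = ⁅v, x⁆ * (e * (x * v * x⁻¹)) := by rw [h4]; group
    _ = e * ⁅v, x⁆ * (x * v * x⁻¹) := by rw [h2]; group
    _ = e * (⁅v, x⁆ * (x * v * x⁻¹)) := by group

theorem inj_of_disj {W : Subgroup G} {x : G} (hd : W ⊓ cj x W = ⊥) {v w : G} (hv : v ∈ W)
    (hw : w ∈ W) (h : ⁅v, x⁆ = ⁅w, x⁆) : v = w := by
  have h1 : w⁻¹ * v = x * (w⁻¹ * v) * x⁻¹ := by
    rw [commutatorElement_def, commutatorElement_def] at h
    calc w⁻¹ * v = w⁻¹ * (v * x * v⁻¹ * x⁻¹) * (x * v * x⁻¹) := by group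
      _ = w⁻¹ * (w * x * w⁻¹ * x⁻¹) * (x * v * x⁻¹) := by rw [h]
      _ = _ := by group
  have h2 : w⁻¹ * v ∈ W ⊓ cj x W := by
    refine Subgroup.mem_inf.2 ⟨mul_mem (inv_mem hw) hv, ?_⟩
    rw [h1]
    exact ⟨w⁻¹ * v, mul_mem (inv_mem hw) hv, rfl⟩
  rw [hd, Subgroup.mem_bot] at h2
  exact (inv_mul_eq_one.1 h2).symm

theorem card_le_of_disj {W U : Subgroup G} {x : G} (hd : W ⊓ cj x W = ⊥)
    (hU : ∀ v ∈ W, ⁅v, x⁆ ∈ U) : Nat.card W ≤ Nat.card U := by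
  apply Nat.card_le_card_of_injective (fun v : W => (⟨⁅(v : G), x⁆, hU v v.2⟩ : U))
  intro v w h
  exact Subtype.ext (inj_of_disj hd v.2 w.2 (congrArg Subtype.val h))

theorem surj_of_disj {W U : Subgroup G} {x : G} (hd : W ⊓ cj x W = ⊥)
    (hU : ∀ v ∈ W, ⁅v, x⁆ ∈ U) (hcard : Nat.card U ≤ Nat.card W) :
    ∀ u ∈ U, ∃ v ∈ W, u = ⁅v, x⁆ := by
  intro u hu
  have hinj : Function.Injective (fun v : W => (⟨⁅(v : G), x⁆, hU v v.2⟩ : U)) := by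
    intro v w h
    exact Subtype.ext (inj_of_disj hd v.2 w.2 (congrArg Subtype.val h))
  obtain ⟨v, hv⟩ := (hinj.bijective_of_nat_card_le hcard).2 ⟨u, hu⟩
  exact ⟨v, v.2, (congrArg Subtype.val hv).symm⟩

theorem false_of_swap (hV : IsElementaryAbelian p V) (h₁ : Half p V E₁) (h₂ : Half p V E₂)
    (s1 : ∀ x ∈ E₁ ⊔ E₂, cj x ⁅V, E₁⁆ ≠ ⁅V, E₁⁆ → ⁅V, E₁⁆ ⊓ cj x ⁅V, E₁⁆ = ⊥ ∧
      E₁ ≤ Subgroup.centralizer ((cj x ⁅V, E₁⁆ : Subgroup G) : Set G))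
    (s2 : ∀ x ∈ E₁ ⊔ E₂, cj x ⁅V, E₂⁆ ≠ ⁅V, E₂⁆ → ⁅V, E₂⁆ ⊓ cj x ⁅V, E₂⁆ = ⊥ ∧
      E₂ ≤ Subgroup.centralizer ((cj x ⁅V, E₂⁆ : Subgroup G) : Set G))
    {x y : G} (hx : x ∈ E₂) (hxn : cj x ⁅V, E₁⁆ ≠ ⁅V, E₁⁆) (hy : y ∈ E₁)
    (hyn : cj y ⁅V, E₂⁆ ≠ ⁅V, E₂⁆) : False := by
  have hx' : x ∈ E₁ ⊔ E₂ := Subgroup.mem_sup_right hx
  have hy' : y ∈ E₁ ⊔ E₂ := Subgroup.mem_sup_left hy
  have hV1 : ⁅V, E₁⁆ ≤ V := commutator_le_of_normalizer h₁.norm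
  have hV2 : ⁅V, E₂⁆ ≤ V := commutator_le_of_normalizer h₂.norm
  have hU1 : ∀ z ∈ E₂, ∀ v ∈ ⁅V, E₁⁆, ⁅v, z⁆ ∈ ⁅V, E₂⁆ := fun z hz v hv =>
    Subgroup.commutator_mem_commutator (hV1 hv) hz
  have hU2 : ∀ z ∈ E₁, ∀ v ∈ ⁅V, E₂⁆, ⁅v, z⁆ ∈ ⁅V, E₁⁆ := fun z hz v hv =>
    Subgroup.commutator_mem_commutator (hV2 hv) hz
  obtain ⟨hdx, hcx⟩ := s1 x hx' hxn
  obtain ⟨hdy, hcy⟩ := s2 y hy' hyn
  have hcard : Nat.card ↥(⁅V, E₁⁆) = Nat.card ↥(⁅V, E₂⁆) :=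
    le_antisymm (card_le_of_disj hdx (hU1 x hx)) (card_le_of_disj hdy (hU2 y hy))
  have hsurj := surj_of_disj hdx (hU1 x hx) hcard.ge
  have hd12 : ⁅V, E₁⁆ ⊓ ⁅V, E₂⁆ = ⊥ := by
    rw [eq_bot_iff]
    intro w hw
    rw [Subgroup.mem_inf] at hw
    obtain ⟨v, hv, rfl⟩ := hsurj w hw.2
    have h1 : x * v * x⁻¹ ∈ ⁅V, E₁⁆ ⊓ cj x ⁅V, E₁⁆ := by
      refine Subgroup.mem_inf.2 ⟨?_, ⟨v, hv, rfl⟩⟩
      have h2 : x * v * x⁻¹ = ⁅v, x⁆⁻¹ * v := by rw [commutatorElement_def]; group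
      rw [h2]
      exact mul_mem (inv_mem hw.1) hv
    rw [hdx, Subgroup.mem_bot] at h1
    have h2 : v = 1 := by
      have : v = x⁻¹ * (x * v * x⁻¹) * x := by group
      rw [this, h1]; group
    rw [h2, commutatorElement_one_left]
    exact one_mem _
  have hdx2 : cj x ⁅V, E₁⁆ ⊓ ⁅V, E₂⁆ = ⊥ := by
    rw [eq_bot_iff]
    intro w hw
    rw [Subgroup.mem_inf] at hw
    obtain ⟨v, hv, rfl⟩ := hsurj w hw.2
    have h1 : v ∈ ⁅V, E₁⁆ ⊓ cj x ⁅V, E₁⁆ := by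
      refine Subgroup.mem_inf.2 ⟨hv, ?_⟩
      have h2 : v = ⁅v, x⁆ * (x * v * x⁻¹) := by rw [commutatorElement_def]; group
      rw [h2]
      exact mul_mem hw.1 ⟨v, hv, rfl⟩
    rw [hdx, Subgroup.mem_bot] at h1
    rw [h1, commutatorElement_one_left]
    exact one_mem _
  -- conjugates are contained in `V₁ V₂`
  have hle : ∀ z ∈ E₂, cj z ⁅V, E₁⁆ ≤ ⁅V, E₁⁆ ⊔ ⁅V, E₂⁆ := by
    rintro z hz _ ⟨v, hv, rfl⟩
    have h2 : (MulAut.conj z).toMonoidHom v = ⁅v, z⁆⁻¹ * v := by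
      rw [commutatorElement_def]; simp [mul_assoc]
    rw [h2]
    exact mul_mem (Subgroup.mem_sup_right (inv_mem (hU1 z hz v hv))) (Subgroup.mem_sup_left hv)
  have hstar : ∀ z ∈ E₂, ∀ z' ∈ E₂, cj z ⁅V, E₁⁆ ≠ ⁅V, E₁⁆ → cj z' ⁅V, E₁⁆ ≠ ⁅V, E₁⁆ →
      cj z ⁅V, E₁⁆ = cj z' ⁅V, E₁⁆ := by
    intro z hz z' hz' hzn hzn'
    by_contra hne
    have hzE : z⁻¹ * z' ∈ E₁ ⊔ E₂ := Subgroup.mem_sup_right (mul_mem (inv_mem hz) hz')
    have h1 : cj (z⁻¹ * z') ⁅V, E₁⁆ ≠ ⁅V, E₁⁆ := by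
      intro h
      apply hne
      have h2 : cj z (cj (z⁻¹ * z') ⁅V, E₁⁆) = cj z ⁅V, E₁⁆ := by rw [h]
      rw [← cj_mul, mul_inv_cancel_left] at h2
      exact h2.symm
    obtain ⟨h2, -⟩ := s1 _ hzE h1
    have h3 : cj z ⁅V, E₁⁆ ⊓ cj z' ⁅V, E₁⁆ = ⊥ := by
      have h4 : cj z (⁅V, E₁⁆ ⊓ cj (z⁻¹ * z') ⁅V, E₁⁆) = ⊥ := by rw [h2]; exact Subgroup.map_bot _
      rw [cj_inf, ← cj_mul, mul_inv_cancel_left] at h4
      exact h4
    have hzV : cj z ⁅V, E₁⁆ ≤ V := (hle z hz).trans (sup_le hV1 hV2)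
    have hzV' : cj z' ⁅V, E₁⁆ ≤ V := (hle z' hz').trans (sup_le hV1 hV2)
    have h4 : Nat.card ↥(cj z ⁅V, E₁⁆ ⊔ cj z' ⁅V, E₁⁆) = Nat.card ↥(⁅V, E₁⁆) * Nat.card ↥(⁅V, E₁⁆) := by
      rw [card_sup_of_disjoint (le_normalizer_of_comm hV.1 hzV hzV') h3, cj, card_map_conj, cj,
        card_map_conj]
    have h5 : Nat.card ↥(⁅V, E₁⁆ ⊔ ⁅V, E₂⁆) = Nat.card ↥(⁅V, E₁⁆) * Nat.card ↥(⁅V, E₁⁆) := by
      rw [card_sup_of_disjoint (le_normalizer_of_comm hV.1 hV1 hV2) hd12, hcard]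
    have h6 : cj z ⁅V, E₁⁆ ⊔ cj z' ⁅V, E₁⁆ = ⁅V, E₁⁆ ⊔ ⁅V, E₂⁆ :=
      Subgroup.eq_of_le_of_card_ge (sup_le (hle z hz) (hle z' hz')) (by rw [h4, h5])
    apply h₁.not_cent hV
    rw [Subgroup.le_centralizer_iff]
    have h7 : ⁅V, E₁⁆ ≤ cj z ⁅V, E₁⁆ ⊔ cj z' ⁅V, E₁⁆ := by rw [h6]; exact le_sup_left
    refine h7.trans (sup_le ?_ ?_)
    · rw [Subgroup.le_centralizer_iff]
      exact (s1 z (Subgroup.mem_sup_right hz) hzn).2
    · rw [Subgroup.le_centralizer_iff]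
      exact (s1 z' (Subgroup.mem_sup_right hz') hzn').2
  -- the stabilizer of `V₁` in `E₂` is trivial
  have hstab : ∀ e ∈ E₂, e ∈ Subgroup.normalizer ((⁅V, E₁⁆ : Subgroup G) : Set G) → e = 1 := by
    intro e he hen
    have hc1 : ∀ v ∈ ⁅V, E₁⁆, e * v = v * e := by
      intro v hv
      have h1 : ⁅e, v⁆ ∈ ⁅V, E₁⁆ ⊓ ⁅V, E₂⁆ := by
        refine Subgroup.mem_inf.2 ⟨?_, ?_⟩
        · rw [commutatorElement_def]
          exact mul_mem ((Subgroup.mem_normalizer_iff.1 hen v).1 hv) (inv_mem hv)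
        · have := inv_mem (hU1 e he v hv)
          rwa [commutatorElement_inv] at this
      rw [hd12, Subgroup.mem_bot] at h1
      exact commutatorElement_eq_one_iff_mul_comm.1 h1
    have hee : cj e ⁅V, E₁⁆ = ⁅V, E₁⁆ := cj_self_iff.2 hen
    have h1 : cj (e * x) ⁅V, E₁⁆ ≠ ⁅V, E₁⁆ := by
      intro h
      apply hxn
      apply cj_inj (x := e)
      rw [← cj_mul, h, hee]
    have h2 := hstar (e * x) (mul_mem he hx) x hx h1 hxn
    have hen' : e ∈ Subgroup.normalizer ((cj x ⁅V, E₁⁆ : Subgroup G) : Set G) := by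
      rw [← cj_self_iff, ← cj_mul]
      exact h2
    have hc2 : ∀ v ∈ cj x ⁅V, E₁⁆, e * v = v * e := by
      intro v hv
      have h1 : ⁅e, v⁆ ∈ cj x ⁅V, E₁⁆ ⊓ ⁅V, E₂⁆ := by
        refine Subgroup.mem_inf.2 ⟨?_, ?_⟩
        · rw [commutatorElement_def]
          exact mul_mem ((Subgroup.mem_normalizer_iff.1 hen' v).1 hv) (inv_mem hv)
        · have hvV : v ∈ V := ((hle x hx).trans (sup_le hV1 hV2)) hv
          rw [Subgroup.commutator_comm]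
          exact Subgroup.commutator_mem_commutator he hvV
      rw [hdx2, Subgroup.mem_bot] at h1
      exact commutatorElement_eq_one_iff_mul_comm.1 h1
    have h3 : e ∈ E₂ ⊓ Subgroup.centralizer ((⁅V, E₂⁆ : Subgroup G) : Set G) := by
      refine Subgroup.mem_inf.2 ⟨he, ?_⟩
      rw [mem_centralizer_iff'']
      intro w hw
      obtain ⟨v, hv, rfl⟩ := hsurj w hw
      have h4 : ⁅v, x⁆ = v * (x * v * x⁻¹)⁻¹ := by rw [commutatorElement_def]; group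
      rw [h4]
      have h5 : Commute e v := hc1 v hv
      have h6 : Commute e (x * v * x⁻¹) := hc2 _ ⟨v, hv, rfl⟩
      exact (h5.mul_right h6.inv_right).eq
    rw [h₂.noP.faithful hV h₂.norm h₂.faithful, Subgroup.mem_bot] at h3
    exact h3
  have hall : ∀ z ∈ E₂, z = 1 ∨ z = x := by
    intro z hz
    by_cases hzn : cj z ⁅V, E₁⁆ = ⁅V, E₁⁆
    · left
      exact hstab z hz (cj_self_iff.1 hzn)
    · right
      have h1 := hstar z hz x hx hzn hxn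
      have h2 : cj (x⁻¹ * z) ⁅V, E₁⁆ = ⁅V, E₁⁆ := by
        rw [cj_mul, h1, cj_inv_cj]
      have h3 := hstab (x⁻¹ * z) (mul_mem (inv_mem hx) hz) (cj_self_iff.1 h2)
      exact (inv_mul_eq_one.1 h3).symm
  have h1 : (E₂ : Set G) ⊆ {1, x} := by
    intro z hz
    rcases hall z hz with h | h
    · exact Or.inl h
    · exact Or.inr h
  have h2 : Nat.card E₂ ≤ 2 := by
    have h3 : (E₂ : Set G).ncard ≤ ({1, x} : Set G).ncard := Set.ncard_le_ncard h1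
    have h4 : ({1, x} : Set G).ncard ≤ 2 := by
      classical
      exact (Set.ncard_insert_le _ _).trans (by rw [Set.ncard_singleton])
    exact h3.trans h4
  have := h₂.card
  omega

theorem pairStmt (hV : IsElementaryAbelian p V) : ∀ n, PairStmt p V n := by
  intro n
  induction n with
  | zero =>
    intro E₁ E₂ h
    have := Nat.card_pos (α := ↥(E₁ ⊔ E₂))
    omega
  | succ n ih =>
    intro E₁ E₂ hcard h₁ h₂ hs₁ hs₂ h12 h21
    have hEV : E₁ ⊔ E₂ ≤ Subgroup.normalizer (V : Set G) := sup_le h₁.norm h₂.norm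
    have hne1 : E₁ ≠ E₁ ⊔ E₂ := by
      intro h
      apply h21
      have : E₂ ≤ E₁ := by rw [h]; exact le_sup_right
      exact Subgroup.commutator_mono le_rfl this
    have hne2 : E₂ ≠ E₁ ⊔ E₂ := by
      intro h
      apply h12
      have : E₁ ≤ E₂ := by rw [h]; exact le_sup_left
      exact Subgroup.commutator_mono le_rfl this
    have s1 : ∀ x ∈ E₁ ⊔ E₂, cj x ⁅V, E₁⁆ ≠ ⁅V, E₁⁆ → ⁅V, E₁⁆ ⊓ cj x ⁅V, E₁⁆ = ⊥ ∧
      E₁ ≤ Subgroup.centralizer ((cj x ⁅V, E₁⁆ : Subgroup G) : Set G) := fun x hx hn =>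
      star ih hcard hEV le_sup_left h₁ hs₁ hne1 hx hn
    have s2 : ∀ x ∈ E₁ ⊔ E₂, cj x ⁅V, E₂⁆ ≠ ⁅V, E₂⁆ → ⁅V, E₂⁆ ⊓ cj x ⁅V, E₂⁆ = ⊥ ∧
      E₂ ≤ Subgroup.centralizer ((cj x ⁅V, E₂⁆ : Subgroup G) : Set G) := fun x hx hn =>
      star ih hcard hEV le_sup_right h₂ hs₂ hne2 hx hn
    have fin : E₁ ≤ Subgroup.normalizer ((⁅V, E₂⁆ : Subgroup G) : Set G) →
        E₂ ≤ Subgroup.normalizer ((⁅V, E₁⁆ : Subgroup G) : Set G) → PairConcl V E₁ E₂ := by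
      intro hn1 hn2
      have hd := disj_of_irr h₁.irr h12 hn1
      refine ⟨hd, cent_of_disj h₁.norm h₂.norm hd hn1, ?_⟩
      exact cent_of_disj h₂.norm h₁.norm (by rw [inf_comm]; exact hd) hn2
    by_cases hn1 : E₁ ≤ Subgroup.normalizer ((⁅V, E₂⁆ : Subgroup G) : Set G)
    · exact fin hn1 (norm_of_norm hV h₁ h₂ h12
        (fun x hx hn => s1 x (Subgroup.mem_sup_right hx) hn) hn1)
    · by_cases hn2 : E₂ ≤ Subgroup.normalizer ((⁅V, E₁⁆ : Subgroup G) : Set G)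
      · exact absurd (norm_of_norm hV h₂ h₁ h21
          (fun x hx hn => s2 x (Subgroup.mem_sup_left hx) hn) hn2) hn1
      · exfalso
        obtain ⟨y, hy, hyn⟩ := SetLike.not_le_iff_exists.1 hn1
        obtain ⟨x, hx, hxn⟩ := SetLike.not_le_iff_exists.1 hn2
        exact false_of_swap hV h₁ h₂ s1 s2 hx (fun h => hxn (cj_self_iff.1 h)) hy
          (fun h => hyn (cj_self_iff.1 h))

theorem noP_of_subnormal (hE : E₁ ≤ E) (hs : (E₁.subgroupOf E).IsSubnormal)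
    (hO : pCore p ↥E = ⊥) : NoP p E₁ := by
  intro X hX hn hXp
  have h1 : (X.subgroupOf E).IsSubnormal := by
    apply H2.isSubnormal_subgroupOf_trans hX _ hs
    exact ((Subgroup.normal_subgroupOf_iff_le_normalizer hX).2 hn).isSubnormal
  have h2 : IsPGroup p (X.subgroupOf E) := by
    have := hXp.comap_of_injective E.subtype E.subtype_injective
    exact this
  have h3 := H49.le_pCore_of_isSubnormal h1 h2
  rw [hO, le_bot_iff, Subgroup.subgroupOf_eq_bot] at h3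
  exact h3.eq_bot_of_le (hX.trans hE)

end Cfsg.Agent.H11
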