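import Cfsg.Agent.S3996
import Cfsg.Agent.SigF.Gen
import Cfsg.Agent.H30.Solv
import Cfsg.Prelude.Def_Solvable

set_option autoImplicit false
open Cfsg

namespace Cfsg.Agent.H11.ThreeOrd

open Cfsg.Agent.FrobThm Cfsg.Agent.S3996
open scoped Pointwise

variable {G : Type*} [Group G]

/-- norm argument -/
theorem norm_lemma [Finite G] {V : Subgroup G} [hVn : V.Normal] (hVc : ∀ a ∈ V, ∀ b ∈ V, a * b = b * a)
    {Q : Subgroup G} (hCV : V ⊓ Subgroup.centralizer (Q : Set G) = ⊥)
    {x : G} {p : ℕ} (hp : 0 < p) (hxQ : x ∈ Subgroup.normalizer (Q : Set G)) (hxp : x ^ p = 1)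
    (hxf : ∀ j, 0 < j → j < p → Q ⊓ Subgroup.centralizer {x ^ j} = ⊥)
    (hexp : ∀ v ∈ V, ∀ h ∈ Q, (v * (h * x * h⁻¹)) ^ p = 1) : ∀ v ∈ V, v ^ Nat.card Q = 1 := by
  classical
  cases nonempty_fintype G
  let _ : CommGroup V := { (inferInstance : Group V) with mul_comm := fun a b => Subtype.ext (hVc a a.2 b b.2) }
  let ρ : G → V → V := fun g v => ⟨g * v * g⁻¹, hVn.conj_mem v v.2 g⟩
  have hρmul : ∀ g h v, ρ (g * h) v = ρ g (ρ h v) := by
    intro g h v
    apply Subtype.ext
    simp only [ρ]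
    group
  have hρ1 : ∀ v, ρ 1 v = v := by
    intro v
    apply Subtype.ext
    simp only [ρ]
    group
  have hρm : ∀ g v w, ρ g (v * w) = ρ g v * ρ g w := by
    intro g v w
    apply Subtype.ext
    simp only [ρ, Subgroup.coe_mul]
    group
  have hρo : ∀ g, ρ g 1 = 1 := by
    intro g
    apply Subtype.ext
    simp only [ρ, Subgroup.coe_one]
    group
  let R : G → V →* V := fun g => { toFun := ρ g, map_one' := hρo g, map_mul' := hρm g }
  -- norm over Q is trivial
  have h1 : ∀ w : V, ∏ h : Q, ρ h w = 1 := by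
    intro w
    have h2 : ∀ k : Q, ρ k (∏ h : Q, ρ h w) = ∏ h : Q, ρ h w := by
      intro k
      have h3 : ρ k (∏ h : Q, ρ h w) = ∏ h : Q, ρ k (ρ h w) := map_prod (R k) _ _
      rw [h3]
      have h4 : ∀ h : Q, ρ k (ρ h w) = ρ ((k * h : Q) : G) w := by
        intro h
        rw [Subgroup.coe_mul, hρmul]
      simp only [h4]
      exact Fintype.prod_equiv (Equiv.mulLeft k) _ _ (fun h => rfl)
    have h5 : ((∏ h : Q, ρ h w : V) : G) ∈ V ⊓ Subgroup.centralizer (Q : Set G) := by
      refine ⟨Subtype.property _, Subgroup.mem_centralizer_iff.2 ?_⟩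
      intro k hk
      have h6 := congrArg Subtype.val (h2 ⟨k, hk⟩)
      simp only [ρ] at h6
      exact mul_inv_eq_iff_eq_mul.1 h6
    rw [hCV, Subgroup.mem_bot] at h5
    exact Subtype.ext h5
  -- powers
  have h2 : ∀ (v : V) (y : G) (n : ℕ), ((v : G) * y) ^ n = ((∏ j ∈ Finset.range n, ρ (y ^ j) v : V) : G) * y ^ n := by
    intro v y n
    induction n with
    | zero => simp
    | succ n ih =>
      rw [pow_succ, ih, Finset.prod_range_succ, Subgroup.coe_mul]
      simp only [ρ]
      rw [pow_succ]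
      group
  have h3 : ∀ (v : V) (h : Q), ∏ j ∈ Finset.range p, ρ ((h : G) * x ^ j * (h : G)⁻¹) v = 1 := by
    intro v h
    have h4 := hexp v v.2 h h.2
    rw [h2] at h4
    have h5 : ((h : G) * x * (h : G)⁻¹) ^ p = 1 := by rw [conj_pow, hxp]; group
    rw [h5, mul_one] at h4
    have h6 : (∏ j ∈ Finset.range p, ρ (((h : G) * x * (h : G)⁻¹) ^ j) v : V) = 1 := Subtype.ext h4
    rw [← h6]
    refine Finset.prod_congr rfl fun j _ => ?_
    rw [conj_pow]
  -- the swap
  intro v hv
  have h4 : ∏ j ∈ Finset.range p, ∏ h : Q, ρ ((h : G) * x ^ j * (h : G)⁻¹) ⟨v, hv⟩ = 1 := by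
    rw [Finset.prod_comm]
    exact Finset.prod_eq_one fun h _ => h3 _ h
  rw [Finset.prod_eq_single_of_mem 0 (Finset.mem_range.2 hp)] at h4
  · have h5 : ∀ h : Q, ρ ((h : G) * x ^ 0 * (h : G)⁻¹) ⟨v, hv⟩ = ⟨v, hv⟩ := by
      intro h
      rw [pow_zero, mul_one, mul_inv_cancel, hρ1]
    simp only [h5, Finset.prod_const] at h4
    have h6 := congrArg Subtype.val h4
    rw [Finset.card_univ, ← Nat.card_eq_fintype_card] at h6
    simpa using h6
  · intro j hj hj0
    have hjp := Finset.mem_range.1 hj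
    have hj0' : 0 < j := Nat.pos_of_ne_zero hj0
    have hxjQ : x ^ j ∈ Subgroup.normalizer (Q : Set G) := pow_mem hxQ j
    have hmem : ∀ h : Q, (h : G) * x ^ j * (h : G)⁻¹ * (x ^ j)⁻¹ ∈ Q := by
      intro h
      have h7 : x ^ j * (h : G)⁻¹ * (x ^ j)⁻¹ ∈ Q :=
        (Subgroup.mem_normalizer_iff.1 hxjQ _).1 (inv_mem h.2)
      have h8 := mul_mem h.2 h7
      convert h8 using 1
      group
    let σ : Q → Q := fun h => ⟨(h : G) * x ^ j * (h : G)⁻¹ * (x ^ j)⁻¹, hmem h⟩
    have hσi : Function.Injective σ := by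
      intro h k hhk
      have h7 : (h : G) * x ^ j * (h : G)⁻¹ * (x ^ j)⁻¹ = (k : G) * x ^ j * (k : G)⁻¹ * (x ^ j)⁻¹ :=
        congrArg Subtype.val hhk
      have h8 : (h : G) * x ^ j * (h : G)⁻¹ = (k : G) * x ^ j * (k : G)⁻¹ := mul_right_cancel h7
      have h9 : (k : G)⁻¹ * h ∈ Q ⊓ Subgroup.centralizer {x ^ j} := by
        refine Subgroup.mem_inf.2 ⟨Q.mul_mem (Q.inv_mem k.2) h.2, Subgroup.mem_centralizer_singleton_iff.2 ?_⟩
        calc (k : G)⁻¹ * h * x ^ j = (k : G)⁻¹ * ((h : G) * x ^ j * (h : G)⁻¹) * h := by group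
          _ = (k : G)⁻¹ * ((k : G) * x ^ j * (k : G)⁻¹) * h := by rw [h8]
          _ = x ^ j * ((k : G)⁻¹ * h) := by group
      rw [hxf j hj0' hjp, Subgroup.mem_bot] at h9
      exact Subtype.ext (by rw [inv_mul_eq_one] at h9; exact h9.symm)
    have hσb : Function.Bijective σ := Finite.injective_iff_bijective.1 hσi
    have h7 : ∀ h : Q, ρ ((h : G) * x ^ j * (h : G)⁻¹) ⟨v, hv⟩ = ρ (σ h) (ρ (x ^ j) ⟨v, hv⟩) := by
      intro h
      rw [← hρmul]
      congr 1
      simp only [σ]
      group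
    simp only [h7]
    rw [← h1 (ρ (x ^ j) ⟨v, hv⟩)]
    exact Fintype.prod_equiv (Equiv.ofBijective σ hσb) _ _ (fun h => rfl)


theorem orderOf_mul_pq {p q : ℕ} (hpq : p.Coprime q) {x y : G} (hx : orderOf x = p) (hy : orderOf y = q)
    (h : x * y = y * x) : orderOf (x * y) = p * q := by
  rw [Commute.orderOf_mul_eq_mul_orderOf_of_coprime (show Commute x y from h) (by rw [hx, hy]; exact hpq), hx, hy]

/-- The structure of the groups all of whose elements have order `1`, `p` or `q`, with a normal `p`-subgroup. -/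
theorem frob_of_normal [Finite G] {p q : ℕ} (hp : p.Prime) (hq : q.Prime) (hpq : p ≠ q)
    (hord : ∀ g : G, orderOf g = 1 ∨ orderOf g = p ∨ orderOf g = q)
    {V : Subgroup G} (hVn : V.Normal) (hV1 : V ≠ ⊥) (hVe : Cfsg.IsElementaryAbelian p V)
    (hqd : q ∣ Nat.card G) : ∃ C : Subgroup G, Cfsg.IsFrobeniusComplement C ∧ (Nat.card ↥C).Prime := by
  classical
  have hpf : Fact p.Prime := ⟨hp⟩
  have hqf : Fact q.Prime := ⟨hq⟩
  have hcop : p.Coprime q := (Nat.coprime_primes hp hq).2 hpq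
  have hVp : IsPGroup p V := SigF.isPGroup_of_elem hVe
  have hVc : ∀ a ∈ V, ∀ b ∈ V, a * b = b * a := (H30.isElementaryAbelian_iff.1 hVe).1
  have hVx : ∀ a ∈ V, a ^ p = 1 := hVe.2
  -- no elements of order pq
  have hno : ∀ x y : G, orderOf x = p → orderOf y = q → x * y ≠ y * x := by
    intro x y hx hy h
    have h1 := orderOf_mul_pq hcop hx hy h
    have hp2 := hp.two_le
    have hq2 := hq.two_le
    rcases hord (x * y) with h2 | h2 | h2
    · nlinarith
    · nlinarith
    · nlinarith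
  have hVo : ∀ a ∈ V, a ≠ 1 → orderOf a = p := fun a ha ha1 => orderOf_eq_prime (hVx a ha) ha1
  have hqV : ¬ q ∣ Nat.card V := by
    intro h
    obtain ⟨n, hn⟩ := IsPGroup.iff_card.1 hVp
    rw [hn] at h
    exact hpq ((Nat.prime_dvd_prime_iff_eq hq hp).1 (hq.dvd_of_dvd_pow h)).symm
  obtain ⟨Q⟩ : Nonempty (Sylow q G) := inferInstance
  -- elements of Q
  have hQo : ∀ y ∈ (Q : Subgroup G), y ≠ 1 → orderOf y = q := by
    intro y hy hy1
    obtain ⟨k, hk⟩ := IsPGroup.iff_orderOf.1 Q.isPGroup' ⟨y, hy⟩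
    rw [Subgroup.orderOf_mk] at hk
    rcases hord y with h | h | h
    · exact absurd (orderOf_eq_one_iff.1 h) hy1
    · exfalso
      rw [h] at hk
      have h2 : p ∣ q ^ k := by rw [← hk]
      exact hpq ((Nat.prime_dvd_prime_iff_eq hp hq).1 (hp.dvd_of_dvd_pow h2))
    · exact h
  have hQcard : Nat.card (Q : Subgroup G) = q := by
    have h1 : q ∣ Nat.card (Q : Subgroup G) := by
      rw [Q.card_eq_multiplicity]
      exact dvd_pow_self q (Nat.pos_of_ne_zero (by
        have := (hq.dvd_iff_one_le_factorization Nat.card_pos.ne').1 hqd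
        omega)).ne'
    obtain ⟨n, hn⟩ := IsPGroup.iff_card.1 Q.isPGroup'
    rcases Nat.lt_or_ge n 2 with h2 | h2
    · interval_cases n
      · rw [hn] at h1; simp at h1; exact absurd h1 hq.ne_one
      · rw [hn, pow_one]
    · exfalso
      have h3 : q ^ 2 ∣ Nat.card (Q : Subgroup G) := by rw [hn]; exact pow_dvd_pow q h2
      obtain ⟨A, hA⟩ := Sylow.exists_subgroup_card_pow_prime q h3
      obtain ⟨B, hBdef⟩ : ∃ B, B = A.map (Q : Subgroup G).subtype := ⟨_, rfl⟩
      have hBQ : B ≤ (Q : Subgroup G) := by rw [hBdef]; exact Subgroup.map_subtype_le A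
      have hBc : Nat.card B = q ^ 2 := by
        rw [hBdef, Subgroup.card_map_of_injective (Subgroup.subtype_injective _), hA]
      have hBe : Cfsg.IsElementaryAbelian q B := by
        rw [H30.isElementaryAbelian_iff]
        refine ⟨?_, ?_⟩
        · have h4 := IsPGroup.isMulCommutative_of_card_eq_prime_sq hBc
          intro a ha b hb
          have h5 := h4.is_comm.comm (⟨a, ha⟩ : B) ⟨b, hb⟩
          exact congrArg Subtype.val h5
        · intro a ha
          by_cases ha1 : a = 1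
          · rw [ha1, one_pow]
          · have := pow_orderOf_eq_one a
            rwa [hQo a (hBQ ha) ha1] at this
      have h4 := SigF.eq_of_fixed_le (p := q) (A := B) (K := V) (H := ⊥) hBe (le_of_eq hBc.symm) hqV
        (by rw [Subgroup.normalizer_eq_top_iff.2 hVn]; exact le_top) bot_le (by
          intro a ha ha1 v hv
          rw [Subgroup.mem_bot]
          by_contra hv1
          exact hno v a (hVo v hv.1 hv1) (hQo a (hBQ ha) ha1) (Subgroup.mem_centralizer_singleton_iff.1 hv.2))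
      exact hV1 h4.symm
  -- Q has an element of order q
  obtain ⟨y, hyQ, hy⟩ : ∃ y ∈ (Q : Subgroup G), orderOf y = q := by
    obtain ⟨y, hy⟩ := exists_prime_orderOf_dvd_card' (G := (Q : Subgroup G)) q (by rw [hQcard])
    exact ⟨y, y.2, (Subgroup.orderOf_coe y).trans hy⟩
  have hCV : V ⊓ Subgroup.centralizer ((Q : Subgroup G) : Set G) = ⊥ := by
    rw [eq_bot_iff]
    intro v hv
    rw [Subgroup.mem_bot]
    by_contra hv1
    exact hno v y (hVo v hv.1 hv1) hy (Subgroup.mem_centralizer_iff.1 hv.2 y hyQ).symm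
  have hN : Subgroup.normalizer ((Q : Subgroup G) : Set G) = Q := by
    by_contra hcon
    have h1 : ¬ Subgroup.normalizer ((Q : Subgroup G) : Set G) ≤ Q :=
      fun h => hcon (le_antisymm h Subgroup.le_normalizer)
    obtain ⟨x, hx, hxQ⟩ := SetLike.not_le_iff_exists.1 h1
    have hxp : orderOf x = p := by
      rcases hord x with h | h | h
      · exact absurd (by rw [orderOf_eq_one_iff.1 h]; exact one_mem _) hxQ
      · exact h
      · exfalso
        have h2 : IsPGroup q (Subgroup.zpowers x) := by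
          apply IsPGroup.of_card (n := 1)
          rw [Nat.card_zpowers, h, pow_one]
        have h3 := h2.inf_normalizer_sylow Q
        have h4 : x ∈ Subgroup.zpowers x ⊓ (Q : Subgroup G) := by
          rw [← h3]
          exact ⟨Subgroup.mem_zpowers x, hx⟩
        exact hxQ h4.2
    have hxp1 : x ^ p = 1 := by rw [← hxp]; exact pow_orderOf_eq_one x
    obtain ⟨v, hv, hv1⟩ := (Subgroup.ne_bot_iff_exists_ne_one.1 hV1) |> fun ⟨v, hv⟩ =>
      (⟨v.1, v.2, fun h => hv (Subtype.ext h)⟩ : ∃ v : G, v ∈ V ∧ v ≠ 1)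
    have h5 := norm_lemma (V := V) hVc hCV hp.pos hx hxp1 (by
      intro j hj0 hjp
      have hxj : orderOf (x ^ j) = p := by
        refine orderOf_eq_prime (by rw [← pow_mul, mul_comm, pow_mul, hxp1, one_pow]) ?_
        intro h
        have := orderOf_dvd_of_pow_eq_one h
        rw [hxp] at this
        exact absurd (Nat.le_of_dvd hj0 this) (by omega)
      rw [eq_bot_iff]
      intro z hz
      rw [Subgroup.mem_bot]
      by_contra hz1
      exact hno (x ^ j) z hxj (hQo z hz.1 hz1) (Subgroup.mem_centralizer_singleton_iff.1 hz.2).symm) (by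
      intro w hw h hh
      -- (w y)^p ∈ V
      have h6 : ((w * (h * x * h⁻¹) : G)) ^ p ∈ V := by
        have h7 : (QuotientGroup.mk' V) (w * (h * x * h⁻¹)) ^ p = 1 := by
          have h8 : (QuotientGroup.mk' V) w = 1 := (QuotientGroup.eq_one_iff w).2 hw
          rw [map_mul, h8, one_mul, ← map_pow, conj_pow, hxp1]
          simp
        rw [← map_pow] at h7
        exact (QuotientGroup.eq_one_iff _).1 h7
      have h7 := hVx _ h6
      rw [← pow_mul] at h7
      rcases hord (w * (h * x * h⁻¹)) with h8 | h8 | h8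
      · rw [orderOf_eq_one_iff.1 h8, one_pow]
      · rw [← h8]; exact pow_orderOf_eq_one _
      · exfalso
        have h9 := orderOf_dvd_of_pow_eq_one h7
        rw [h8] at h9
        rcases hq.dvd_mul.1 h9 with h10 | h10 <;>
        exact hpq ((Nat.prime_dvd_prime_iff_eq hq hp).1 h10).symm) v hv
    rw [hQcard] at h5
    have h6 := orderOf_dvd_of_pow_eq_one h5
    rw [hVo v hv hv1] at h6
    exact hpq ((Nat.prime_dvd_prime_iff_eq hp hq).1 h6)
  refine ⟨Q, ⟨?_, ?_, ?_⟩, by rw [hQcard]; exact hq⟩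
  · intro h
    rw [h, Subgroup.card_bot] at hQcard
    exact hq.ne_one hQcard.symm
  · intro h
    have h1 : V = ⊥ := by
      rw [eq_bot_iff]
      intro v hv
      rw [Subgroup.mem_bot]
      by_contra hv1
      have h2 := hVo v hv hv1
      have h3 := hQo v (by rw [h]; trivial) hv1
      exact hpq (h2.symm.trans h3)
    exact hV1 h1
  · intro g hg
    by_contra hne
    apply hg
    rw [← hN]
    have h1 : (Q : Subgroup G) ⊓ MulAut.conj g • (Q : Subgroup G) = Q := by
      apply Subgroup.eq_of_le_of_card_ge inf_le_left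
      rw [hQcard]
      have h2 : Nat.card ↥((Q : Subgroup G) ⊓ MulAut.conj g • (Q : Subgroup G)) ∣ q := by
        have := Subgroup.card_dvd_of_le (inf_le_left : (Q : Subgroup G) ⊓ MulAut.conj g • (Q : Subgroup G) ≤ Q)
        rwa [hQcard] at this
      rcases (Nat.dvd_prime hq).1 h2 with h3 | h3
      · exact absurd (Subgroup.card_eq_one.1 h3) hne
      · exact le_of_eq h3.symm
    have h2 : (Q : Subgroup G) ≤ MulAut.conj g • (Q : Subgroup G) := by
      calc (Q : Subgroup G) = (Q : Subgroup G) ⊓ MulAut.conj g • (Q : Subgroup G) := h1.symm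
        _ ≤ _ := inf_le_right
    have h3 : (Q : Subgroup G) = MulAut.conj g • (Q : Subgroup G) := by
      apply Subgroup.eq_of_le_of_card_ge h2
      have : Nat.card ↥(MulAut.conj g • (Q : Subgroup G)) = Nat.card (Q : Subgroup G) :=
        Nat.card_congr (Subgroup.equivSMul (MulAut.conj g) (Q : Subgroup G)).symm.toEquiv
      rw [this]
    rw [Subgroup.mem_normalizer_iff]
    intro h
    constructor
    · intro hh
      rw [h3]
      exact Subgroup.smul_mem_pointwise_smul h (MulAut.conj g) _ hh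
    · intro hh
      rw [h3] at hh
      have := (Subgroup.mem_pointwise_smul_iff_inv_smul_mem).1 hh
      rw [← map_inv, MulAut.smul_def, MulAut.conj_apply] at this
      convert this using 1
      group


section Count

variable [Finite G] {a b : ℕ}

theorem three_of_ncard
    (h : (((fun m : ℕ => Nat.card {g : G // orderOf g = m}) '' Set.range (orderOf : G → ℕ))).ncard = 3) :
    ∃ a b, Three G a b := by
  obtain ⟨S, hS⟩ : ∃ S, S = ((fun m : ℕ => Nat.card {g : G // orderOf g = m}) '' Set.range (orderOf : G → ℕ)) :=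
    ⟨_, rfl⟩
  rw [← hS] at h
  have h1 : 1 ∈ S := by rw [hS]; exact ⟨1, ⟨1, orderOf_one⟩, so_one⟩
  have hfin : S.Finite := Set.finite_of_ncard_ne_zero (by rw [h]; norm_num)
  have h2 : (S \ {1}).ncard = 2 := by rw [Set.ncard_diff_singleton_of_mem h1, h]
  obtain ⟨a, b, hab, hS2⟩ := Set.ncard_eq_two.1 h2
  have hmem : ∀ k, so G k ≠ 0 → so G k ∈ S := by
    intro k hk
    obtain ⟨g, hg⟩ := (so_ne_zero_iff k).1 hk
    rw [hS]
    exact ⟨k, ⟨g, hg⟩, rfl⟩
  have hne : ∀ s ∈ S, s ≠ 0 := by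
    intro s hs
    rw [hS] at hs
    obtain ⟨m, ⟨g, hg⟩, rfl⟩ := hs
    exact (so_ne_zero_iff m).2 ⟨g, hg⟩
  have haS : a ∈ S \ {1} := by rw [hS2]; simp
  have hbS : b ∈ S \ {1} := by rw [hS2]; simp
  refine ⟨a, b, ⟨fun k => ?_, haS.2, hbS.2, hne a haS.1, hne b hbS.1, hab⟩⟩
  by_cases hk : so G k = 0
  · exact Or.inl hk
  · by_cases h1 : so G k = 1
    · exact Or.inr (Or.inl h1)
    · have h3 : so G k ∈ S \ {1} := ⟨hmem k hk, h1⟩
      rw [hS2] at h3
      rcases h3 with h3 | h3
      · exact Or.inr (Or.inr (Or.inl h3))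
      · exact Or.inr (Or.inr (Or.inr h3))

theorem two_lt (hodd : Odd (Nat.card G)) {r : ℕ} (hr : r.Prime) (hrd : r ∣ Nat.card G) : 2 < r := by
  refine lt_of_le_of_ne hr.two_le ?_
  rintro rfl
  have := Nat.odd_iff.1 hodd
  omega

theorem typ (h : Three G a b) (hodd : Odd (Nat.card G)) {r : ℕ} (hr : r.Prime) (hrd : r ∣ Nat.card G) :
    so G r = a ∨ so G r = b := by
  rcases h.val r (two_lt hodd hr hrd) with h1 | h1 | h1
  · exact absurd h1 (so_prime_ne_zero r hr hrd)
  · exact Or.inl h1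
  · exact Or.inr h1

theorem so_ne (h : Three G a b) (hodd : Odd (Nat.card G)) {p q : ℕ} (hp : p.Prime) (hq : q.Prime) (hpq : p ≠ q)
    (hpd : p ∣ Nat.card G) (hqd : q ∣ Nat.card G) (hpa : so G p = a) (hqa : so G q = a) : False := by
  have odd2 : ∀ r : ℕ, r.Prime → r ∣ Nat.card G → r ≠ 2 := fun r hr hrd => (two_lt hodd hr hrd).ne'
  have hall : ∀ r : ℕ, r.Prime → r ∣ Nat.card G → so G r = a := by
    intro r hr hrd
    by_cases hpr : p = r
    · rw [← hpr]; exact hpa
    by_cases hqr : q = r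
    · rw [← hqr]; exact hqa
    rcases typ h hodd hr hrd with h1 | h1
    · exact h1
    · exact (lemO3 h hp hq hr hpq hpr hqr (odd2 p hp hpd) (odd2 q hq hqd) (odd2 r hr hrd) hpd hqd hrd hpa hqa h1).elim
  have hsq : ∀ r : ℕ, r.Prime → r ∣ Nat.card G → ∀ i, so G (r ^ (i + 2)) = 0 := by
    intro r hr hrd i
    have hrf : Fact r.Prime := ⟨hr⟩
    obtain ⟨s, hs, hsd, hrs⟩ : ∃ s : ℕ, s.Prime ∧ s ∣ Nat.card G ∧ r ≠ s := by
      by_cases hrp : r = p
      · exact ⟨q, hq, hqd, by rw [hrp]; exact hpq⟩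
      · exact ⟨p, hp, hpd, hrp⟩
    obtain ⟨h1, h2, h3⟩ := lemO h hr hs hrs (odd2 r hr hrd) hrd hsd (hall r hr hrd) (hall s hs hsd)
    have h4 : r ∣ so G (r ^ (i + 2)) := by
      refine dvd_trans ?_ (totient_dvd_so _)
      rw [Nat.totient_prime_pow_succ hr]
      exact dvd_mul_of_dvd_left (dvd_pow_self r (by omega)) _
    have hgt : 2 < r ^ (i + 2) :=
      lt_of_lt_of_le (two_lt hodd hr hrd) (Nat.le_self_pow (by omega) r)
    rcases h.val _ hgt with h5 | h5 | h5
    · exact h5
    · rw [h5] at h4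
      have h6 := castz1 h4
      rw [h3] at h6
      exact absurd h6 (by simp)
    · rw [h5] at h4
      have h6 := castz1 h4
      rw [h2] at h6
      exact absurd h6 (by simp)
  have hdvd : Nat.card G ∣ 1 + a := by
    rw [Nat.dvd_iff_prime_pow_dvd_dvd]
    intro r k hr hrk
    have h1 := dvd_sum_so (G := G) (r ^ k) hrk
    cases k with
    | zero => simp
    | succ k =>
      have hrd : r ∣ Nat.card G := (dvd_pow_self r (Nat.succ_ne_zero k)).trans hrk
      rw [Nat.sum_divisors_prime_pow hr, Finset.sum_range_succ', Finset.sum_range_succ'] at h1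
      simp only [zero_add, pow_one, pow_zero, so_one, add_assoc, Nat.reduceAdd] at h1
      have h2 : ∑ k ∈ Finset.range k, so G (r ^ (k + 2)) = 0 :=
        Finset.sum_eq_zero fun i _ => hsq r hr hrd i
      rw [h2, zero_add, hall r hr hrd, add_comm a 1] at h1
      exact h1
  have h1 := Nat.le_of_dvd (by omega) hdvd
  have h2 := sum_so_le (G := G) {1, p, q}
  rw [Finset.sum_insert (by simp [hp.ne_one.symm, hq.ne_one.symm]), Finset.sum_insert (by simpa using hpq),
    Finset.sum_singleton, so_one, hpa, hqa] at h2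
  have := h.a0
  omega

/-- a `p`-group acting on the elements of order `k` whose number is prime to `p` fixes one. -/
theorem exists_fixed {p : ℕ} [Fact p.Prime] (P : Sylow p G) (k : ℕ) (h : ¬ p ∣ so G k) :
    ∃ y : G, orderOf y = k ∧ ∀ x ∈ (P : Subgroup G), x * y = y * x := by
  have ho : ∀ g y : G, orderOf (g * y * g⁻¹) = orderOf y := by
    intro g y
    have := orderOf_injective (MulAut.conj g).toMonoidHom (MulAut.conj g).injective y
    simpa using this
  let _ : MulAction (P : Subgroup G) {y : G // orderOf y = k} :=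
    { smul := fun g y => ⟨(g : G) * y.1 * (g : G)⁻¹, by rw [ho]; exact y.2⟩
      one_smul := fun y => Subtype.ext (show ((1 : (P : Subgroup G)) : G) * y.1 * ((1 : (P : Subgroup G)) : G)⁻¹ = y.1 by simp)
      mul_smul := fun g g' y => Subtype.ext (show ((g * g' : (P : Subgroup G)) : G) * y.1 * ((g * g' : (P : Subgroup G)) : G)⁻¹ =
        (g : G) * ((g' : G) * y.1 * (g' : G)⁻¹) * (g : G)⁻¹ by push_cast; group) }
  obtain ⟨y, hy⟩ := P.isPGroup'.nonempty_fixed_point_of_prime_not_dvd_card {y : G // orderOf y = k} h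
  refine ⟨y.1, y.2, fun x hx => ?_⟩
  have h1 : (x : G) * y.1 * (x : G)⁻¹ = y.1 := congrArg Subtype.val (hy ⟨x, hx⟩)
  exact mul_inv_eq_iff_eq_mul.1 h1

theorem so_mul_ne (h : Three G a b) (hodd : Odd (Nat.card G)) {p q : ℕ} (hp : p.Prime) (hq : q.Prime) (hpq : p ≠ q)
    (hpd : p ∣ Nat.card G) (hqd : q ∣ Nat.card G) (hpa : so G p = a) (hqb : so G q = b)
    (hw : so G (p * q) = a) : False := by
  have hpf : Fact p.Prime := ⟨hp⟩
  have hqf : Fact q.Prime := ⟨hq⟩
  have hcop : p.Coprime q := (Nat.coprime_primes hp hq).2 hpq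
  have e1 := castz1 (dvd_so_prime (G := G) p hp hpd)
  have e2 := castz q (dvd_so_two_primes (G := G) p q hp hq hpq hpd hqd)
  rw [hpa] at e1 e2
  rw [hqb, hw] at e2
  push_cast at e1 e2
  have hb : (b : ZMod p) = 1 := by linear_combination e2 - 2 * e1
  obtain ⟨P⟩ : Nonempty (Sylow p G) := inferInstance
  obtain ⟨y₀, hy₀, hy₀P⟩ := exists_fixed P q (by
    rw [hqb]
    intro h1
    have := castz1 h1
    rw [hb] at this
    exact absurd this (by simp))
  have hex : ∀ x : {x : G // orderOf x = p}, ∃ y : G, orderOf y = q ∧ x.1 * y = y * x.1 := by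
    rintro ⟨x, hx⟩
    have h1 : IsPGroup p (Subgroup.zpowers x) := by
      apply IsPGroup.of_card (n := 1)
      rw [Nat.card_zpowers, hx, pow_one]
    obtain ⟨P', hP'⟩ := h1.exists_le_sylow
    obtain ⟨g, hg⟩ := MulAction.exists_smul_eq G P P'
    have h2 : x ∈ (g • P : Sylow p G) := by rw [hg]; exact hP' (Subgroup.mem_zpowers x)
    have h3 : g⁻¹ * x * g ∈ (P : Subgroup G) := by
      have h4 : x ∈ MulAut.conj g • (P : Subgroup G) := h2
      rw [Subgroup.mem_pointwise_smul_iff_inv_smul_mem, ← map_inv, MulAut.smul_def, MulAut.conj_apply,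
        inv_inv] at h4
      exact h4
    refine ⟨g * y₀ * g⁻¹, ?_, ?_⟩
    · have := orderOf_injective (MulAut.conj g).toMonoidHom (MulAut.conj g).injective y₀
      rw [← hy₀, ← this]
      simp
    · have h5 := hy₀P _ h3
      calc x * (g * y₀ * g⁻¹) = g * ((g⁻¹ * x * g) * y₀) * g⁻¹ := by group
        _ = g * (y₀ * (g⁻¹ * x * g)) * g⁻¹ := by rw [h5]
        _ = g * y₀ * g⁻¹ * x := by group
  choose Y hY1 hY2 using hex
  have hYo : ∀ (x : {x : G // orderOf x = p}) (i : Fin 2), orderOf (Y x ^ ((i : ℕ) + 1)) = q := by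
    intro x i
    have h1 : (orderOf (Y x)).Coprime ((i : ℕ) + 1) := by
      rw [hY1]
      refine (Nat.Prime.coprime_iff_not_dvd hq).2 ?_
      intro h2
      have h3 := Nat.le_of_dvd (Nat.succ_pos _) h2
      have h4 := two_lt hodd hq hqd
      have h5 := i.2
      omega
    rw [Nat.Coprime.orderOf_pow h1, hY1]
  have hYc : ∀ (x : {x : G // orderOf x = p}) (i : Fin 2), Commute x.1 (Y x ^ ((i : ℕ) + 1)) := by
    intro x i
    exact Commute.pow_right (hY2 x) _
  obtain ⟨m, -, hm⟩ := Nat.exists_mul_mod_eq_one_of_coprime hcop.symm hp.one_lt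
  let φ : {x : G // orderOf x = p} × Fin 2 → {g : G // orderOf g = p * q} := fun z =>
    ⟨z.1.1 * Y z.1 ^ ((z.2 : ℕ) + 1), orderOf_mul_pq hcop z.1.2 (hYo _ _) (hYc _ _)⟩
  have hφ : Function.Injective φ := by
    rintro ⟨x, i⟩ ⟨x', i'⟩ hxx
    have h1 : x.1 * Y x ^ ((i : ℕ) + 1) = x'.1 * Y x' ^ ((i' : ℕ) + 1) := congrArg Subtype.val hxx
    have h2 : ∀ (x : {x : G // orderOf x = p}) (i : Fin 2), (x.1 * Y x ^ ((i : ℕ) + 1)) ^ (q * m) = x.1 := by
      intro x i
      rw [(hYc x i).mul_pow, pow_mul (Y x ^ _), ← hYo x i, pow_orderOf_eq_one, one_pow, mul_one, hYo x i,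
        ← pow_mod_orderOf, x.2, hm, pow_one]
    have h3 : x = x' := Subtype.ext (by rw [← h2 x i, h1, h2])
    subst h3
    have h4 : Y x ^ ((i : ℕ) + 1) = Y x ^ ((i' : ℕ) + 1) := mul_left_cancel h1
    have h5 := (pow_inj_mod.1 h4)
    rw [hY1] at h5
    have h6 := two_lt hodd hq hqd
    have h7 := i.2
    have h8 := i'.2
    rw [Nat.mod_eq_of_lt (by omega), Nat.mod_eq_of_lt (by omega)] at h5
    have h9 : i = i' := Fin.ext (by omega)
    rw [h9]
  have h1 := Nat.card_le_card_of_injective φ hφ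
  rw [Nat.card_prod] at h1
  have h2 : Nat.card {x : G // orderOf x = p} = a := hpa
  have h3 : Nat.card {x : G // orderOf x = p * q} = a := hw
  have h4 : Nat.card (Fin 2) = 2 := by simp
  rw [h2, h3, h4] at h1
  have := h.a0
  omega

theorem so_sq (h : Three G a b) (hodd : Odd (Nat.card G)) {p q : ℕ} (hp : p.Prime) (hq : q.Prime) (hpq : p ≠ q)
    (hpd : p ∣ Nat.card G) (hqd : q ∣ Nat.card G) (hpa : so G p = a) (hqb : so G q = b)
    (hw : so G (p * q) = 0) : so G (p * p) = 0 := by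
  have hpf : Fact p.Prime := ⟨hp⟩
  have hqf : Fact q.Prime := ⟨hq⟩
  have hcop : p.Coprime q := (Nat.coprime_primes hp hq).2 hpq
  have e1 := castz1 (dvd_so_prime (G := G) p hp hpd)
  have e2 := castz1 (dvd_so_prime (G := G) q hq hqd)
  rw [hpa] at e1
  rw [hqb] at e2
  push_cast at e1 e2
  have hpdv : p ∣ so G (p * p) := by
    refine dvd_trans ?_ (totient_dvd_so _)
    rw [← sq, Nat.totient_prime_pow_succ hp, pow_one]
    exact Dvd.intro _ rfl
  have hqdv : q ∣ so G (p * p) := by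
    by_contra hcon
    obtain ⟨Q⟩ : Nonempty (Sylow q G) := inferInstance
    obtain ⟨x, hx, hxQ⟩ := exists_fixed Q (p * p) hcon
    obtain ⟨y, hy⟩ := exists_prime_orderOf_dvd_card' (G := (Q : Subgroup G)) q (by
      rw [Q.card_eq_multiplicity]
      exact dvd_pow_self q (by
        have := (hq.dvd_iff_one_le_factorization Nat.card_pos.ne').1 hqd
        omega))
    have hy' : orderOf (y : G) = q := (Subgroup.orderOf_coe y).trans hy
    have h1 : orderOf (x ^ p) = p := by
      rw [orderOf_pow_of_dvd hp.ne_zero (by rw [hx]; exact Dvd.intro _ rfl), hx, Nat.mul_div_cancel _ hp.pos]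
    have h2 : Commute x (y : G) := (hxQ y y.2).symm
    exact (so_ne_zero_iff _).2 ⟨_, orderOf_mul_pq hcop h1 hy' (Commute.pow_left h2 p)⟩ hw
  have hgt : 2 < p * p := by
    have := hp.two_le
    nlinarith
  rcases h.val _ hgt with h5 | h5 | h5
  · exact h5
  · rw [h5] at hpdv
    have h6 := castz1 hpdv
    rw [h6] at e1
    exact absurd e1 (by simp)
  · rw [h5] at hqdv
    have h6 := castz1 hqdv
    rw [h6] at e2
    exact absurd e2 (by simp)

theorem exponent_eq {p q r : ℕ} (hr : r.Prime) (hrpq : r = p ∨ r = q) (hp : p.Prime) (hq : q.Prime)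
    (hord : ∀ g : G, orderOf g = 1 ∨ orderOf g = p ∨ orderOf g = q) [Fact r.Prime] (P : Sylow r G)
    (hrd : r ∣ Nat.card G) : Monoid.exponent ↥(P : Subgroup G) = r := by
  have h1 : r ∣ Nat.card (P : Subgroup G) := by
    rw [P.card_eq_multiplicity]
    exact dvd_pow_self r (by
      have := (hr.dvd_iff_one_le_factorization Nat.card_pos.ne').1 hrd
      omega)
  have h2 : Nontrivial (P : Subgroup G) := by
    rw [← Finite.one_lt_card_iff_nontrivial]
    exact lt_of_lt_of_le hr.one_lt (Nat.le_of_dvd Nat.card_pos h1)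
  rw [Monoid.exponent_eq_prime_iff hr]
  intro g hg
  obtain ⟨k, hk⟩ := IsPGroup.iff_orderOf.1 P.isPGroup' g
  have h3 := hord (g : G)
  rw [Subgroup.orderOf_coe] at h3
  have key : ∀ s : ℕ, s.Prime → orderOf g = s → orderOf g = r := by
    intro s hs h4
    rw [h4] at hk ⊢
    have h5 : s ∣ r ^ k := by rw [← hk]
    exact (Nat.prime_dvd_prime_iff_eq hs hr).1 (hs.dvd_of_dvd_pow h5)
  rcases h3 with h3 | h3 | h3
  · exact absurd (orderOf_eq_one_iff.1 h3) hg
  · exact key p hp h3
  · exact key q hq h3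

theorem main (h : Three G a b) (hodd : Odd (Nat.card G)) {p q : ℕ} (hp : p.Prime) (hq : q.Prime) (hpq : p ≠ q)
    (hpd : p ∣ Nat.card G) (hqd : q ∣ Nat.card G) (hpa : so G p = a) (hqb : so G q = b)
    (hall : ∀ r : ℕ, r.Prime → r ∣ Nat.card G → r = p ∨ r = q) :
    (∀ (r : ℕ) [Fact r.Prime] (P : Sylow r G), r ∣ Nat.card G → Monoid.exponent ↥(P : Subgroup G) = r) ∧
        ∃ C : Subgroup G, Cfsg.IsFrobeniusComplement C ∧ (Nat.card ↥C).Prime := by
  have hw : so G (p * q) = 0 := by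
    have hgt : 2 < p * q := by
      have := hp.two_le
      have := two_lt hodd hq hqd
      nlinarith
    rcases h.val _ hgt with h5 | h5 | h5
    · exact h5
    · exact (so_mul_ne h hodd hp hq hpq hpd hqd hpa hqb h5).elim
    · exact (so_mul_ne h.symm hodd hq hp hpq.symm hqd hpd hqb hpa (by rw [mul_comm]; exact h5)).elim
  have hpp := so_sq h hodd hp hq hpq hpd hqd hpa hqb hw
  have hqq := so_sq h.symm hodd hq hp hpq.symm hqd hpd hqb hpa (by rw [mul_comm]; exact hw)
  have hord : ∀ g : G, orderOf g = 1 ∨ orderOf g = p ∨ orderOf g = q := by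
    intro g
    by_cases h1 : orderOf g = 1
    · exact Or.inl h1
    right
    obtain ⟨r, hr, m, hm⟩ := Nat.exists_prime_and_dvd h1
    have hgd : orderOf g ∣ Nat.card G := orderOf_dvd_natCard g
    have hr' := hall r hr ((Dvd.intro m hm.symm).trans hgd)
    by_cases hm1 : m = 1
    · rw [hm1, mul_one] at hm
      rw [hm]
      exact hr'
    exfalso
    obtain ⟨s, hs, n, hn⟩ := Nat.exists_prime_and_dvd hm1
    have hsd : s ∣ Nat.card G := by
      refine dvd_trans ?_ hgd
      rw [hm, hn]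
      exact ⟨r * n, by ring⟩
    have hs' := hall s hs hsd
    have hn0 : n ≠ 0 := by
      rintro rfl
      rw [mul_zero] at hn
      rw [hn, mul_zero] at hm
      exact (orderOf_pos g).ne' hm
    have h2 : orderOf (g ^ n) = r * s := by
      rw [orderOf_pow_of_dvd hn0 (by rw [hm, hn]; exact ⟨r * s, by ring⟩), hm, hn, ← mul_assoc,
        Nat.mul_div_cancel _ (Nat.pos_of_ne_zero hn0)]
    have h3 : so G (r * s) ≠ 0 := (so_ne_zero_iff _).2 ⟨_, h2⟩
    rcases hr' with rfl | rfl <;> rcases hs' with rfl | rfl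
    · exact h3 hpp
    · exact h3 hw
    · exact h3 (by rw [mul_comm]; exact hw)
    · exact h3 hqq
  refine ⟨fun r hrf P hrd => exponent_eq hrf.out (hall r hrf.out hrd) hp hq hord P hrd, ?_⟩
  have hsol : Group.IsSolvable G := S3996.main h
  have hnt : Nontrivial G := by
    rw [← Finite.one_lt_card_iff_nontrivial]
    exact lt_of_lt_of_le hp.one_lt (Nat.le_of_dvd Nat.card_pos hpd)
  obtain ⟨r, V, hr, hVn, hV1, hVe⟩ := H30.exists_normal_elementaryAbelian G
  have hrf : Fact r.Prime := ⟨hr⟩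
  have hrd : r ∣ Nat.card G := by
    obtain ⟨⟨v, hv⟩, hv1⟩ := Subgroup.ne_bot_iff_exists_ne_one.1 hV1
    have h1 : orderOf v = r := orderOf_eq_prime (hVe.2 v hv) (fun h => hv1 (Subtype.ext h))
    rw [← h1]
    exact orderOf_dvd_natCard v
  rcases hall r hr hrd with rfl | rfl
  · exact frob_of_normal hp hq hpq hord hVn hV1 hVe hqd
  · exact frob_of_normal hq hp hpq.symm (fun g => by
      rcases hord g with h1 | h1 | h1
      · exact Or.inl h1
      · exact Or.inr (Or.inr h1)
      · exact Or.inr (Or.inl h1)) hVn hV1 hVe hpd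

end Count

end Cfsg.Agent.H11.ThreeOrd
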